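import Cfsg.Agent.StdL.Defs
import Cfsg.Agent.Class.LinearBasic

/-! Generic lemmas for `StdL/Bas`. -/

set_option autoImplicit false

namespace Cfsg.Agent.StdL

open Matrix Subgroup Cfsg.Agent.LnT Cfsg.Agent.PLocal.Amb

section grp

variable {A B : Type*} [Group A] [Group B]

theorem exists_two_odd [Finite A] (x : A) : ∃ k m : ℕ, Odd m ∧ (x ^ m) ^ 2 ^ k = 1 := by
  obtain ⟨k, m, hm, e⟩ := Nat.exists_eq_two_pow_mul_odd (orderOf_pos x).ne'
  exact ⟨k, m, hm, by rw [← pow_mul, mul_comm, ← e, pow_orderOf_eq_one]⟩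

theorem odd_of_pow {x : A} {m : ℕ} (hm : Odd m) (h : x ^ m = 1) : Odd (orderOf x) :=
  hm.of_dvd_nat (orderOf_dvd_of_pow_eq_one h)

theorem eq_one_of_odd_two {x : A} {k : ℕ} (ho : Odd (orderOf x)) (h : x ^ 2 ^ k = 1) : x = 1 :=
  orderOf_eq_one_iff.1 (((Nat.coprime_two_right.2 ho).pow_right k).eq_one_of_dvd
    (orderOf_dvd_of_pow_eq_one h))

theorem exists_lift_two [Finite A] (f : A →* B) (a : A) {k : ℕ} (h : f a ^ 2 ^ k = 1) :
    ∃ n j : ℕ, f (a ^ n) = f a ∧ (a ^ n) ^ 2 ^ j = 1 := by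
  obtain ⟨j, m, hm, e⟩ := exists_two_odd a
  obtain ⟨i, hi⟩ := exists_pow_eq_self_of_coprime (x := f a) (n := m)
    (Nat.Coprime.coprime_dvd_right (orderOf_dvd_of_pow_eq_one h)
      ((Nat.coprime_two_right.2 hm).pow_right k))
  exact ⟨m * i, j, by rw [map_pow, pow_mul, hi], by rw [pow_mul, pow_right_comm, e, one_pow]⟩

/-- A cyclic Sylow `2`-subgroup has a normal complement. -/
theorem exists_odd_sub [Finite A] (h : ∀ P : Subgroup A, IsPGroup 2 P → IsCyclic P) :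
    ∃ O : Subgroup A, Odd (Nat.card O) ∧ ∀ x, Odd (orderOf x) → x ∈ O := by
  rcases Nat.even_or_odd (Nat.card A) with he | ho
  · have := Fact.mk Nat.prime_two
    obtain ⟨P⟩ : Nonempty (Sylow 2 A) := inferInstance
    have h1 := (h P P.2).normalizer_le_centralizer ((Nat.minFac_eq_two_iff _).2 he.two_dvd)
    refine ⟨(MonoidHom.transferSylow P h1).ker, Nat.not_even_iff_odd.1 fun c =>
      MonoidHom.not_dvd_card_ker_transferSylow P h1 c.two_dvd, fun x hx => ?_⟩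
    obtain ⟨k, hk⟩ := P.2 (MonoidHom.transferSylow P h1 x)
    exact eq_one_of_odd_two (hx.of_dvd_nat (orderOf_map_dvd _ x)) hk
  · exact ⟨⊤, by rwa [card_top], fun _ _ => mem_top _⟩

theorem card_le_of_hom [Finite A] (f : A →* B) (s : Set B) (hs : s.Finite) (h : ∀ a, f a ∈ s) :
    Nat.card A ≤ s.ncard * Nat.card f.ker := by
  rw [← f.ker.card_mul_index, index_ker, mul_comm]
  exact Nat.mul_le_mul_right _ (Set.ncard_le_ncard (s := (f.range : Set B))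
    (by rintro _ ⟨a, rfl⟩; exact h a) hs)

theorem exists_map_eq [Finite A] (f : A →* B) {H : Subgroup A} {P : Subgroup B} (hP : IsPGroup 2 P)
    (h : P ≤ H.map f) : ∃ Q ≤ H, IsPGroup 2 Q ∧ Q.map f = P := by
  have := Fact.mk Nat.prime_two
  obtain ⟨Q, hQ⟩ := exists_isSyl 2 (H ⊓ P.comap f)
  refine ⟨Q, hQ.le.trans inf_le_left, hQ.pgrp, le_antisymm
    (map_le_iff_le_comap.2 (hQ.le.trans inf_le_right)) fun y hy => ?_⟩
  obtain ⟨x, hx, rfl⟩ := h hy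
  have : Finite f.range := Finite.of_surjective _ f.rangeRestrict_surjective
  obtain ⟨q, hq, e⟩ := (hQ.map f.rangeRestrict).max _ (isPGroup_iff.2 (by
    rintro _ ⟨a, ha, rfl⟩
    exact (isPGroup_iff.1 hP _ ha.2).imp fun k e => Subtype.ext e)) (map_mono hQ.le) le_rfl
      ⟨x, ⟨hx, hy⟩, rfl⟩
  exact ⟨q, hq, congrArg Subtype.val e⟩

end grp

variable {F ι : Type*} [Field F] [Fintype ι] [DecidableEq ι]

theorem eq_top_of_tv (H : Subgroup (SpecialLinearGroup ι F))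
    (h : ∀ u φ, φ ⬝ᵥ u = 0 → tv u φ ∈ H) : H = ⊤ :=
  Class.SL_eq_top_of_transvection_mem H fun i j hij c => by
    have e : (Pi.single j c : ι → F) ⬝ᵥ Pi.single i 1 = 0 := by simp [hij.symm]
    convert h _ _ e using 1
    refine Subtype.ext ?_
    rw [tv_val e, SpecialLinearGroup.transvection_coe]
    congr 1
    ext a b
    simp [vecMulVec_apply, Pi.single_apply, single_apply, ite_and, eq_comm]
    split_ifs <;> rfl

omit [DecidableEq ι] in
theorem exists_11 (h : 3 ≤ Fintype.card ι) (φ e : ι → F) : ∃ u, φ ⬝ᵥ u = 0 ∧ ∀ a : F, u ≠ a • e := by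
  obtain ⟨u, h1, h2⟩ := exists_ker_notMem (a := 1) (b := 1) (by omega) ![φ] ![e]
  refine ⟨u, h1 0, fun a hu => h2 ?_⟩
  rw [hu]
  exact Submodule.smul_mem _ _ (Submodule.subset_span ⟨0, rfl⟩)

omit [DecidableEq ι] in
theorem Semi.smul {σ : F ≃+* F} {T S : (ι → F) ≃+ (ι → F)} (h : Semi σ T S) {a : F} (ha : a ≠ 0) :
    ∃ T' S', Semi σ T' S' ∧ (∀ u, T' u = a⁻¹ • T u) ∧ ∀ φ, S' φ = a • S φ :=
  ⟨T.trans (LinearEquiv.smulOfNeZero F (ι → F) a⁻¹ (inv_ne_zero ha)).toAddEquiv,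
    S.trans (LinearEquiv.smulOfNeZero F (ι → F) a ha).toAddEquiv,
    ⟨fun b u => by simp [h.smT], fun b u => by simp [h.smS],
      fun φ u => by simp [h.dot, ha]⟩, fun _ => rfl, fun _ => rfl⟩

variable [CharP F 2]

theorem odd_center [Finite F] {x : SpecialLinearGroup ι F} (h : x ∈ center _) : Odd (orderOf x) := by
  obtain ⟨k, m, hm, e⟩ := exists_two_odd x
  exact odd_of_pow hm (eq_one_of_center (pow_mem h m) e)

theorem trans_ker3 (hn : 3 ≤ Fintype.card ι) {ε u v : ι → F} (h1 : ε ⬝ᵥ u = 0) (h2 : ε ⬝ᵥ v = 0)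
    (hu : u ≠ 0) (hv : v ≠ 0) : ∃ g : SpecialLinearGroup ι F, ε ᵥ* g.1 = ε ∧ g.1 *ᵥ u = v := by
  have step : ∀ {u v : ι → F}, ε ⬝ᵥ u = 0 → ε ⬝ᵥ v = 0 → u ≠ 0 → (∀ b : F, v ≠ b • u) →
      ∃ g : SpecialLinearGroup ι F, ε ᵥ* g.1 = ε ∧ g.1 *ᵥ u = v := by
    intro u v a1 a2 a3 a4
    obtain ⟨θ, -, a4, a5⟩ := exists_dot11 (e := 0) (u := u) (v := v) (by simpa) (by simpa)
    have h : θ ⬝ᵥ (u + v) = 0 := by rw [dotProduct_add, a4, a5, CharTwo.add_self_eq_zero]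
    exact ⟨tv (u + v) θ, by simp [vecMul_tv h, a1, a2], by
      rw [tv_mulVec h, a4, one_smul, ← add_assoc, vadd_self, zero_add]⟩
  by_cases h : ∀ b : F, v ≠ b • u
  · exact step h1 h2 hu h
  push Not at h
  obtain ⟨b, rfl⟩ := h
  obtain ⟨w, w1, w2⟩ := exists_11 hn ε u
  obtain ⟨g, g1, g2⟩ := step h1 w1 hu w2
  obtain ⟨k, k1, k2⟩ := step h2 w1 hv fun c e => w2 (c * b) (by rw [e, smul_smul])
  exact ⟨k⁻¹ * g, by rw [vecMul_mul', vecMul_inv_of k1, g1], by rw [mul_mulVec', g2, inv_mulVec_of k2]⟩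

end Cfsg.Agent.StdL
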