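import Cfsg.Agent.StdL.Defs
import Cfsg.Agent.KSG.AutPSL3
import Cfsg.Agent.Class.LinearBasic

/-! Elements normalising `r.range` act semilinearly. -/

set_option autoImplicit false
set_option linter.unusedSectionVars false

namespace Cfsg.Agent.StdL

open Matrix Subgroup Cfsg.Agent.LnT Cfsg.Agent.PLocal.Amb
open scoped commutatorElement

variable {F ι G : Type*} [Field F] [Fintype ι] [DecidableEq ι] [Group G] [CharP F 2] [Finite F]
  {r : SpecialLinearGroup ι F →* G}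

namespace A

open Cfsg.Agent.KSG

variable {σ σ' σ'' : F ≃+* F} {T S T' S' : (ι → F) ≃+ (ι → F)}

omit [CharP F 2] [Finite F] in
theorem hom_ext {f g : SpecialLinearGroup ι F →* G}
    (h : ∀ u φ, φ ⬝ᵥ u = 0 → f (tv u φ) = g (tv u φ)) : f = g :=
  MonoidHom.ext fun x => (Class.SL_eq_top_of_transvection_mem (f.eqLocus g) fun i j hij c => by
    have e : (Pi.single j c : ι → F) ⬝ᵥ Pi.single i 1 = 0 := by simp [hij.symm]
    rw [show SpecialLinearGroup.transvection hij c = tv (Pi.single i 1) (Pi.single j c) from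
      Subtype.ext (by
        rw [tv_val e]
        refine congrArg (1 + ·) (?_ : single i j c = _)
        simp [-mul_ite, single, vecMulVec, ite_and, Pi.single_apply, eq_comm])]
    exact h _ _ e).ge (mem_top x)

omit [Finite F] in
theorem eq_of (h : Rp r) {x y : SpecialLinearGroup ι F} (hx : x * x = 1) (hy : y * y = 1)
    (e : r x = r y) : x = y := by
  have h1 := h.ker (x * y⁻¹) (by rw [map_mul, map_inv, e, mul_inv_cancel])
  refine mul_inv_eq_one.1 (eq_one_of_center h1 (k := 1) ?_)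
  have h2 := mem_center_iff.1 h1 x
  rw [← mul_assoc, hx, one_mul, inv_eq_of_mul_eq_one_left hy] at h2
  rw [pow_one, pow_two, inv_eq_of_mul_eq_one_left hy, ← mul_assoc, ← h2, hy]

omit [Finite F] in
theorem cen (h : Rp r) {x : SpecialLinearGroup ι F} (e : ∀ y, r y * r x = r x * r y) :
    x ∈ center (SpecialLinearGroup ι F) := mem_center_iff.2 fun y => by
  have := DFunLike.congr_fun (hom_ext (f := (MulAut.conj x).toMonoidHom) (g := .id _)
    fun u φ _ => eq_of h (by simp [tv_sq]) (tv_sq u φ) (by simp [← e])) y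
  exact (mul_inv_eq_iff_eq_mul.1 this).symm

theorem one_of {x : SpecialLinearGroup ι F} (h : x ∈ center (SpecialLinearGroup ι F))
    (e : r x * r x = 1) : r x = 1 := by
  obtain ⟨m, hm⟩ : Odd (orderOf x) := Nat.not_even_iff_odd.1 fun ⟨m, hm⟩ => by
    have h1 := orderOf_dvd_of_pow_eq_one (eq_one_of_center (pow_mem h m) (k := 1) (by
      rw [pow_one, pow_two, ← pow_add, ← hm, pow_orderOf_eq_one]))
    have h2 := orderOf_pos x
    have := Nat.le_of_dvd (by omega) h1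
    omega
  have := congrArg r (pow_orderOf_eq_one x)
  rwa [hm, map_pow, pow_succ, pow_mul, pow_two, e, one_pow, one_mul, map_one] at this

omit [Finite F] in
theorem exists_e (h : Rp r) {M : Subgroup G} (hM : M = r.range) :
    ∃ e : ProjectiveSpecialLinearGroup ι F ≃* M ⧸ center M,
      ∀ x (m : M), r x = m → e (QuotientGroup.mk x) = QuotientGroup.mk m := by
  subst hM
  refine ⟨QuotientGroup.liftEquiv _ (φ := (QuotientGroup.mk' _).comp r.rangeRestrict)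
    ((QuotientGroup.mk'_surjective _).comp r.rangeRestrict_surjective) ?_, fun x m e => ?_⟩
  · ext x
    refine Iff.trans ⟨fun c => mem_center_iff.2 ?_, fun c => cen h fun y =>
      congrArg Subtype.val ((mem_center_iff (z := r.rangeRestrict x)).1 c (r.rangeRestrict y))⟩
      (QuotientGroup.eq_one_iff _).symm
    rintro ⟨_, y, rfl⟩
    exact Subtype.ext (by simp [← map_mul, mem_center_iff.1 c y])
  · exact congrArg QuotientGroup.mk (Subtype.ext e : r.rangeRestrict x = m)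

theorem key {r' α : SpecialLinearGroup ι F →* _} (hr : r'.range ≤ r.range)
    {β : MulAut (ProjectiveSpecialLinearGroup ι F)}
    (hβ : ∀ a b, r' a = r b → β (QuotientGroup.mk a) = QuotientGroup.mk b) {x}
    (hα : ∀ a, SpecialLinearGroup.toGL (α a) =
      x.left * glAct2 ι F x.right (SpecialLinearGroup.toGL a) * x.left⁻¹) :
    β = psiL ι F x ↔ ∀ u φ, φ ⬝ᵥ u = 0 → r' (tv u φ) = r (α (tv u φ)) := by
  rw [eq_psiL_iff]
  refine ⟨fun h u φ _ => ?_, fun h a b e => hβ a b ?_⟩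
  · obtain ⟨b, hb⟩ := hr ⟨tv u φ, rfl⟩
    have h1 := QuotientGroup.eq.1 ((h _ _ (hα _)).symm.trans (hβ _ _ hb.symm))
    have h2 := mem_center_iff.1 h1 (α (tv u φ))
    have a2 : α (tv u φ) * α (tv u φ) = 1 := by rw [← map_mul, tv_sq, map_one]
    have h3 := one_of (r := r) h1 (by
      rw [inv_eq_of_mul_eq_one_left a2] at h2 ⊢
      rw [← map_mul, ← mul_assoc, ← h2, ← mul_assoc, a2, one_mul, map_mul, hb, ← map_mul, tv_sq,
        map_one])
    rw [map_mul, map_inv, inv_mul_eq_one] at h3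
    exact hb.symm.trans h3.symm
  · rw [hom_ext (g := r.comp α) h, SpecialLinearGroup.toGL_injective (e.trans (hα a).symm)]; rfl

omit [DecidableEq ι] [CharP F 2] [Finite F] in
theorem symm (h : Semi σ T S) : Semi σ S T :=
  ⟨h.smS, h.smT, fun φ u => by rw [dotProduct_comm, h.dot, dotProduct_comm]⟩

omit [DecidableEq ι] [CharP F 2] [Finite F] in
theorem trans (h : Semi σ T S) (h' : Semi σ' T' S') (e : ∀ a, σ'' a = σ' (σ a)) :
    Semi σ'' (T.trans T') (S.trans S') :=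
  ⟨fun a u => by simp [h.smT, h'.smT, e], fun a u => by simp [h.smS, h'.smS, e],
    fun a u => by simp [h.dot, h'.dot, e]⟩

omit [DecidableEq ι] [CharP F 2] [Finite F] in
theorem dot0 (h : Semi σ T S) {u φ : ι → F} (e : φ ⬝ᵥ u = 0) : S φ ⬝ᵥ T u = 0 := by
  rw [h.dot, e, map_zero]

omit [DecidableEq ι] [CharP F 2] [Finite F] in
theorem semi_refl : Semi (RingEquiv.refl F) (AddEquiv.refl (ι → F)) (AddEquiv.refl _) :=
  ⟨fun _ _ => rfl, fun _ _ => rfl, fun _ _ => rfl⟩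

omit [CharP F 2] [Finite F] in
theorem resc (h : Semi σ T S) {a : F} (ha : a ≠ 0) : ∃ T' S', Semi σ T' S' ∧
    (∀ u, T' u = a • T u) ∧ (∀ φ, S' φ = a⁻¹ • S φ) ∧ ∀ u φ, φ ⬝ᵥ u = 0 →
      tv (T' u) (S' φ) = tv (T u) (S φ) ∧ tv (S' φ) (T' u) = tv (S φ) (T u) :=
  ⟨T.trans (LinearEquiv.smulOfNeZero F _ a ha).toAddEquiv,
    S.trans (LinearEquiv.smulOfNeZero F _ a⁻¹ (inv_ne_zero ha)).toAddEquiv,
    ⟨fun c u => by simp [h.smT], fun c u => by simp [h.smS],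
      fun c u => by simp [h.dot, ha]⟩, fun _ => rfl, fun _ => rfl, fun u φ e => by
    have h1 := dot0 h e
    change tv (a • T u) (a⁻¹ • S φ) = _ ∧ tv (a⁻¹ • S φ) (a • T u) = _
    rw [tv_smul _ (by simp [h1]), tv_smul _ (by simp [dotProduct_comm (T u), h1])]
    simp [ha]⟩

omit [CharP F 2] [Finite F] in
theorem semi_of (g : GL ι F) (σ : F ≃+* F) : ∃ T S, Semi σ T S ∧
    (∀ u, T u = g.1 *ᵥ fun i => σ (u i)) ∧ ∀ φ, S φ = (fun i => σ (φ i)) ᵥ* (g⁻¹).1 :=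
  ⟨(AddEquiv.piCongrRight fun _ => σ.toAddEquiv).trans (glRep ι F g).toAddEquiv,
    (AddEquiv.piCongrRight fun _ => σ.toAddEquiv).trans (glRep ι F (invT ι F g)).toAddEquiv,
    ⟨fun a u => by
      change g.1 *ᵥ _ = σ a • g.1 *ᵥ _
      rw [← mulVec_smul]; congr 1; ext i; simp, fun a u => by
      change (invT ι F g).1 *ᵥ _ = σ a • (invT ι F g).1 *ᵥ _
      rw [← mulVec_smul]; congr 1; ext i; simp, fun φ u => by
      change ((g⁻¹).1ᵀ *ᵥ _) ⬝ᵥ g.1 *ᵥ _ = _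
      rw [mulVec_transpose, vecMul_dot, mulVec_mulVec, Units.inv_mul, one_mulVec]
      simp [dotProduct]⟩, fun _ => rfl, fun _ => mulVec_transpose _ _⟩

omit [CharP F 2] [Finite F] in
theorem of_semi (h : Semi σ T S) : ∃ g : GL ι F, ∀ u, T u = g.1 *ᵥ fun i => σ (u i) :=
  let ⟨g, e⟩ := exists_semiPerm (σ := σ) (T := T.toEquiv) ⟨T.map_add, h.smT⟩
  ⟨g, fun u => congrFun (congrArg DFunLike.coe e) u⟩

omit [CharP F 2] [Finite F] in
theorem aut (h : Semi σ T S) {g : GL ι F} (hg : ∀ u, T u = g.1 *ᵥ fun i => σ (u i)) :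
    ∃ α : SpecialLinearGroup ι F →* SpecialLinearGroup ι F,
      (∀ a, SpecialLinearGroup.toGL (α a) =
        g * glAct2 ι F (σ, 1) (SpecialLinearGroup.toGL a) * g⁻¹) ∧
      (∀ a, SpecialLinearGroup.toGL (tr (α a)) = invT ι F g *
        glAct2 ι F (σ, Multiplicative.ofAdd 1) (SpecialLinearGroup.toGL a) * (invT ι F g)⁻¹) ∧
      (∀ a u, (α a).1 *ᵥ T u = T (a.1 *ᵥ u)) ∧ (∀ a φ, S φ ᵥ* (α a).1 = S (φ ᵥ* a.1)) ∧
      ∀ u φ, φ ⬝ᵥ u = 0 → α (tv u φ) = tv (T u) (S φ) := by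
  choose α hα using fun a => (sl_norms (ι := ι) (F := F)) ⟨g, σ, 1⟩ a
  simp only [MonoidHom.id_apply] at hα
  have h1 : ∀ a u, (α a).1 *ᵥ T u = T (a.1 *ᵥ u) := fun a u => by
    rw [hg, hg]
    exact (semiPerm_rel_iff g σ _ _).2 (glAct2_one (ι := ι) σ ▸ hα a) u
  refine ⟨.mk' α fun a b => SpecialLinearGroup.toGL_injective (by
    rw [map_mul, hα, hα, hα, map_mul, map_mul, conj_mul]), hα, fun a => ?_, h1,
    fun a φ => dext fun v => ?_, fun u φ e => slext fun v => ?_⟩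
  · refine (toGL_slInvTFun _).trans ?_
    rw [MonoidHom.mk'_apply, hα, glAct2_one, glAct2_gen, glAct_invT, map_mul, map_mul, map_inv]
  · obtain ⟨v, rfl⟩ := T.surjective v
    rw [vecMul_dot, MonoidHom.mk'_apply, h1, h.dot, h.dot, vecMul_dot]
  · obtain ⟨v, rfl⟩ := T.surjective v
    rw [MonoidHom.mk'_apply, h1, tv_mulVec e, tv_mulVec (dot0 h e), map_add, h.smT, h.dot]

omit [CharP F 2] in
theorem scalar (hn : 2 ≤ Fintype.card ι) (h : Semi σ T S)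
    (e : ∀ u φ, φ ⬝ᵥ u = 0 → tv (T u) (S φ) = tv u φ) :
    (∀ a, σ a = a) ∧ ∃ c : F, c ≠ 0 ∧ (∀ u, T u = c • u) ∧ ∀ φ, S φ = c⁻¹ • φ := by
  obtain ⟨g, hg⟩ := of_semi h
  obtain ⟨α, h1, -, -, -, h2⟩ := aut h hg
  have h3 : α = .id _ := hom_ext fun u φ c => (h2 u φ c).trans (e u φ c)
  have h4 : 1 = psiL ι F ⟨g, σ, 1⟩ := (eq_psiL_iff _ _).2 fun a b c => by
    rw [SpecialLinearGroup.toGL_injective (c.trans (h1 a).symm), h3]; rfl
  obtain rfl := (psiL_ker_one hn h4.symm).1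
  obtain ⟨c, rfl⟩ := (iotaL_eq_one_iff hn).1 h4.symm
  have h5 : ∀ u, T u = c.1 • u := fun u => by
    rw [hg]; ext i; simp [mulVec_diagonal]
  refine ⟨fun _ => rfl, c, c.ne_zero, h5, fun φ => dext fun u => ?_⟩
  have := h.dot φ u
  rw [h5, dotProduct_smul] at this
  rw [smul_dotProduct, eq_inv_smul_iff₀ c.ne_zero]
  exact this

theorem iff {r' : SpecialLinearGroup ι F →* G} (hr : r'.range ≤ r.range)
    {β : MulAut (ProjectiveSpecialLinearGroup ι F)}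
    (hβ : ∀ a b, r' a = r b → β (QuotientGroup.mk a) = QuotientGroup.mk b) (σ : F ≃+* F) :
    ((∃ T S, Semi σ T S ∧ ∀ u φ, φ ⬝ᵥ u = 0 → r' (tv u φ) = r (tv (T u) (S φ))) ↔
      ∃ g, β = psiL ι F ⟨g, σ, 1⟩) ∧
    ((∃ T S, Semi σ T S ∧ ∀ u φ, φ ⬝ᵥ u = 0 → r' (tv u φ) = r (tv (S φ) (T u))) ↔
      ∃ g, β = psiL ι F ⟨g, σ, Multiplicative.ofAdd 1⟩) := by
  refine ⟨⟨fun ⟨T, S, h, e⟩ => ?_, fun ⟨g, e⟩ => ?_⟩, fun ⟨T, S, h, e⟩ => ?_, fun ⟨g, e⟩ => ?_⟩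
  · obtain ⟨g, hg⟩ := of_semi h
    obtain ⟨α, h1, -, -, -, h2⟩ := aut h hg
    exact ⟨g, (key hr hβ (x := ⟨g, σ, 1⟩) h1).2 fun u φ c => by rw [h2 u φ c, e u φ c]⟩
  · obtain ⟨T, S, h, hg, -⟩ := semi_of g σ
    obtain ⟨α, h1, -, -, -, h2⟩ := aut h hg
    exact ⟨T, S, h, fun u φ c => h2 u φ c ▸ (key hr hβ (x := ⟨g, σ, 1⟩) h1).1 e u φ c⟩
  · obtain ⟨g, hg⟩ := of_semi h
    obtain ⟨α, -, h1, -, -, h2⟩ := aut h hg
    exact ⟨_, (key hr hβ (α := tr.toMonoidHom.comp α) (x := ⟨_, σ, _⟩) h1).2 fun u φ c => by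
      rw [e u φ c, ← tr_tv, ← h2 u φ c]; rfl⟩
  · obtain ⟨T, S, h, hg, -⟩ := semi_of (invT ι F g) σ
    obtain ⟨α, -, h1, -, -, h2⟩ := aut h hg
    rw [invT_invT] at h1
    refine ⟨T, S, h, fun u φ c => ?_⟩
    rw [(key hr hβ (α := tr.toMonoidHom.comp α) (x := ⟨g, σ, _⟩) h1).1 e u φ c, ← tr_tv (T u),
      ← h2 u φ c]
    rfl

omit [CharP F 2] [Finite F] in
theorem exists_ne (h : Rp r) : ∃ u : ι → F, u ≠ 0 :=
  have : Nonempty ι := Fintype.card_pos_iff.1 (by have := h.three; omega)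
  _root_.exists_ne 0

end A

theorem Rp.exists_pi (h : Rp r) : ∃ π : 𝐍[r.range] →* RingAut F × Multiplicative (ZMod 2),
    ∀ (g : 𝐍[r.range]) (σ : F ≃+* F), (AcI r (g : G) σ ↔ π g = (σ, 1)) ∧
      (AcII r (g : G) σ ↔ π g = (σ, Multiplicative.ofAdd 1)) := by
  obtain ⟨e, he⟩ := A.exists_e h rfl
  obtain ⟨π, hπ, -⟩ := KSG.exists_projL3 (F := F) h.three
  let β := (MulAut.congr e.symm).toMonoidHom.comp
    (KSG.quotCenterAut.comp r.range.normalizerMonoidHom)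
  refine ⟨π.comp β, fun g σ => ?_⟩
  have h1 := A.iff (r := r) (r' := StdL.cjh (g : G) r) (β := β g) (by
    rintro _ ⟨x, rfl⟩
    exact conj_mem_of_mem_normalizer g.2 ⟨x, rfl⟩) (fun a b c => e.injective (by
      rw [he b ⟨_, b, rfl⟩ rfl]
      change e (e.symm (KSG.quotCenterAut _ (e _))) = _
      rw [e.apply_symm_apply, he a ⟨_, a, rfl⟩ rfl]
      exact congrArg QuotientGroup.mk (Subtype.ext c))) σ
  have h2 : ∀ p, (∃ k, β g = KSG.psiL ι F ⟨k, p⟩) ↔ π (β g) = p := fun p =>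
    ⟨fun ⟨k, c⟩ => c ▸ hπ _, fun c => by
      obtain ⟨x, hx⟩ := KSG.psiL_surjective (by have := h.three; omega) (β g)
      rw [← hx, hπ] at c
      exact ⟨x.left, by rw [← hx, ← c]⟩⟩
  exact ⟨h1.1.trans (h2 _), h1.2.trans (h2 _)⟩

theorem Rp.exists_ac (h : Rp r) {g : G} (hg : g ∈ 𝐍[r.range]) :
    ∃ σ, AcI r g σ ∨ AcII r g σ := by
  obtain ⟨π, hπ⟩ := h.exists_pi
  exact ⟨_, (KSG.c2_cases (π ⟨g, hg⟩).2).imp (fun c => (hπ ⟨g, hg⟩ _).1.2 (Prod.ext rfl c))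
    fun c => (hπ ⟨g, hg⟩ _).2.2 (Prod.ext rfl c)⟩

/-- action of a type I element on all of `SL` -/
theorem TyI.conj {g : G} {σ : F ≃+* F} {T S : (ι → F) ≃+ (ι → F)} (hS : Semi σ T S)
    (h : TyI r g T S) (x : SpecialLinearGroup ι F) : ∃ y : SpecialLinearGroup ι F,
      g * r x * g⁻¹ = r y ∧ (∀ u, y.1 *ᵥ T u = T (x.1 *ᵥ u)) ∧ ∀ φ, S φ ᵥ* y.1 = S (φ ᵥ* x.1) := by
  obtain ⟨k, hk⟩ := A.of_semi hS
  obtain ⟨α, -, -, h1, h2, h3⟩ := A.aut hS hk
  exact ⟨α x, DFunLike.congr_fun (A.hom_ext (f := cjh g r) (g := r.comp α) fun u φ c =>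
    (h u φ c).trans (congrArg r (h3 u φ c).symm)) x, h1 x, h2 x⟩

/-- action of a type II element on all of `SL` -/
theorem TyII.conj {g : G} {σ : F ≃+* F} {T S : (ι → F) ≃+ (ι → F)} (hS : Semi σ T S)
    (h : TyII r g T S) (x : SpecialLinearGroup ι F) : ∃ y : SpecialLinearGroup ι F,
      g * r x * g⁻¹ = r y ∧ (∀ φ, y.1 *ᵥ S φ = S (φ ᵥ* (x⁻¹).1)) ∧
        ∀ u, T u ᵥ* y.1 = T ((x⁻¹).1 *ᵥ u) := by
  obtain ⟨k, hk⟩ := A.of_semi hS
  obtain ⟨α, -, -, h1, h2, h3⟩ := A.aut hS hk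
  exact ⟨tr (α x), DFunLike.congr_fun (A.hom_ext (f := cjh g r) (g := (du r).comp α) fun u φ c =>
    (h u φ c).trans (by rw [MonoidHom.comp_apply, h3 u φ c, du_tv])) x,
    fun φ => by rw [tr_mulVec, ← map_inv, h2], fun u => by rw [vecMul_tr, ← map_inv, h1]⟩

theorem AcI.mem {g : G} {σ : F ≃+* F} (h : AcI r g σ) [Finite G] : g ∈ 𝐍[r.range] := by
  obtain ⟨T, S, h1, h2⟩ := h
  refine mem_normalizer_of_cj_le ?_
  rintro _ ⟨_, ⟨x, rfl⟩, rfl⟩
  obtain ⟨y, e, -⟩ := h2.conj h1 x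
  exact ⟨y, e.symm⟩

theorem AcII.mem {g : G} {σ : F ≃+* F} (h : AcII r g σ) [Finite G] : g ∈ 𝐍[r.range] := by
  obtain ⟨T, S, h1, h2⟩ := h
  refine mem_normalizer_of_cj_le ?_
  rintro _ ⟨_, ⟨x, rfl⟩, rfl⟩
  obtain ⟨y, e, -⟩ := h2.conj h1 x
  exact ⟨y, e.symm⟩

theorem acI_range (x : SpecialLinearGroup ι F) : AcI r (r x) (RingEquiv.refl F) := by
  obtain ⟨T, S, h, h1, h2⟩ := A.semi_of (SpecialLinearGroup.toGL x) (RingEquiv.refl F)
  refine ⟨T, S, h, fun u φ _ => ?_⟩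
  rw [← map_inv, ← map_mul, ← map_mul, tv_conj, h1, h2, ← map_inv]
  rfl

theorem acI_cent {g : G} (hg : ∀ x, g * r x = r x * g) : AcI r g (RingEquiv.refl F) :=
  ⟨_, _, A.semi_refl, fun _ _ _ => mul_inv_eq_iff_eq_mul.2 (hg _)⟩

/-- a linear element acting as a `2`-element is inner (`T ^ 2 ^ k` is a scalar; rescale by a
`2 ^ k`-th root, then the determinant is `1`) -/
theorem Rp.inner (h : Rp r) {g : G} (hg : AcI r g (RingEquiv.refl F)) {k : ℕ}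
    (h2 : ∀ y, g ^ 2 ^ k * r y = r y * g ^ 2 ^ k) : ∃ x : SpecialLinearGroup ι F,
      x ^ 2 ^ k = 1 ∧ ∀ y, g * r y * g⁻¹ = r (x * y * x⁻¹) := by
  obtain ⟨T, S, hS, hT⟩ := hg
  obtain ⟨m, hm⟩ := A.of_semi hS
  replace hm : ∀ u, T u = m.1 *ᵥ u := hm
  obtain ⟨T', S', h3, h4, h5⟩ : ∃ T' S', Semi (RingEquiv.refl F) T' S' ∧
      TyI r (g ^ 2 ^ k) T' S' ∧ ∀ u, T' u = (m.1 ^ 2 ^ k) *ᵥ u := by
    generalize 2 ^ k = n
    induction n with
    | zero => exact ⟨_, _, A.semi_refl, fun _ _ _ => by simp, fun _ => by simp⟩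
    | succ n ih =>
      obtain ⟨T', S', h3, h4, h5⟩ := ih
      refine ⟨_, _, A.trans hS h3 fun _ => rfl, fun u φ c => ?_, fun u => by
        rw [AddEquiv.trans_apply, h5, hm, mulVec_mulVec, pow_succ]⟩
      rw [AddEquiv.trans_apply, AddEquiv.trans_apply, ← h4 _ _ (A.dot0 hS c), ← hT u φ c, pow_succ]
      group
  obtain ⟨-, c, c0, hc, -⟩ := A.scalar (by have := h.three; omega) h3 fun u φ c =>
    A.eq_of h (tv_sq _ _) (tv_sq _ _) (by rw [← h4 u φ c, h2, mul_inv_cancel_right])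
  obtain ⟨d, rfl⟩ := (iterateFrobeniusEquiv F 2 k).surjective c
  rw [iterateFrobeniusEquiv_def] at c0 hc
  have h6 : (d⁻¹ • m.1) ^ 2 ^ k = 1 := mext fun u => by
    rw [smul_pow, smul_mulVec, ← h5, hc, smul_smul, inv_pow, inv_mul_cancel₀ c0, one_smul,
      one_mulVec]
  obtain ⟨x, hx⟩ : ∃ x : SpecialLinearGroup ι F, x.1 = d⁻¹ • m.1 :=
    ⟨⟨_, eq_one_of_pow (k := k) (by rw [← det_pow, h6, det_one])⟩, rfl⟩
  refine ⟨x, Subtype.ext ((Matrix.SpecialLinearGroup.coe_pow x _).trans (hx ▸ h6)), fun y => ?_⟩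
  obtain ⟨y', e, h7, -⟩ := hT.conj hS y
  rw [e, ← mul_inv_eq_iff_eq_mul.2 (slext fun u => ?_ : x * y = y' * x)]
  simp only [mul_mulVec', hx, smul_mulVec, mulVec_smul, ← hm, h7]

/-- normal form of a type I involution: `T² = c`, `σ c = c`, rescale `T` by `1/√c`, `S` by `√c` -/
theorem AcI.nf (h : Rp r) {s : G} (hs : ∀ y, s * s * r y = r y * (s * s)) {σ : F ≃+* F}
    (hA : AcI r s σ) : (∀ a, σ (σ a) = a) ∧ ∃ T S, Semi σ T S ∧ TyI r s T S ∧
      (∀ u, T (T u) = u) ∧ ∀ φ, S (S φ) = φ := by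
  obtain ⟨T, S, hS, hT⟩ := hA
  obtain ⟨h1, c, c0, h2, h3⟩ := A.scalar (σ := σ.trans σ) (by have := h.three; omega)
    (A.trans hS hS fun _ => rfl) fun u φ c => A.eq_of h (tv_sq _ _) (tv_sq _ _) (by
      rw [AddEquiv.trans_apply, AddEquiv.trans_apply, ← hT _ _ (A.dot0 hS c), ← hT u φ c,
        show ∀ y, s * (s * y * s⁻¹) * s⁻¹ = s * s * y * (s * s)⁻¹ from fun y => by group, hs,
        mul_inv_cancel_right])
  simp only [AddEquiv.trans_apply] at h2 h3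
  obtain ⟨u, hu⟩ := A.exists_ne h
  have h4 : σ c = c := smul_left_injective F (T.map_eq_zero_iff.not.2 hu)
    ((hS.smT c u).symm.trans ((congrArg T (h2 u)).symm.trans (h2 _)))
  obtain ⟨d, rfl⟩ := (frobeniusEquiv F 2).surjective c
  have h5 : σ d = d := (frobeniusEquiv F 2).injective (by
    rw [← h4, frobeniusEquiv_def, frobeniusEquiv_def, map_pow])
  rw [frobeniusEquiv_def] at c0 h2 h3
  have d0 : d ≠ 0 := fun e => c0 (by simp [e])
  obtain ⟨T', S', a1, a2, a3, a4⟩ := A.resc hS (inv_ne_zero d0)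
  refine ⟨h1, T', S', a1, fun u φ c => by rw [(a4 u φ c).1, hT u φ c], fun u => ?_, fun u => ?_⟩
  · rw [a2, a2, hS.smT, h2, map_inv₀, h5, smul_smul, smul_smul]
    exact (congrArg (· • u) (by field_simp)).trans (one_smul _ u)
  · rw [a3, a3, hS.smS, h3, inv_inv, h5, smul_smul, smul_smul]
    exact (congrArg (· • u) (by field_simp)).trans (one_smul _ u)

/-- normal form of a type II involution: `S T = c`, `c σ c = 1`; rescale `T` by `a = b + c σ b ≠ 0`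
and `S` by `a⁻¹`. Then `β u v = T u ⬝ᵥ v` is hermitian (symmetric if `σ = 1`) -/
theorem AcII.nf (h : Rp r) {s : G} (hs : ∀ y, s * s * r y = r y * (s * s)) {σ : F ≃+* F}
    (hA : AcII r s σ) : (∀ a, σ (σ a) = a) ∧ ∃ T S, Semi σ T S ∧ TyII r s T S ∧
      (∀ u, S (T u) = u) ∧ ∀ u v, T u ⬝ᵥ v = σ (T v ⬝ᵥ u) := by
  obtain ⟨T, S, hS, hT⟩ := hA
  obtain ⟨h1, c, c0, h2, h3⟩ := A.scalar (σ := σ.trans σ) (by have := h.three; omega)
    (A.trans hS (A.symm hS) fun _ => rfl) fun u φ c => A.eq_of h (tv_sq _ _) (tv_sq _ _) (by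
      rw [AddEquiv.trans_apply, AddEquiv.trans_apply,
        ← hT _ _ ((dotProduct_comm _ _).trans (A.dot0 hS c)), ← hT u φ c,
        show ∀ y, s * (s * y * s⁻¹) * s⁻¹ = s * s * y * (s * s)⁻¹ from fun y => by group, hs,
        mul_inv_cancel_right])
  simp only [AddEquiv.trans_apply] at h2 h3
  obtain ⟨u, hu⟩ := A.exists_ne h
  have h4 : (σ c)⁻¹ = c := map_inv₀ σ c ▸ smul_left_injective F (S.map_eq_zero_iff.not.2 hu)
    ((hS.smS _ u).symm.trans ((congrArg S (h3 u)).symm.trans (h2 _)))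
  obtain ⟨a, a0, ha⟩ : ∃ a : F, a ≠ 0 ∧ σ a * c = a := by
    by_cases e : c = 1
    · exact ⟨1, one_ne_zero, by simp [e]⟩
    · refine ⟨1 + c, fun e' => e (CharTwo.add_eq_zero.1 e').symm, ?_⟩
      rw [map_add, map_one, ← inv_inv (σ c), h4, add_mul, inv_mul_cancel₀ c0, one_mul, add_comm]
  obtain ⟨T', S', a1, a2, a3, a4⟩ := A.resc hS a0
  have h5 : ∀ u, S' (T' u) = u := fun u => by
    rw [a3, a2, hS.smS, h2, smul_smul, smul_smul, mul_assoc, ha, inv_mul_cancel₀ a0, one_smul]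
  exact ⟨h1, T', S', a1, fun u φ c => by rw [(a4 u φ c).2, hT u φ c], h5, fun u v => by
    rw [← a1.dot, h5, dotProduct_comm]⟩

/-- two parametrisations with the same image differ by a semilinear map -/
theorem Rp.same (h : Rp r) {r' : SpecialLinearGroup ι F →* G} (h' : Rp r') (e : r'.range = r.range) :
    ∃ σ T S, Semi σ T S ∧ ((∀ u φ, φ ⬝ᵥ u = 0 → r' (tv u φ) = r (tv (T u) (S φ))) ∨
      ∀ u φ, φ ⬝ᵥ u = 0 → r' (tv u φ) = r (tv (S φ) (T u))) := by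
  obtain ⟨f, hf⟩ := A.exists_e h rfl
  obtain ⟨f', hf'⟩ := A.exists_e h' e.symm
  obtain ⟨⟨g, σ, k⟩, hx⟩ := KSG.psiL_surjective (by have := h.three; omega) (f'.trans f.symm)
  have h1 := A.iff e.le (β := f'.trans f.symm) (fun a b c => f.symm_apply_eq.2
    ((hf' a ⟨_, b, rfl⟩ c).trans (hf b ⟨_, b, rfl⟩ rfl).symm)) σ
  rcases KSG.c2_cases k with rfl | rfl
  · obtain ⟨T, S, a, b⟩ := h1.1.2 ⟨g, hx.symm⟩
    exact ⟨σ, T, S, a, .inl b⟩
  · obtain ⟨T, S, a, b⟩ := h1.2.2 ⟨g, hx.symm⟩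
    exact ⟨σ, T, S, a, .inr b⟩

end Cfsg.Agent.StdL
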