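import Cfsg.Agent.StdL.Aut
import Cfsg.Agent.StdL.Bas1

/-! Basic facts on `Rp` and `Su`.
`o2`: `C(t)/L` has a normal `2`-complement. `K0` has cyclic Sylow subgroups, so a normal
`2`-complement `O` (`IsCyclic.isComplement'`); let `N` = set of `c ∈ C(t)` whose image in `C(t)/L`
has odd order; show it is a subgroup: `Y = C(t)/(L O)` has the normal cyclic `2`-subgroup `R = K0 L/L O`,
odd order elements centralise `R` (`Aut R` is a `2`-group), `Y/R` is (odd: diagonal automorphisms, by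
`Rp.inner` a `2`-element in `ker π` lies in `L K0`)-by-abelian (`π`). -/

set_option autoImplicit false

namespace Cfsg.Agent.StdL

open Matrix Subgroup Cfsg.Agent.LnT Cfsg.Agent.PLocal.Amb
open scoped commutatorElement

variable {F ι G : Type*} [Field F] [Fintype ι] [DecidableEq ι] [Group G] [CharP F 2] [Finite F]
  [Finite G] {r : SpecialLinearGroup ι F →* G} {t : G}

omit [Finite G] in
theorem Rp.eq_of (h : Rp r) {x y : SpecialLinearGroup ι F} {k : ℕ} (hx : x ^ 2 ^ k = 1)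
    (hy : y ^ 2 ^ k = 1) (e : r x = r y) : x = y := by
  have c : x * y⁻¹ ∈ center _ := h.ker _ (by rw [map_mul, map_inv, e, mul_inv_cancel])
  refine mul_inv_eq_one.1 (eq_one_of_center c (k := k) ?_)
  have : Commute (x * y⁻¹) y := (mem_center_iff.1 c y).symm
  have h2 := this.mul_pow (2 ^ k)
  rwa [inv_mul_cancel_right, hx, hy, mul_one, eq_comm] at h2

omit [Finite G] in
theorem Rp.eq_of_sq (h : Rp r) {x y : SpecialLinearGroup ι F} (hx : x * x = 1)
    (hy : y * y = 1) (e : r x = r y) : x = y :=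
  h.eq_of (k := 1) (by rwa [pow_one, pow_two]) (by rwa [pow_one, pow_two]) e

omit [Finite G] in
theorem Rp.lift (h : Rp r) {x : SpecialLinearGroup ι F} {k : ℕ} (e : r x ^ 2 ^ k = 1) :
    ∃ y, r y = r x ∧ y ^ 2 ^ k = 1 := by
  have h1 := odd_center (h.ker (x ^ 2 ^ k) (by rw [map_pow, e]))
  obtain ⟨j, hj⟩ := exists_pow_eq_self_of_coprime (x := r x) (n := orderOf (x ^ 2 ^ k))
    (Nat.Coprime.coprime_dvd_right (orderOf_dvd_of_pow_eq_one e)
      ((Nat.coprime_two_right.2 h1).pow_right k))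
  refine ⟨(x ^ orderOf (x ^ 2 ^ k)) ^ j, by rw [map_pow, map_pow, hj], ?_⟩
  rw [pow_right_comm, pow_right_comm x, pow_orderOf_eq_one, one_pow]

omit [Finite G] in
theorem Rp.lift_sq (h : Rp r) {x : SpecialLinearGroup ι F} (e : r x * r x = 1) :
    ∃ y, r y = r x ∧ y * y = 1 := by
  simpa only [pow_one, pow_two] using h.lift (k := 1) (by rwa [pow_one, pow_two])

omit [Finite G] in
theorem Rp.comm (h : Rp r) {x y : SpecialLinearGroup ι F} {k : ℕ} (hy : y ^ 2 ^ k = 1)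
    (e : r x * r y = r y * r x) : x * y = y * x :=
  mul_inv_eq_iff_eq_mul.1 (h.eq_of (by rw [conj_pow, hy]; simp) hy
    (by rw [map_mul, map_mul, e, map_inv, mul_inv_cancel_right]))

omit [Finite G] in
theorem Rp.mem_center (h : Rp r) {x : SpecialLinearGroup ι F} (e : ∀ y, r x * r y = r y * r x) :
    x ∈ center (SpecialLinearGroup ι F) := by
  have := eq_top_of_tv (centralizer {x}) fun u φ _ => mem_centralizer_singleton_iff.2
    (h.comm (k := 1) (by rw [pow_one, pow_two, tv_sq]) (e _)).symm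
  exact mem_center_iff.2 fun y => mem_centralizer_singleton_iff.1 (this ▸ mem_top y)

omit [Finite G] in
theorem Rp.odd_of_cent (h : Rp r) {x : SpecialLinearGroup ι F} (e : ∀ y, r x * r y = r y * r x) :
    Odd (orderOf (r x)) := (odd_center (h.mem_center e)).of_dvd_nat (orderOf_map_dvd r x)

omit [Finite G] in
theorem Rp.tv_ne_one (h : Rp r) {u φ : ι → F} (e : φ ⬝ᵥ u = 0) (hu : u ≠ 0) (hφ : φ ≠ 0) :
    r (tv u φ) ≠ 1 := fun c =>
  ((tv_eq_one e).1 (h.eq_of_sq (tv_sq _ _) (one_mul 1) (c.trans (map_one r).symm))).elim hu hφ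

omit [Finite G] in
theorem Rp.card_map (h : Rp r) {Q : Subgroup (SpecialLinearGroup ι F)} (hQ : IsPGroup 2 Q) :
    Nat.card (Q.map r) = Nat.card Q :=
  (Nat.card_congr (MulEquiv.ofBijective (r.subgroupMap Q) ⟨(injective_iff_map_eq_one _).2
    fun a e => let ⟨_, hk⟩ := hQ a; Subtype.ext (eq_one_of_center
      (h.ker _ (congrArg Subtype.val e)) (congrArg Subtype.val hk)),
    r.subgroupMap_surjective Q⟩).toEquiv).symm

omit [Finite G] in
theorem Rp.lift_sub (h : Rp r) {P : Subgroup G} (hP : IsPGroup 2 P) (hle : P ≤ r.range) :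
    ∃ Q : Subgroup (SpecialLinearGroup ι F), IsPGroup 2 Q ∧ Q.map r = P ∧
      Nat.card Q = Nat.card P := by
  obtain ⟨Q, -, h1, rfl⟩ := exists_map_eq r (H := ⊤) hP (by rwa [← MonoidHom.range_eq_map])
  exact ⟨Q, h1, rfl, (h.card_map h1).symm⟩

omit [Finite G] in
theorem Rp.perfect (h : Rp r) : ⁅r.range, r.range⁆ = r.range := by
  rw [MonoidHom.range_eq_map, ← map_commutator, ← _root_.commutator_def,
    Class.SL_commutator_eq_top h.three]

omit [Finite G] [Finite F] [CharP F 2] in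
theorem Od.conj {H : Subgroup G} {g x : G} (hg : g ∈ 𝐍[H]) (hx : x ∈ Od H) :
    g * x * g⁻¹ ∈ Od H := by
  refine (show Od H ≤ (Od H).comap (MulAut.conj g).toMonoidHom from (closure_le _).2 ?_) hx
  exact fun y hy => mem_Od (conj_mem_of_mem_normalizer hg hy.1) (hy.2.of_dvd_nat
    (orderOf_map_dvd (MulAut.conj g).toMonoidHom y))

omit [Finite F] [CharP F 2] in
theorem Od.comm {H : Subgroup G} {x y : G} (hx : x ∈ H) (ho : Odd (orderOf x)) (hy : y ∈ H) :
    x * y * x⁻¹ * y⁻¹ ∈ Od H := by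
  have := mul_mem (mem_Od hx ho) (Od.conj (le_normalizer hy) (inv_mem (mem_Od hx ho)))
  simpa only [mul_assoc] using this

omit [Finite G] [Finite F] [CharP F 2] in
theorem Od.map {M : Type*} [Group M] (f : M →* G) {H : Subgroup M} {K : Subgroup G}
    (h : H.map f ≤ K) : (Od H).map f ≤ Od K := map_le_iff_le_comap.2 ((closure_le _).2 fun y hy =>
  mem_Od (h ⟨y, hy.1, rfl⟩) (hy.2.of_dvd_nat (orderOf_map_dvd f y)))

theorem Rp.range_le_Od (h : Rp r) : r.range ≤ Od r.range := by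
  have := Fact.mk Nat.prime_two
  have h1 : ((Od r.range).subgroupOf r.range).Normal :=
    ⟨fun x hx g => Od.conj (le_normalizer g.2) hx⟩
  have h2 : Group.IsPerfect r.range := isPerfect_iff.2 h.perfect
  have h3 : IsPGroup 2 (r.range ⧸ (Od r.range).subgroupOf r.range) := fun x => by
    obtain ⟨x, rfl⟩ := QuotientGroup.mk_surjective x
    obtain ⟨k, m, hm, e⟩ := exists_two_odd x
    rw [pow_right_comm] at e
    exact ⟨k, (QuotientGroup.eq_one_iff _).2 (mem_Od (x ^ 2 ^ k).2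
      (odd_of_pow hm (congrArg Subtype.val e)))⟩
  rw [← subgroupOf_eq_top, ← QuotientGroup.subsingleton_iff]
  by_contra c
  have := not_subsingleton_iff_nontrivial.1 c
  exact Group.IsPerfect.not_isNilpotent _ h3.isNilpotent

omit [Finite G] [Finite F] in
theorem el_Vg (e : ι → F) : El (Vg r e) := fun a ha => by
  obtain ⟨φ, -, rfl⟩ := mem_Vg.1 ha
  rw [← map_mul, tv_sq, map_one]

omit [Finite G] in
theorem Rp.card_Vg (h : Rp r) {e : ι → F} (he : e ≠ 0) :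
    Nat.card (Vg r e) = Nat.card F ^ (Fintype.card ι - 1) := by
  rw [Vg, h.card_map (pgrp_of_sq (by rintro _ ⟨φ, -, rfl⟩; exact tv_sq _ _)), card_Vs he]
  refine Nat.eq_of_mul_eq_mul_right (Nat.card_pos (α := F)) ?_
  rw [card_ker1 he, ← pow_succ, Nat.sub_add_cancel (by have := h.three; omega)]

omit [Finite G] [Finite F] [CharP F 2] in
theorem cj_Vg (x : SpecialLinearGroup ι F) (e : ι → F) : cj(r x, Vg r e) = Vg r (x.1 *ᵥ e) := by
  ext y
  simp only [mem_cj_iff_exists, mem_Vg]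
  constructor
  · rintro ⟨_, ⟨φ, h, rfl⟩, rfl⟩
    exact ⟨_, (dot_conj x φ e).trans h, by rw [← tv_conj, map_mul, map_mul, map_inv]⟩
  · rintro ⟨φ, h, rfl⟩
    refine ⟨_, ⟨φ ᵥ* x.1, by rwa [vecMul_dot], rfl⟩, ?_⟩
    rw [← map_inv, ← map_mul, ← map_mul, tv_conj, vecMul_vecMul_inv]

omit [Finite G] [Finite F] [CharP F 2] in
theorem Vg_cjh (g : G) (e : ι → F) : Vg (cjh g r) e = cj(g, Vg r e) := (map_map _ _ _).symm

omit [Finite G] [Finite F] [CharP F 2] in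
theorem du_cjh (g : G) : du (cjh g r) = cjh g (du r) := rfl

omit [Finite G] in
/-- all points are conjugate -/
theorem Rp.trans (h : Rp r) {e e' : ι → F} (he : e ≠ 0) (he' : e' ≠ 0) :
    ∃ x : SpecialLinearGroup ι F, x.1 *ᵥ e = e' :=
  (trans_ker3 h.three (ε := 0) (by simp) (by simp) he he').imp fun _ e => e.2

omit [Finite G] in
/-- all transvections are conjugate (also for `m = 3`), inside the stabiliser of the point -/
theorem Rp.trans_V (h : Rp r) {e φ ψ : ι → F} (he : e ≠ 0) (h1 : φ ⬝ᵥ e = 0) (h2 : ψ ⬝ᵥ e = 0)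
    (hφ : φ ≠ 0) (hψ : ψ ≠ 0) : ∃ x : SpecialLinearGroup ι F, x.1 *ᵥ e = e ∧
      x * tv e φ * x⁻¹ = tv e ψ := by
  obtain ⟨k, k1, k2⟩ := trans_ker3 h.three (ε := e) (by rwa [dotProduct_comm])
    (by rwa [dotProduct_comm]) hφ hψ
  have : (tr k).1 *ᵥ e = e := by rw [tr_mulVec, vecMul_inv_of k1]
  exact ⟨tr k, this, by rw [tv_conj, this, ← map_inv, vecMul_tr, inv_inv, k2]⟩

omit [Finite G] in
/-- an element normalising `L` and `V` has type I and fixes the point -/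
theorem Rp.norm_V (h : Rp r) {c : G} (hc : c ∈ 𝐍[r.range]) {e : ι → F} (he : e ≠ 0)
    (hV : ∀ v ∈ Vg r e, c * v * c⁻¹ ∈ Vg r e) : ∃ σ T S, Semi σ T S ∧ TyI r c T S ∧ T e = e := by
  have key : ∀ {u ψ : ι → F}, ψ ⬝ᵥ u = 0 → ψ ≠ 0 → r (tv u ψ) ∈ Vg r e → ∃ a : F, u = a • e :=
    fun {u ψ} h1 h2 h3 => by
      obtain ⟨χ, h4, h5⟩ := mem_Vg.1 h3
      obtain ⟨x, hx⟩ := exists_dot0 h2
      have := (tv_eq_iff h4 h1).1 (h.eq_of_sq (tv_sq _ _) (tv_sq _ _) h5) x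
      rw [dotProduct_comm ψ, hx, one_smul] at this
      exact ⟨_, this.symm⟩
  obtain ⟨φ, h1, h2⟩ := exists_11 h.three e 0
  obtain ⟨ψ, h3, h4⟩ := exists_11 h.three e φ
  rw [dotProduct_comm] at h1 h3
  replace h2 : φ ≠ 0 := by simpa using h2
  obtain ⟨σ, ⟨T, S, hS, hT⟩ | ⟨T, S, hS, hT⟩⟩ := h.exists_ac hc
  · obtain ⟨a, ha⟩ := key (by rw [hS.dot, h1, map_zero]) (S.map_ne_zero_iff.2 h2)
      (hT e φ h1 ▸ hV _ (mem_Vg.2 ⟨φ, h1, rfl⟩))
    have a0 : a ≠ 0 := fun c => T.map_ne_zero_iff.2 he (by rw [ha, c, zero_smul])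
    obtain ⟨T', S', hS', e1, e2⟩ := hS.smul a0
    refine ⟨σ, T', S', hS', fun u χ e3 => ?_, by rw [e1, ha, inv_smul_smul₀ a0]⟩
    rw [hT u χ e3, e1, e2, tv_smul _ (by rw [smul_dotProduct, hS.dot, e3, map_zero, smul_zero]),
      inv_smul_smul₀ a0]
  · have k : ∀ χ, χ ⬝ᵥ e = 0 → ∃ a : F, S χ = a • e := fun χ e3 =>
      key (by rw [dotProduct_comm, hS.dot, e3, map_zero]) (T.map_ne_zero_iff.2 he)
        (hT e χ e3 ▸ hV _ (mem_Vg.2 ⟨χ, e3, rfl⟩))
    obtain ⟨a, ha⟩ := k φ h1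
    obtain ⟨b, hb⟩ := k ψ h3
    have a0 : a ≠ 0 := fun c => S.map_ne_zero_iff.2 h2 (by rw [ha, c, zero_smul])
    exact absurd (S.injective (by
      rw [hS.smS, ha, hb, smul_smul, σ.apply_symm_apply, div_mul_cancel₀ _ a0]))
      (h4 (σ.symm (b / a)))

omit [Finite G] in
theorem Rp.cent_V (h : Rp r) {c : G} (hc : c ∈ 𝐍[r.range]) {e : ι → F} (he : e ≠ 0)
    (hV : ∀ v ∈ Vg r e, c * v = v * c) : ∃ v ∈ Vg r e, ∀ y, v * c * r y = r y * (v * c) := by
  obtain ⟨σ, T, S, hS, hT, h1⟩ := h.norm_V hc he fun v hv => by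
    rwa [hV v hv, mul_inv_cancel_right]
  have h2 : ∀ φ, φ ⬝ᵥ e = 0 → S φ = φ := fun φ e1 => by
    have := hT e φ e1
    rw [hV _ (mem_Vg.2 ⟨φ, e1, rfl⟩), mul_inv_cancel_right, h1] at this
    exact tv_inj he (by rw [← h1, hS.dot, e1, map_zero]) e1
      (h.eq_of_sq (tv_sq _ _) (tv_sq _ _) this.symm)
  have h3 : ∀ a, σ a = a := fun a => by
    obtain ⟨φ, e1, e2⟩ := exists_11 h.three e 0
    rw [dotProduct_comm] at e1
    have := hS.smS a φ
    rw [h2 φ e1, h2 _ (by rw [smul_dotProduct, e1, smul_zero])] at this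
    exact (smul_left_injective F (by simpa using e2) this).symm
  let f : (ι → F) →ₗ[F] (ι → F) := ⟨⟨fun u => T u - u, fun u v => by rw [map_add]; abel⟩,
    fun a u => by simp [hS.smT, h3, smul_sub]⟩
  obtain ⟨ρ, hρ⟩ := exists_dot_of_range' (A := LinearMap.toMatrix' f) he fun x => by
    rw [LinearMap.toMatrix'_mulVec]
    refine smul_of_dot fun θ e1 => ?_
    change θ ⬝ᵥ (T x - x) = 0
    rw [dotProduct_sub, sub_eq_zero, ← h3 (θ ⬝ᵥ x), ← hS.dot, h2 θ e1]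
  simp only [LinearMap.toMatrix'_mulVec] at hρ
  replace hρ : ∀ u, T u - u = (ρ ⬝ᵥ u) • e := hρ
  have h4 : ρ ⬝ᵥ e = 0 := by
    have := hρ e
    rw [h1, sub_self] at this
    exact (smul_eq_zero.1 this.symm).resolve_right he
  have h5 : ∀ u, T u = (tv e ρ).1 *ᵥ u := fun u => by rw [tv_mulVec h4, ← hρ]; abel
  refine ⟨_, mem_Vg.2 ⟨ρ, h4, rfl⟩, fun y => ?_⟩
  obtain ⟨y', e1, e2, -⟩ := hT.conj hS y
  have e3 : y' * tv e ρ = tv e ρ * y := slext fun u => by
    rw [mul_mulVec', mul_mulVec', ← h5, ← h5, e2]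
  rw [mul_assoc, mul_inv_eq_iff_eq_mul.1 e1, ← mul_assoc, ← mul_assoc, ← map_mul, ← map_mul,
    eq_mul_inv_of_mul_eq e3, tv_inv, ← mul_assoc, ← mul_assoc, tv_sq, one_mul]

omit [Finite G] [Finite F] [CharP F 2] in
theorem K0_cjh (g : G) : K0 (cjh g r) (g * t * g⁻¹) = cj(g, K0 r t) := by
  rw [K0, K0, cj_inf, range_cjh, centralizer_cj, centralizer_singleton_conj]

omit [Finite G] [Finite F] [CharP F 2] in
theorem Su.cj (h : Su r t) (g : G) : Su (cjh g r) (g * t * g⁻¹) := by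
  refine ⟨h.toRp.cjh g, sq_conj h.tt g, fun c => h.t1 (conj_eq_one_iff.1 c), fun x => by
    rw [cjh_apply, conj_mul, conj_mul, h.tc], fun c hc => ?_, fun P hP h2 => ?_⟩
  · rw [range_cjh, normalizer_cj, mem_cj]
    refine h.nrm _ (mem_centralizer_singleton_iff.1 (mem_cj.1 ?_))
    rw [← centralizer_singleton_conj]
    exact mem_centralizer_singleton_iff.2 hc
  · have := h.cyc cj(g⁻¹, P) (le_cj_iff.1 (by rwa [K0_cjh] at hP)) (isPGroup_cj _ h2)
    exact (P.equivMapOfInjective (MulAut.conj g⁻¹).toMonoidHom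
      (MulAut.conj g⁻¹).injective).isCyclic.2 this

omit [Finite G] [Finite F] [CharP F 2] in
theorem Nsq.cj (h : Nsq r t) (g : G) : Nsq (cjh g r) (g * t * g⁻¹) := fun k hk e => by
  rw [K0_cjh] at hk
  obtain ⟨a, ha, rfl⟩ := mem_cj_iff_exists.1 hk
  exact h a ha (by simpa using e)

omit [Finite G] [Finite F] [CharP F 2] in
theorem Tz.cj (h : Tz r t) (g : G) : Tz (cjh g r) (g * t * g⁻¹) := by
  obtain ⟨e, ε, h1, h2, h3, h4⟩ := h
  have c : ∀ x : G, IsConj x (g * x * g⁻¹) := fun x => isConj_iff.2 ⟨g, rfl⟩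
  refine ⟨e, ε, h1, h2, h3, h4.imp (fun h => (c t).symm.trans (h.trans (c _))) fun h => ?_⟩
  rw [cjh_apply, conj_mul]
  exact (c t).symm.trans (h.trans (c _))

omit [Finite G] [Finite F] in
theorem Tz.du (h : Tz r t) : Tz (du r) t :=
  let ⟨e, ε, h1, h2, h3, h4⟩ := h
  ⟨ε, e, h2, h1, by rwa [dotProduct_comm], by rwa [du_tv]⟩

omit [Finite G] in
theorem Su.notMem (h : Su r t) : t ∉ r.range := fun ⟨x, e⟩ => h.t1 (eq_one_of_odd_two (k := 1)
  (e ▸ h.odd_of_cent fun y => e ▸ h.tc y) (by rw [pow_one, pow_two, h.tt]))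

omit [Finite G] [Finite F] [CharP F 2] in
theorem Su.t_mem (h : Su r t) : t ∈ K0 r t := mem_K0.2 ⟨rfl, h.tc⟩

omit [Finite G] [Finite F] [CharP F 2] in
theorem Su.inv (h : Su r t) {k : G} (hk : k ∈ K0 r t) (h2 : k * k = 1) : k = 1 ∨ k = t := by
  have c : Commute k t := (mem_K0.1 hk).1
  have h3 : ∀ a b : ℕ, k ^ a * t ^ b * (k ^ a * t ^ b) = 1 := fun a b => by
    rw [← pow_two, (c.pow_pow a b).mul_pow, pow_right_comm, pow_right_comm t, pow_two, pow_two, h2,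
      h.tt]; simp
  let P : Subgroup G :=
    { carrier := {x | ∃ a b : ℕ, x = k ^ a * t ^ b}
      one_mem' := ⟨0, 0, by simp⟩
      mul_mem' := by
        rintro _ _ ⟨a, b, rfl⟩ ⟨a', b', rfl⟩
        exact ⟨a + a', b + b', by rw [(c.pow_pow a' b).symm.mul_mul_mul_comm, pow_add, pow_add]⟩
      inv_mem' := by
        rintro _ ⟨a, b, rfl⟩
        exact ⟨a, b, inv_of_sq (h3 a b)⟩ }
  have h4 : ∀ x ∈ P, x * x = 1 := by rintro _ ⟨a, b, rfl⟩; exact h3 a b
  obtain ⟨g, hg⟩ := (h.cyc P (by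
    rintro _ ⟨a, b, rfl⟩
    exact mul_mem (pow_mem hk a) (pow_mem h.t_mem b)) (pgrp_of_sq h4)).exists_generator
  have h5 : ∀ x ∈ P, x = 1 ∨ x = g := fun x hx => by
    obtain ⟨n, e⟩ := hg ⟨x, hx⟩
    have e1 : x = g.1 ^ n := (congrArg Subtype.val e).symm
    have e2 : g.1 ^ (2 : ℤ) = 1 := by rw [zpow_two, h4 _ g.2]
    rcases Int.even_or_odd' n with ⟨m, rfl | rfl⟩
    · exact .inl (by rw [e1, _root_.zpow_mul, e2, _root_.one_zpow])
    · exact .inr (by rw [e1, _root_.zpow_add, _root_.zpow_mul, e2, _root_.one_zpow, one_mul, zpow_one])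
  rw [(h5 t ⟨0, 1, by simp⟩).resolve_left h.t1]
  exact h5 k ⟨1, 0, by simp⟩

omit [Finite G] in
theorem Su.cent_V (h : Su r t) {c : G} (hc : c * t = t * c) {e : ι → F} (he : e ≠ 0)
    (hV : ∀ v ∈ Vg r e, c * v = v * c) : ∃ v ∈ Vg r e, ∃ k ∈ K0 r t, c = v * k := by
  obtain ⟨v, hv, e1⟩ := h.toRp.cent_V (h.nrm c hc) he hV
  refine ⟨v, hv, v * c, mem_K0.2 ⟨?_, e1⟩, by rw [← mul_assoc, el_Vg e v hv, one_mul]⟩
  obtain ⟨φ, -, rfl⟩ := mem_Vg.1 hv
  rw [mul_assoc, hc, ← mul_assoc, ← h.tc, mul_assoc]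

omit [Finite G] in
theorem Su.cent_V_sq (h : Su r t) {c : G} (hc : c * t = t * c) (h2 : c * c = 1) {e : ι → F}
    (he : e ≠ 0) (hV : ∀ v ∈ Vg r e, c * v = v * c) : c ∈ Vg r e ∨ c * t ∈ Vg r e := by
  obtain ⟨v, hv, k, hk, rfl⟩ := h.cent_V hc he hV
  have h3 : k * v = v * k := by
    obtain ⟨φ, -, rfl⟩ := mem_Vg.1 hv
    exact (mem_K0.1 hk).2 _
  rw [mul_assoc, ← mul_assoc k, h3, ← mul_assoc, ← mul_assoc, el_Vg e v hv, one_mul] at h2
  rcases h.inv hk h2 with rfl | rfl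
  · exact .inl (by rwa [mul_one])
  · exact .inr (by rwa [mul_assoc, h2, mul_one])

omit [Finite G] in
theorem Su.inn0 (h : Su r t) {c : G} (hc : c * t = t * c) {k : ℕ} (h2 : c ^ 2 ^ k = 1)
    (hA : AcI r c (RingEquiv.refl F)) : ∃ x, x ^ 2 ^ k = 1 ∧ ∃ a ∈ K0 r t, a ^ 2 ^ k = 1 ∧
      c = r x * a := by
  obtain ⟨x, h3, h4⟩ := h.inner hA (k := k) fun y => by rw [h2, one_mul, mul_one]
  have h5 : Commute c (r x) := mul_inv_eq_iff_eq_mul.1 (by rw [h4, mul_inv_cancel_right])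
  refine ⟨x, h3, (r x)⁻¹ * c, mem_K0.2 ⟨(Commute.inv_left (h.tc x).symm).mul_left hc, fun y => ?_⟩,
    by rw [h5.symm.inv_left.mul_pow, h2, inv_pow, ← map_pow, h3]; simp, by simp⟩
  rw [mul_assoc, mul_inv_eq_iff_eq_mul.1 (h4 y)]
  simp [mul_assoc]

omit [Finite G] in
theorem Su.inn (h : Su r t) {c : G} (hc : c * t = t * c) (h2 : c * c = 1)
    (hA : AcI r c (RingEquiv.refl F)) : ∃ x, x * x = 1 ∧ (c = r x ∨ c = t * r x) := by
  obtain ⟨x, h3, a, ha, h4, rfl⟩ := h.inn0 hc (k := 1) (by rwa [pow_one, pow_two]) hA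
  rw [pow_one, pow_two] at h3 h4
  exact ⟨x, h3, (h.inv ha h4).imp (fun e => by rw [e, mul_one]) fun e => by rw [e, h.tc]⟩

omit [Finite G] [CharP F 2] in
theorem pi_comm (a b : RingAut F × Multiplicative (ZMod 2)) : Commute a b :=
  have := KSG.isCyclic_ringAut F
  Prod.ext ((IsCyclic.commGroup (α := RingAut F)).mul_comm _ _) (mul_comm _ _)

omit [Finite G] in
theorem Su.comm_inn (h : Su r t) {c : G} (hc : c ∈ ⁅centralizer {t}, centralizer {t}⁆)
    (h2 : c * c = 1) : ∃ x, x * x = 1 ∧ (c = r x ∨ c = t * r x) := by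
  obtain ⟨π, hπ⟩ := h.exists_pi
  obtain ⟨a, ha, rfl⟩ := (commutator_le.2 fun a ha b hb => ⟨⁅(⟨a, h.nrm a (mem_centralizer_singleton_iff.1
      ha)⟩ : 𝐍[r.range]), ⟨b, h.nrm b (mem_centralizer_singleton_iff.1 hb)⟩⁆, by
    rw [SetLike.mem_coe, MonoidHom.mem_ker, map_commutatorElement,
      commutatorElement_eq_one_iff_commute]
    exact pi_comm _ _, rfl⟩ : _ ≤ π.ker.map (𝐍[r.range]).subtype) hc
  exact h.inn (mem_centralizer_singleton_iff.1 (commutator_le_self _ hc)) h2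
    ((hπ a _).1.2 ha)

theorem Su.o2 (h : Su r t) {c : G} (hc : c ∈ Od (centralizer {t})) {k : ℕ} (h2 : c ^ 2 ^ k = 1) :
    c ∈ r.range := by
  obtain ⟨π, hπ⟩ := h.exists_pi
  let D : Subgroup 𝐍[r.range] :=
    { carrier := {c | c.1 * t = t * c.1 ∧ Odd (orderOf (π c))}
      one_mem' := ⟨by simp, by rw [map_one, orderOf_one]; exact odd_one⟩
      mul_mem' := fun {a b} ha hb => ⟨Commute.mul_left ha.1 hb.1, (ha.2.mul hb.2).of_dvd_nat
        (map_mul π a b ▸ (pi_comm _ _).orderOf_mul_dvd_mul_orderOf)⟩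
      inv_mem' := fun {a} ha => ⟨Commute.inv_left ha.1, by rw [map_inv, orderOf_inv]; exact ha.2⟩ }
  let j : D →* G := (𝐍[r.range]).subtype.comp D.subtype
  have hj : Function.Injective j := Subtype.val_injective.comp Subtype.val_injective
  have hN : (r.range.comap j).Normal :=
    ⟨fun n hn g => conj_mem_of_mem_normalizer (Q := r.range) g.1.2 hn⟩
  let f := QuotientGroup.mk' (r.range.comap j)
  obtain ⟨O, h3, h4⟩ := exists_odd_sub (A := D ⧸ r.range.comap j) fun P hP => by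
    obtain ⟨Q, q1, q2, rfl⟩ := exists_map_eq f (H := (K0 r t).comap j) hP fun y hy => by
      obtain ⟨y, rfl⟩ := QuotientGroup.mk'_surjective _ y
      obtain ⟨i, hi⟩ := isPGroup_iff.1 hP _ hy
      obtain ⟨n, m, e1, e2⟩ := exists_lift_two f y hi
      rw [← e1]
      generalize y ^ n = w at e2
      obtain ⟨x, -, a, ha, -, e3⟩ := h.inn0 w.2.1 (congrArg j e2 |>.trans (map_one j) |>
        (map_pow j w _).symm.trans) ((hπ w _).1.2 (eq_one_of_odd_two (k := m) w.2.2 (by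
          rw [← map_pow, ← map_one π]; exact congrArg _ (congrArg Subtype.val e2))))
      let u : D := ⟨⟨r x, le_normalizer ⟨x, rfl⟩⟩, (h.tc x).symm, by
        rw [(hπ _ _).1.1 (acI_range x)]; exact odd_of_pow odd_one (pow_one _)⟩
      refine ⟨u⁻¹ * w, ?_, ?_⟩
      · change (r x)⁻¹ * w.1.1 ∈ K0 r t
        rwa [e3, inv_mul_cancel_left]
      · rw [map_mul, map_inv, show f u = 1 from (QuotientGroup.eq_one_iff _).2 ⟨x, rfl⟩, inv_one,
          one_mul]
    have := h.cyc (Q.map j) (map_le_iff_le_comap.2 q1) (q2.map j)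
    have := (Q.equivMapOfInjective j hj).isCyclic.2 this
    exact isCyclic_of_surjective _ (f.subgroupMap_surjective Q)
  obtain ⟨a, ha, rfl⟩ := ((closure_le _).2 fun x hx => by
    have e1 := mem_centralizer_singleton_iff.1 hx.1
    have e2 : Odd (orderOf (⟨x, h.nrm x e1⟩ : 𝐍[r.range])) := by rw [← orderOf_coe]; exact hx.2
    let w : D := ⟨⟨x, h.nrm x e1⟩, e1, e2.of_dvd_nat (orderOf_map_dvd _ _)⟩
    exact ⟨w, h4 _ (Odd.of_dvd_nat (by rw [← orderOf_coe]; exact e2) (orderOf_map_dvd f w)), rfl⟩ :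
      Od _ ≤ (O.comap f).map j) hc
  exact (QuotientGroup.eq_one_iff a).1 (eq_one_of_odd_two (x := f a) (k := k)
    (h3.of_dvd_nat (orderOf_dvd_natCard O ha)) (by
      rw [← map_pow, hj (a₁ := a ^ 2 ^ k) (a₂ := 1) (by rw [map_pow, h2, map_one]), map_one]))

theorem Su.card_el (h : Su r t) {E : Subgroup G} (hE : El E) (hle : E ≤ centralizer {t}) :
    Nat.card E ≤ 8 * Nat.card (E ⊓ r.range : Subgroup G) ∧
      (Nat.card F = 2 → Nat.card E ≤ 4 * Nat.card (E ⊓ r.range : Subgroup G)) := by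
  classical
  obtain ⟨π, hπ⟩ := h.exists_pi
  have h1 : E ≤ 𝐍[r.range] := fun a ha => h.nrm a (mem_centralizer_singleton_iff.1 (hle ha))
  have := KSG.isCyclic_ringAut F
  have := Fintype.ofFinite (RingAut F)
  let f := π.comp (inclusion h1)
  have h2 := card_le_of_hom f ({σ | σ ^ 2 = 1} ×ˢ Set.univ) (Set.toFinite _) fun a => ⟨by
    change (f a ^ 2).1 = 1
    rw [← map_pow, show a ^ 2 = 1 from Subtype.ext ((pow_two _).trans (hE _ a.2)), map_one]
    rfl, trivial⟩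
  let g := (QuotientGroup.mk' (r.range.subgroupOf 𝐍[r.range])).comp
    ((inclusion h1).comp f.ker.subtype)
  have h3 := card_le_of_hom g {1, QuotientGroup.mk ⟨t, h.nrm t rfl⟩} (Set.toFinite _) fun a => by
    obtain ⟨x, -, e | e⟩ := h.inn (mem_centralizer_singleton_iff.1 (hle a.1.2)) (hE _ a.1.2)
      ((hπ (inclusion h1 a.1) _).1.2 a.2)
    · exact .inl ((QuotientGroup.eq_one_iff _).2 ⟨x, e.symm⟩)
    · refine .inr (Eq.symm (QuotientGroup.eq.2 ⟨x, ?_⟩))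
      change _ = t⁻¹ * a.1.1
      rw [e, inv_mul_cancel_left]
  have h4 : Nat.card g.ker ≤ Nat.card (E ⊓ r.range : Subgroup G) :=
    Nat.card_le_card_of_injective (fun a => ⟨a.1.1.1, a.1.1.2,
      (QuotientGroup.eq_one_iff (N := r.range.subgroupOf 𝐍[r.range]) _).1 a.2⟩)
      fun a b e => by ext; exact Subtype.mk.inj e
  have h5 := h3.trans (Nat.mul_le_mul ((Set.ncard_insert_le _ _).trans_eq (by rw [Set.ncard_singleton])) h4)
  rw [Set.ncard_prod, Set.ncard_univ, Nat.card_eq_fintype_card (α := Multiplicative _),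
    Fintype.card_multiplicative, ZMod.card] at h2
  have h6 : {σ : RingAut F | σ ^ 2 = 1}.ncard ≤ 2 := by
    rw [Set.ncard_eq_toFinset_card', Set.toFinset_ofPred]
    exact IsCyclic.card_pow_eq_one_le two_pos
  refine ⟨by nlinarith, fun h7 => ?_⟩
  have h8 : {σ : RingAut F | σ ^ 2 = 1}.ncard ≤ 1 := by
    refine (Set.ncard_le_one (Set.toFinite _)).2 fun a _ b _ => RingEquiv.ext fun x => ?_
    by_cases hx : x = 0
    · simp [hx]
    obtain ⟨y, -, hy⟩ := (Nat.card_eq_two_iff' (0 : F)).1 h7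
    rw [hy x hx, ← hy 1 one_ne_zero, map_one, map_one]
  nlinarith

omit [Finite G] [Finite F] [CharP F 2] in
theorem Su.inv_pow (h : Su r t) (hn : Nsq r t) {n : ℕ} {k : G} (hk : k ∈ K0 r t)
    (h2 : k ^ 2 ^ n = 1) : k = 1 ∨ k = t := by
  induction n generalizing k with
  | zero => exact .inl (by simpa using h2)
  | succ n ih =>
    rw [pow_succ', pow_mul, pow_two] at h2
    exact h.inv hk ((ih (mul_mem hk hk) h2).resolve_right (hn k hk))

/-- `K0 = O × ⟨t⟩` -/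
theorem Su.exists_O (h : Su r t) (hn : Nsq r t) : ∃ O ≤ K0 r t, Odd (Nat.card O) ∧
    ∀ k ∈ K0 r t, k ∈ O ∨ k * t ∈ O := by
  obtain ⟨O, h1, h2⟩ := exists_odd_sub (A := K0 r t) fun P hP => by
    have := h.cyc _ (map_subtype_le P) (hP.map _)
    exact (P.equivMapOfInjective _ (K0 r t).subtype_injective).isCyclic.2 this
  have h3 : ∀ k ∈ K0 r t, ∀ m, Odd m → k ^ m = 1 → k ∈ O.map (K0 r t).subtype := fun k hk m hm e =>
    ⟨⟨k, hk⟩, h2 _ (odd_of_pow hm (Subtype.ext e)), rfl⟩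
  refine ⟨O.map (K0 r t).subtype, map_subtype_le O, by rwa [card_subtype], fun k hk => ?_⟩
  obtain ⟨n, m, hm, e⟩ := exists_two_odd k
  refine (h.inv_pow hn (pow_mem hk m) e).imp (h3 k hk m hm) fun e => h3 _ (mul_mem hk h.t_mem) m hm ?_
  obtain ⟨i, rfl⟩ := hm
  rw [Commute.mul_pow (mem_K0.1 hk).1, e, pow_succ, pow_mul, pow_two, h.tt, one_pow, one_mul, h.tt]

/-- `2`-elements of `C(t)` of linear type -/
theorem Su.inn_pow (h : Su r t) (hn : Nsq r t) {c : G} (hc : c * t = t * c) {k : ℕ}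
    (h2 : c ^ 2 ^ k = 1) (hA : AcI r c (RingEquiv.refl F)) : c ∈ r.range ∨ c * t ∈ r.range := by
  obtain ⟨x, -, a, ha, h4, rfl⟩ := h.inn0 hc h2 hA
  exact (h.inv_pow hn ha h4).imp (fun e => ⟨x, by rw [e, mul_one]⟩)
    fun e => ⟨x, by rw [e, mul_assoc, h.tt, mul_one]⟩

end Cfsg.Agent.StdL
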