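import Mathlib

/-! Abstract part of `DblA`: an abelian complement to `t` in a group `B` of class two. -/

set_option autoImplicit false

namespace Cfsg.Agent.StdL

variable {F E G : Type*} [Field F] [CharP F 2] [AddCommGroup E] [Module F E] [Group G]

/-- `B` is an extension of `V⟨t⟩` by `E ≅ V`; `s` is the squaring map -/
structure La (B : Subgroup G) (v : E → G) (t : G) (θ s : G → E) (l : F) : Prop where
  vadd : ∀ φ ψ, v (φ + ψ) = v φ * v ψ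
  vinj : Function.Injective v
  vB : ∀ φ, v φ ∈ B
  tB : t ∈ B
  vc : ∀ b ∈ B, ∀ φ, b * v φ = v φ * b
  tt : t * t = 1
  hθ : ∀ b ∈ B, b * t * b⁻¹ = t * v (θ b)
  ker : ∀ b ∈ B, θ b = 0 → ∃ φ, b = v φ ∨ b = t * v φ
  hs : ∀ b ∈ B, b * b = v (s b)
  hl : ∀ b ∈ B, θ b ≠ 0 → s b = l • θ b ∨ s b = (l + 1) • θ b
  sur : ∀ u, ∃ b ∈ B, θ b = u
  big : ∀ u u' : E, ∃ z, z ≠ 0 ∧ z ≠ u ∧ z ≠ u' ∧ z ≠ u + u'

/-- the elements of the complement -/
def LP (v : E → G) (θ s : G → E) (l : F) (b : G) : Prop :=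
  s b = l • θ b ∧ (θ b = 0 → ∃ φ, b = v φ)

theorem La.self (F : Type*) [Field F] [CharP F 2] [Module F E] (a : E) : a + a = 0 := by
  rw [← two_smul F a, CharTwo.two_eq_zero, zero_smul]

section

variable {B : Subgroup G} {v : E → G} {t : G} {θ s : G → E}

theorem la_θm (vadd : ∀ φ ψ, v (φ + ψ) = v φ * v ψ) (vinj : Function.Injective v)
    (vc : ∀ b ∈ B, ∀ φ, b * v φ = v φ * b) (hθ : ∀ b ∈ B, b * t * b⁻¹ = t * v (θ b))
    {b b' : G} (hb : b ∈ B) (hb' : b' ∈ B) : θ (b * b') = θ b + θ b' :=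
  vinj (mul_left_cancel (a := t) (by
    rw [← hθ _ (mul_mem hb hb'), vadd, ← mul_assoc t, ← hθ b hb, mul_assoc _ b⁻¹,
      vc _ (inv_mem hb), ← mul_assoc, mul_assoc b t, ← hθ b' hb']
    group))

end

namespace La

variable {B : Subgroup G} {v : E → G} {t : G} {θ s : G → E} {l : F} (a : La B v t θ s l)
include a

theorem v0 : v 0 = 1 := by
  have := a.vadd 0 0
  rw [add_zero] at this
  exact mul_eq_left.1 this.symm

theorem vv (φ : E) : v φ * v φ = 1 := by rw [← a.vadd, self F, a.v0]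

theorem θm {b b' : G} (hb : b ∈ B) (hb' : b' ∈ B) : θ (b * b') = θ b + θ b' :=
  la_θm a.vadd a.vinj a.vc a.hθ hb hb'

theorem θ0 {b : G} (hb : b ∈ B) : θ b = 0 ↔ b * t = t * b := by
  rw [← mul_inv_eq_iff_eq_mul, a.hθ b hb, mul_eq_left, ← a.v0, a.vinj.eq_iff]

theorem θt : θ t = 0 := (a.θ0 a.tB).2 rfl

theorem θv (φ : E) : θ (v φ) = 0 := (a.θ0 (a.vB φ)).2 (a.vc t a.tB φ).symm

theorem θinv {b : G} (hb : b ∈ B) : θ b⁻¹ = θ b := by
  have := a.θm (inv_mem hb) hb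
  rw [inv_mul_cancel, (a.θ0 (one_mem B)).2 (by rw [one_mul, mul_one])] at this
  rw [← add_zero (θ b⁻¹), ← self F (θ b), ← add_assoc, ← this, zero_add]

theorem s_mul_v {b : G} (hb : b ∈ B) (φ : E) : s (b * v φ) = s b := a.vinj (by
  rw [← a.hs _ (mul_mem hb (a.vB φ)), ← a.hs b hb, mul_assoc, ← mul_assoc (v φ), ← a.vc b hb,
    mul_assoc b, a.vv, mul_one])

theorem s_mul_t {b : G} (hb : b ∈ B) : s (b * t) = s b + θ b := a.vinj (by
  rw [← a.hs _ (mul_mem hb a.tB), a.vadd, ← a.hs b hb, ← a.θinv hb]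
  have h1 := a.hθ _ (inv_mem hb)
  calc _ = b * b * t⁻¹ * (b⁻¹ * t * b⁻¹⁻¹) * (b⁻¹ * t * b⁻¹⁻¹)⁻¹ * t * (b⁻¹ * t * b⁻¹⁻¹) * t := by
        group
    _ = _ := by
      rw [h1, mul_inv_cancel_right, inv_mul_cancel_right, a.vc t a.tB, mul_assoc, mul_assoc (v _),
        a.tt, mul_one])

theorem s_of_ker {b : G} (hb : b ∈ B) (h : θ b = 0) : s b = 0 := a.vinj (by
  rw [← a.hs b hb, a.v0]
  obtain ⟨φ, rfl | rfl⟩ := a.ker b hb h
  · exact a.vv φ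
  · rw [mul_assoc, ← mul_assoc (v φ), ← a.vc t a.tB, mul_assoc, a.vv, mul_one, a.tt])

theorem eq_mul {b b' : G} (hb : b ∈ B) (hb' : b' ∈ B) (h : θ b = θ b') :
    ∃ φ, b' = b * v φ ∨ b' = b * t * v φ := by
  obtain ⟨φ, e | e⟩ := a.ker _ (mul_mem (inv_mem hb) hb') (by rw [a.θm (inv_mem hb) hb', a.θinv hb, h, self F])
  · exact ⟨φ, Or.inl (by rw [← e]; group)⟩
  · exact ⟨φ, Or.inr (by rw [mul_assoc, ← e]; group)⟩

theorem lp_or {b : G} (hb : b ∈ B) : LP v θ s l b ∨ LP v θ s l (b * t) := by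
  have h1 : θ (b * t) = θ b := by rw [a.θm hb a.tB, a.θt, add_zero]
  by_cases h : θ b = 0
  · obtain ⟨φ, e | e⟩ := a.ker b hb h
    · exact Or.inl ⟨by rw [a.s_of_ker hb h, h, smul_zero], fun _ => ⟨φ, e⟩⟩
    · exact Or.inr ⟨by rw [a.s_of_ker (mul_mem hb a.tB) (h1.trans h), h1, h, smul_zero],
        fun _ => ⟨φ, by rw [e, a.vc t a.tB, mul_assoc, a.tt, mul_one]⟩⟩
  · rcases a.hl b hb h with e | e
    · exact Or.inl ⟨e, fun h' => absurd h' h⟩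
    · exact Or.inr ⟨by rw [a.s_mul_t hb, e, h1, add_smul, one_smul, add_assoc, self F, add_zero],
        fun h' => absurd (h1.symm.trans h') h⟩

theorem exists_lp (u : E) : ∃ b ∈ B, LP v θ s l b ∧ θ b = u := by
  obtain ⟨b, hb, rfl⟩ := a.sur u
  rcases a.lp_or hb with h | h
  · exact ⟨b, hb, h, rfl⟩
  · exact ⟨_, mul_mem hb a.tB, h, by rw [a.θm hb a.tB, a.θt, add_zero]⟩

theorem eq_mul_lp {b b' : G} (hb : b ∈ B) (hb' : b' ∈ B) (h : θ b = θ b') (p : LP v θ s l b)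
    (p' : LP v θ s l b') : ∃ φ, b' = b * v φ := by
  by_cases h0 : θ b = 0
  · obtain ⟨φ, rfl⟩ := p.2 h0
    obtain ⟨ψ, rfl⟩ := p'.2 (h ▸ h0)
    exact ⟨φ + ψ, by rw [a.vadd, ← mul_assoc, a.vv, one_mul]⟩
  · obtain ⟨φ, e | e⟩ := a.eq_mul hb hb' h
    · exact ⟨φ, e⟩
    · have h1 := p'.1
      rw [← h, e, a.s_mul_v (mul_mem hb a.tB), a.s_mul_t hb, p.1, add_eq_left] at h1
      exact absurd h1 h0

theorem swap : La B v t θ s (l + 1) :=
  { a with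
    hl := fun b hb h => by
      rw [add_assoc l, CharTwo.add_self_eq_zero, add_zero]
      exact (a.hl b hb h).symm }

theorem hc {b b' : G} (hb : b ∈ B) (hb' : b' ∈ B) :
    b' * b = v (s (b * b') + s b + s b') * (b * b') := by
  have h1 : ∀ c ∈ B, c * v (s c) = c⁻¹ := fun c hc => by
    rw [eq_inv_iff_mul_eq_one, mul_assoc, ← a.vc c hc, ← mul_assoc, a.hs c hc, a.vv]
  calc b' * b = b⁻¹ * (b * b' * (b * b')) * b'⁻¹ := by group
    _ = v (s (b * b')) * (b * v (s b)) * (b' * v (s b')) := by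
      rw [a.hs _ (mul_mem hb hb'), a.vc _ (inv_mem hb), h1 b hb, h1 b' hb']
    _ = _ := by
      rw [a.vadd, a.vadd, a.vc b hb, a.vc b' hb', mul_assoc, mul_assoc, ← mul_assoc b, a.vc b hb]
      group

theorem cm_or {b b' : G} (hb : b ∈ B) (hb' : b' ∈ B) (p : LP v θ s l b) (p' : LP v θ s l b')
    (h : θ b + θ b' ≠ 0) : (b' * b = b * b' ∧ LP v θ s l (b * b')) ∨
      (b' * b = v (θ b + θ b') * (b * b') ∧ LP v θ s l (b * b' * t)) := by
  have h1 := a.hc hb hb'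
  have h2 := a.θm hb hb'
  rw [p.1, p'.1, add_assoc, ← smul_add] at h1
  rcases a.lp_or (mul_mem hb hb') with q | q
  · rw [q.1, h2, self F, a.v0, one_mul] at h1
    exact Or.inl ⟨h1, q⟩
  · have h3 := q.1
    rw [a.s_mul_t (mul_mem hb hb'), a.θm (mul_mem hb hb') a.tB, a.θt, add_zero, h2] at h3
    rw [← h3, ← add_assoc, self F, zero_add] at h1
    exact Or.inr ⟨h1, q⟩

theorem t_mul {b : G} (hb : b ∈ B) : t * b = v (θ b) * (b * t) := by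
  rw [eq_mul_of_mul_inv_eq (a.hθ b hb), a.vc t a.tB, ← mul_assoc, ← mul_assoc, a.vv, one_mul]

theorem cm_mul {b x y : G} (hb : b ∈ B) (hx : x ∈ B) {φ ψ : E} (h1 : x * b = v φ * (b * x))
    (h2 : y * b = v ψ * (b * y)) : x * y * b = v (φ + ψ) * (b * (x * y)) := by
  rw [mul_assoc, h2, ← mul_assoc, a.vc x hx, mul_assoc, ← mul_assoc x, h1, add_comm, a.vadd]
  group

theorem cm_eq {b x : G} {φ ψ : E} (h1 : x * b = v φ * (b * x)) (h2 : x * b = v ψ * (b * x)) :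
    φ = ψ := a.vinj (mul_right_cancel (h1.symm.trans h2))

theorem tri {b x y : G} (hb : b ∈ B) (hx : x ∈ B) (hy : y ∈ B) (p : LP v θ s l b)
    (px : LP v θ s l x) (py : LP v θ s l y) (h1 : θ b ≠ 0) (h2 : θ x ≠ 0) (h3 : θ x ≠ θ b)
    (h4 : θ y ≠ 0) (h5 : θ y ≠ θ b) (h6 : θ y ≠ θ x) (h7 : θ y ≠ θ b + θ x)
    (h : x * b = b * x) : y * b = b * y := by
  have E2 : ∀ u w : E, u + w = 0 → w = u := fun u w e => by
    rw [← add_zero w, ← self F u, ← add_assoc, add_comm w, e, zero_add]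
  refine ((a.cm_or hb hy p py fun e => h5 (E2 _ _ e)).imp_left And.left).resolve_right ?_
  rintro ⟨e1, -⟩
  have e0 : x * b = v 0 * (b * x) := by rw [a.v0, one_mul, h]
  have e2 := a.cm_mul hb hx e0 e1
  rw [zero_add] at e2
  have n7 : θ b + (θ x + θ y) ≠ 0 := fun e => h7 (E2 _ _ (by rwa [add_assoc]))
  rcases a.cm_or hx hy px py fun e => h6 (E2 _ _ e) with ⟨-, q⟩ | ⟨-, q⟩
  · rcases a.cm_or hb (mul_mem hx hy) p q (by rwa [a.θm hx hy]) with ⟨e3, -⟩ | ⟨e3, -⟩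
    · exact h5 (E2 _ _ (a.cm_eq e2 (by rw [a.v0, one_mul, e3])))
    · have := a.cm_eq e2 e3
      rw [a.θm hx hy, add_right_inj, eq_comm, add_eq_right] at this
      exact h2 this
  · have e4 := a.cm_mul hb (mul_mem hx hy) e2 (a.t_mul hb)
    have e5 : θ (x * y * t) = θ x + θ y := by rw [a.θm (mul_mem hx hy) a.tB, a.θt, add_zero, a.θm hx hy]
    rw [add_right_comm, self F, zero_add] at e4
    rcases a.cm_or hb (mul_mem (mul_mem hx hy) a.tB) p q (by rwa [e5]) with ⟨e3, -⟩ | ⟨e3, -⟩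
    · exact h4 (a.cm_eq e4 (by rw [a.v0, one_mul, e3]))
    · have := a.cm_eq e4 e3
      rw [e5, ← add_assoc, eq_comm, add_eq_right] at this
      exact h3 (E2 _ _ this)

theorem tri' {b x y : G} (hb : b ∈ B) (hx : x ∈ B) (hy : y ∈ B) (p : LP v θ s l b)
    (px : LP v θ s l x) (py : LP v θ s l y) (h1 : θ b ≠ 0) (h2 : θ x ≠ 0) (h3 : θ x ≠ θ b)
    (h4 : θ y ≠ 0) (h5 : θ y ≠ θ b) (h : x * b = b * x) : y * b = b * y := by
  by_cases h6 : θ y ≠ θ x ∧ θ y ≠ θ b + θ x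
  · exact a.tri hb hx hy p px py h1 h2 h3 h4 h5 h6.1 h6.2 h
  obtain ⟨u, n1, n2, n3, n4⟩ := a.big (θ b) (θ x)
  obtain ⟨z, hz, pz, rfl⟩ := a.exists_lp u
  refine a.tri hb hz hy p pz py h1 n1 n2 h4 h5 ?_ ?_ (a.tri hb hx hz p px pz h1 h2 h3 n1 n2 n3 n4 h)
  · intro e
    rw [e] at h6
    exact h6 ⟨n3, n4⟩
  · intro e
    refine h6 ⟨fun e' => n4 ?_, fun e' => n3 ?_⟩
    · rw [← e', e, ← add_assoc, self F, zero_add]
    · exact add_left_cancel (e.symm.trans e')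

theorem all_comm {b₀ x₀ : G} (hb₀ : b₀ ∈ B) (hx₀ : x₀ ∈ B) (p₀ : LP v θ s l b₀)
    (px₀ : LP v θ s l x₀) (h1 : θ b₀ ≠ 0) (h2 : θ x₀ ≠ 0) (h3 : θ x₀ ≠ θ b₀)
    (h : x₀ * b₀ = b₀ * x₀) {b x : G} (hb : b ∈ B) (hx : x ∈ B) (p : LP v θ s l b)
    (px : LP v θ s l x) : x * b = b * x := by
  have key : ∀ {b x : G}, b ∈ B → x ∈ B → LP v θ s l b → LP v θ s l x → θ b ≠ 0 → θ x ≠ 0 →
      θ x ≠ θ b → θ b ≠ θ b₀ → x * b = b * x := fun {b x} hb hx p px n1 n2 n3 n4 =>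
    a.tri' hb hb₀ hx p p₀ px n1 h1 n4.symm n2 n3
      (a.tri' hb₀ hx₀ hb p₀ px₀ p h1 h2 h3 n1 n4 h).symm
  by_cases n1 : θ b = 0
  · obtain ⟨φ, rfl⟩ := p.2 n1
    exact a.vc x hx φ
  by_cases n2 : θ x = 0
  · obtain ⟨φ, rfl⟩ := px.2 n2
    exact (a.vc b hb φ).symm
  by_cases n3 : θ b = θ x
  · obtain ⟨φ, rfl⟩ := a.eq_mul_lp hb hx n3 p px
    rw [mul_assoc, ← a.vc b hb]
  by_cases n4 : θ b = θ b₀
  · exact (key hx hb px p n2 n1 n3 fun e => n3 (n4.trans e.symm)).symm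
  · exact key hb hx p px n1 n2 (Ne.symm n3) n4

theorem main : ∃ l' : F, La B v t θ s l' ∧
    ∀ b ∈ B, ∀ x ∈ B, LP v θ s l' b → LP v θ s l' x → x * b = b * x := by
  obtain ⟨u, n1, -⟩ := a.big 0 0
  obtain ⟨u', n2, n3, -⟩ := a.big u u
  obtain ⟨b, hb, p, rfl⟩ := a.exists_lp u
  obtain ⟨x, hx, px, rfl⟩ := a.exists_lp u'
  have n4 : θ b + θ x ≠ 0 := fun e => n3 (by
    rw [← add_zero (θ x), ← self F (θ b), ← add_assoc, add_comm (θ x), e, zero_add])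
  rcases a.cm_or hb hx p px n4 with ⟨e, -⟩ | ⟨e, -⟩
  · exact ⟨l, a, fun _ h1 _ h2 => a.all_comm hb hx p px n1 n2 n3 e h1 h2⟩
  · have h1 : ∀ c ∈ B, θ (c * t) = θ c := fun c hc => by rw [a.θm hc a.tB, a.θt, add_zero]
    have h2 : ∀ c ∈ B, θ c ≠ 0 → LP v θ s l c → LP v θ s (l + 1) (c * t) := fun c hc n q =>
      ⟨by rw [a.s_mul_t hc, q.1, h1 c hc, add_smul, one_smul], fun e => absurd ((h1 c hc).symm.trans e) n⟩
    refine ⟨l + 1, a.swap, fun _ h3 _ h4 => a.swap.all_comm (mul_mem hb a.tB) (mul_mem hx a.tB)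
      (h2 b hb n1 p) (h2 x hx n2 px) (by rwa [h1 b hb]) (by rwa [h1 x hx])
      (by rwa [h1 b hb, h1 x hx]) ?_ h3 h4⟩
    calc x * t * (b * t) = x * (t * b) * t := by group
      _ = v (θ b) * (x * b) := by
        rw [a.t_mul hb, ← mul_assoc x, a.vc x hx, mul_assoc, mul_assoc b, a.tt, mul_one, mul_assoc]
      _ = v (θ x) * (b * x) := by rw [e, ← mul_assoc, ← a.vadd, ← add_assoc, self F, zero_add]
      _ = b * (t * x) * t := by
        rw [a.t_mul hx, ← mul_assoc b, a.vc b hb, mul_assoc, mul_assoc x, a.tt, mul_one, mul_assoc]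
      _ = _ := by group

theorem lp_mul {b x : G} (hb : b ∈ B) (hx : x ∈ B) (p : LP v θ s l b) (px : LP v θ s l x)
    (h : x * b = b * x) : LP v θ s l (b * x) := by
  refine ⟨a.vinj ?_, fun e => ?_⟩
  · rw [← a.hs _ (mul_mem hb hx), a.θm hb hx, smul_add, ← p.1, ← px.1, a.vadd, ← a.hs b hb,
      ← a.hs x hx, mul_assoc, ← mul_assoc x, h]
    group
  · rw [a.θm hb hx] at e
    obtain ⟨φ, rfl⟩ := a.eq_mul_lp hb hx (by
      rw [← add_zero (θ b), ← self F (θ x), ← add_assoc, e, zero_add]) p px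
    exact ⟨s b + φ, by rw [← mul_assoc, a.hs b hb, a.vadd]⟩

theorem lp_v (φ : E) : LP v θ s l (v φ) :=
  ⟨by rw [a.s_of_ker (a.vB φ) (a.θv φ), a.θv, smul_zero], fun _ => ⟨φ, rfl⟩⟩

theorem lp_inv {b : G} (hb : b ∈ B) (p : LP v θ s l b) : LP v θ s l b⁻¹ := by
  have h1 : b⁻¹ = b * v (s b) := by
    rw [eq_comm, eq_inv_iff_mul_eq_one, mul_assoc, ← a.vc b hb, ← mul_assoc, a.hs b hb, a.vv]
  rw [h1]
  exact a.lp_mul hb (a.vB _) p (a.lp_v _) (a.vc b hb _).symm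

end La

end Cfsg.Agent.StdL
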