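import Cfsg.Agent.StdL.TrlB
import Cfsg.Agent.StdL.DblL

/-! `V = Vg r e`, `A = V⟨t⟩`, `C = {g ∈ C(V) | g t g⁻¹ ∈ t V}`, `θ g = g t g⁻¹ t : C →* V` onto
(`Trl`) with kernel `C(A) = V × ⟨t⟩ × O` (`cent_V`, `exists_O`). `O` = odd elements of `C(A)`, normal in
`C`. `N = ⟨r (tv u φ) | φ e = 0⟩` normalises `C`, centralises `O`, so `⁅C, N⁆ ≤ C(O)` and `θ` maps `⁅C, N⁆`
onto `V`. `C₁ = C ⊓ C(O)` has the central odd subgroup `Z(O)` with `2`-group quotient, so its `2`-elements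
form a subgroup `B` (Sylow, normal), `C = O B`, `B` = all `2`-elements of `C`, `θ B = V`, `B ⊓ C(t) = A`.
`b² ∈ ker θ ⊓ B = A` commutes with `b`, so `b² ∈ V` (else `θ b = 1`, `b ∈ A`, `b² = 1`). `(b t)² = b² θ b`.
For `θ b = u ≠ 0` the pair `{b², b² u}` depends on `u` only and is invariant under the `x ∈ N` fixing `u`;
transvections `ψ ↦ ψ + ψ(y) φ'` fixing `u` force `b² ∈ F u` (`q > 2`: `φ' = c u`, `c ≠ 0, 1`; `q = 2`:
`φ' ∉ ⟨s, u⟩`, `dim ≥ 4`); `trans_V`: `b² = (l₀ + λ b) θ b`, `λ b ∈ {0, 1}`, `l₀` constant. Put `λ = 0` on `V`,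
`1` on `t V`. `δ = λ(b b') + λ b + λ b'` depends on `(θ b, θ b') = (u, u')` only, vanishes if `u = 0`, `u' = 0`
or `u = u'`; `B` has class `2` and `⁅b, b'⁆ = δ (u + u') + λ(b') u + λ(b) u'`. Bilinearity in `b'` for
`F₂`-independent `u, u', u''` (`|V| ≥ 8`) gives `δ(u,u') = δ(u,u'') = δ(u',u'')`: `δ` is a constant `d` on
independent pairs. Replace `l₀` by `l₀ + d` (and `λ` by `λ + d` off `A`): `λ` is a hom, `W = ker λ`. -/

set_option autoImplicit false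

namespace Cfsg.Agent.StdL

open Matrix Subgroup Cfsg.Agent.LnT Cfsg.Agent.PLocal.Amb
open scoped commutatorElement

variable {F ι G : Type*} [Field F] [Fintype ι] [DecidableEq ι] [Group G] [CharP F 2] [Finite F]
  [Finite G] {r : SpecialLinearGroup ι F →* G} {t : G}

/-- abelian complement to `t` in `B = O₂(C(V) ∩ N(V⟨t⟩))` -/
structure Ab (r : SpecialLinearGroup ι F →* G) (t : G) (e : ι → F) (W : Subgroup G) (l : F) :
    Prop where
  com : ∀ a ∈ W, ∀ b ∈ W, a * b = b * a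
  le : Vg r e ≤ W
  nrm : ∀ u φ, φ ⬝ᵥ e = 0 → r (tv u φ) ∈ 𝐍[W]
  th : ∀ w ∈ W, w * t * w⁻¹ * t ∈ Vg r e
  sur : ∀ v ∈ Vg r e, ∃ w ∈ W, w * t * w⁻¹ * t = v
  ker : ∀ w ∈ W, w * t = t * w → w ∈ Vg r e
  sq : ∀ w ∈ W, ∀ φ, φ ⬝ᵥ e = 0 → w * t * w⁻¹ * t = r (tv e φ) → w * w = r (tv e (l • φ))
  all : ∀ g ∈ Wc (Vg r e) t, g ∈ W ∨ g * t ∈ W

theorem Rp.big_E (h : Rp r) {e : ι → F} (he : e ≠ 0) (u u' : Ep e) :
    ∃ z, z ≠ 0 ∧ z ≠ u ∧ z ≠ u' ∧ z ≠ u + u' := by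
  by_contra hc
  push Not at hc
  have h1 := Nat.card_le_card_of_surjective (![0, u, u', u + u'] : Fin 4 → Ep e) fun z => by
    by_cases e0 : z = 0
    · exact ⟨0, e0.symm⟩
    by_cases e1 : z = u
    · exact ⟨1, e1.symm⟩
    by_cases e2 : z = u'
    · exact ⟨2, e2.symm⟩
    exact ⟨3, (hc z e0 e1 e2).symm⟩
  rw [card_Ep he, Nat.card_eq_fintype_card (α := Fin 4), Fintype.card_fin] at h1
  have h2 : 1 < Nat.card F := Finite.one_lt_card
  have h3 := h.three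
  rcases h.hq with hq | hq
  · have := Nat.pow_le_pow_left (show 3 ≤ Nat.card F from hq) 2
    have := Nat.pow_le_pow_right (show 0 < Nat.card F by omega) (show 2 ≤ Fintype.card ι - 1 by omega)
    omega
  · have := Nat.pow_le_pow_left (show 2 ≤ Nat.card F from h2) 4
    have := Nat.pow_le_pow_right (show 0 < Nat.card F by omega) (show 4 ≤ Fintype.card ι - 1 by omega)
    omega

theorem Rp.exists_phi (h : Rp r) {e z : ι → F} {u : Ep e} (hu : u ≠ 0) (hz : fE e z u = 0) :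
    ∃ φ : Ep e, fE e z φ = 0 ∧ φ ≠ 0 ∧ φ ≠ u := by
  rcases h.hq with hq | hq
  · obtain ⟨c, h0, h1⟩ := exists_ne01 hq
    refine ⟨c • u, by rw [map_smul, hz, smul_zero], smul_ne_zero h0 hu, fun e1 => h1 ?_⟩
    exact smul_left_injective F hu (e1.trans (one_smul F u).symm)
  · obtain ⟨φ, h1, h2, h3⟩ := exists_21 (by omega : 4 ≤ Fintype.card ι) e z u.1
    refine ⟨⟨φ, (dotProduct_comm _ _).trans h1⟩, (dotProduct_comm _ _).trans h2, fun e1 => h3 0 ?_,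
      fun e1 => h3 1 ?_⟩
    · rw [zero_smul]; exact congrArg Subtype.val e1
    · rw [one_smul]; exact congrArg Subtype.val e1

theorem Su.exists_ab (h : Su r t) (hn : Nsq r t) {e : ι → F} (he : e ≠ 0) (ht : Trl (Vg r e) t) :
    ∃ W l, Ab r t e W l := by
  classical
  have hinj := h.vE_inj he
  obtain ⟨O, hOK, hOo, hO⟩ := h.exists_O hn
  have hOt : ∀ o ∈ O, o * t = t * o := fun o ho => (mem_K0.1 (hOK ho)).1
  have hOr : ∀ o ∈ O, ∀ x, o * r x = r x * o := fun o ho => (mem_K0.1 (hOK ho)).2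
  have hOn : ∀ o ∈ O, o ^ Nat.card O = 1 := fun o ho =>
    congrArg Subtype.val (pow_card_eq_one' (x := (⟨o, ho⟩ : O)))
  obtain ⟨n, hn'⟩ := hOo
  obtain ⟨A, hA⟩ : ∃ A, A = Vg r e ⊔ zpowers t := ⟨_, rfl⟩
  have mA : ∀ {x}, x ∈ A ↔ ∃ φ : Ep e, x = vE r e φ ∨ x = t * vE r e φ := fun {x} => hA ▸ h.mem_A
  have hAA : ∀ a ∈ A, a * a = 1 := fun a ha => by
    obtain ⟨φ, rfl | rfl⟩ := mA.1 ha
    · exact vE_sq φ
    · rw [mul_assoc, ← mul_assoc (vE r e φ), ← h.t_vE, mul_assoc, vE_sq, mul_one, h.tt]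
  have hAn : ∀ a ∈ A, a ^ Nat.card O = a := fun a ha => by
    rw [hn', pow_succ, pow_mul, pow_two, hAA a ha, one_pow, one_mul]
  have hAO : ∀ a ∈ A, ∀ o ∈ O, o * a = a * o := fun a ha o ho => by
    obtain ⟨φ, rfl | rfl⟩ := mA.1 ha
    · exact hOr o ho _
    · rw [← mul_assoc, hOt o ho, mul_assoc, mul_assoc]
      exact congrArg _ (hOr o ho _)
  have hO1 : ∀ o ∈ O, o * o ∈ A → o = 1 := fun o ho ha => by
    have h1 := hAn _ ha
    rw [hOn _ (mul_mem ho ho)] at h1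
    have h2 := hOn o ho
    rwa [hn', pow_succ, pow_mul, pow_two, ← h1, one_pow, one_mul] at h2
  let C : Subgroup G :=
    { carrier := {g | (∀ φ : Ep e, g * vE r e φ = vE r e φ * g) ∧ ∃ ψ, g * t * g⁻¹ = t * vE r e ψ}
      one_mem' := ⟨fun φ => by group, 0, by rw [vE_zero]; group⟩
      mul_mem' := by
        rintro a b ⟨h1, φ, h2⟩ ⟨h3, ψ, h4⟩
        refine ⟨fun χ => by rw [mul_assoc, h3, ← mul_assoc, h1, mul_assoc], φ + ψ, ?_⟩
        calc _ = a * (b * t * b⁻¹) * a⁻¹ := by group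
          _ = a * t * a⁻¹ * (a * vE r e ψ) * a⁻¹ := by rw [h4]; group
          _ = _ := by rw [h1, h2, vE_add]; group
      inv_mem' := by
        rintro a ⟨h1, φ, h2⟩
        refine ⟨fun χ => by rw [inv_mul_eq_iff_eq_mul, ← mul_assoc, h1, mul_inv_cancel_right], φ, ?_⟩
        calc _ = a⁻¹ * (t * vE r e φ) * (vE r e φ)⁻¹ * a := by group
          _ = t * a⁻¹ * (vE r e φ * a) := by rw [← h2, vE_inv]; group
          _ = _ := by rw [← h1]; group }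
  obtain ⟨θ, hθ⟩ : ∃ θ : G → Ep e, ∀ g ∈ C, g * t * g⁻¹ = t * vE r e (θ g) := by
    refine ⟨fun g => if hg : g ∈ C then hg.2.choose else 0, fun g hg => ?_⟩
    simp only [dif_pos hg]
    exact hg.2.choose_spec
  have θm : ∀ g ∈ C, ∀ g' ∈ C, θ (g * g') = θ g + θ g' := fun g hg g' hg' =>
    la_θm (B := C) vE_add hinj (fun b hb => hb.1) hθ hg hg'
  have θ0 : ∀ g ∈ C, θ g = 0 ↔ g * t = t * g := fun g hg => by
    rw [← mul_inv_eq_iff_eq_mul, hθ g hg, mul_eq_left, h.vE_eq_one he]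
  have θ1 : θ 1 = 0 := (θ0 1 (one_mem _)).2 (by group)
  have θi : ∀ g ∈ C, θ g⁻¹ = θ g := fun g hg => by
    have := θm _ (inv_mem hg) g hg
    rw [inv_mul_cancel, θ1] at this
    rw [← add_zero (θ g⁻¹), ← Ep_add_self (θ g), ← add_assoc, ← this, zero_add]
  have hCA : ∀ g ∈ C, ∀ a ∈ A, g * a * g⁻¹ ∈ A := fun g hg a ha => by
    obtain ⟨φ, rfl | rfl⟩ := mA.1 ha
    · rwa [hg.1, mul_inv_cancel_right]
    · refine mA.2 ⟨θ g + φ, Or.inr ?_⟩
      rw [vE_add, ← mul_assoc t, ← hθ g hg, mul_assoc _ g⁻¹, (inv_mem hg : g⁻¹ ∈ C).1]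
      group
  have cC : ∀ g, (∀ φ : Ep e, g * vE r e φ = vE r e φ * g) → g * t = t * g → g ∈ C :=
    fun g h1 h2 => ⟨h1, 0, by rw [h2, vE_zero]; group⟩
  have hAC : A ≤ C := fun a ha => by
    obtain ⟨φ, rfl | rfl⟩ := mA.1 ha
    · exact cC _ (vE_comm φ) (h.t_vE φ).symm
    · exact mul_mem (cC t h.t_vE rfl) (cC _ (vE_comm φ) (h.t_vE φ).symm)
  have hOC : O ≤ C := fun o ho => cC o (fun φ => hOr o ho _) (hOt o ho)
  have hker : ∀ g ∈ C, θ g = 0 → ∃ a ∈ A, ∃ o ∈ O, g = a * o := fun g hg h0 => by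
    obtain ⟨v, hv, k, hk, rfl⟩ := h.cent_V ((θ0 g hg).1 h0) he fun v hv => by
      obtain ⟨φ, rfl⟩ := mem_vE.1 hv
      exact hg.1 φ
    obtain ⟨φ, rfl⟩ := mem_vE.1 hv
    rcases hO k hk with h1 | h1
    · exact ⟨_, mA.2 ⟨φ, Or.inl rfl⟩, k, h1, rfl⟩
    · refine ⟨_, mA.2 ⟨φ, Or.inr rfl⟩, _, h1, ?_⟩
      rw [h.t_vE, (mem_K0.1 hk).1, mul_assoc, ← mul_assoc t, h.tt, one_mul]
  have hCO : ∀ g ∈ C, ∀ o ∈ O, g * o * g⁻¹ ∈ O := fun g hg o ho => by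
    obtain ⟨a, ha, o', ho', e1⟩ := hker _ (mul_mem (mul_mem hg (hOC ho)) (inv_mem hg)) (by
      rw [θm _ (mul_mem hg (hOC ho)) _ (inv_mem hg), θm _ hg _ (hOC ho), θi g hg,
        (θ0 o (hOC ho)).2 (hOt o ho), add_zero, Ep_add_self])
    have h1 : (a * o') ^ Nat.card O = 1 := by rw [← e1, conj_pow, hOn o ho]; group
    rw [Commute.mul_pow (hAO a ha o' ho').symm, hAn a ha, hOn o' ho', mul_one] at h1
    rwa [e1, h1, one_mul]
  have hsq : ∀ g ∈ C, ∀ a ∈ A, g * g ∈ A → g * a * (g * a) ∈ A := fun g hg a ha h1 => by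
    have : g * a * (g * a) = g * g * (g⁻¹ * a * g⁻¹⁻¹) * a := by group
    rw [this]
    exact mul_mem (mul_mem h1 (hCA _ (inv_mem hg) a ha)) ha
  have hodd : ∀ g, g ∈ 𝐂[O] → ∀ o ∈ O, g * g ∈ A → g * o * (g * o) ∈ A → o = 1 :=
    fun g hg o ho h1 h2 => hO1 o ho (by
      have : o * o = (g * g)⁻¹ * (g * o * (g * o)) := by
        rw [mul_assoc g o, ← mul_assoc o, mem_centralizer_iff.1 hg o ho]; group
      rw [this]
      exact mul_mem (inv_mem h1) h2)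
  have hAcO : A ≤ 𝐂[O] := fun a ha => mem_centralizer_iff.2 (hAO a ha)
  let B : Subgroup G :=
    { carrier := {g | g ∈ C ∧ g ∈ 𝐂[O] ∧ g * g ∈ A}
      one_mem' := ⟨one_mem _, one_mem _, by rw [mul_one]; exact one_mem _⟩
      mul_mem' := by
        rintro g k ⟨h1, h2, h3⟩ ⟨h4, h5, h6⟩
        refine ⟨mul_mem h1 h4, mul_mem h2 h5, ?_⟩
        obtain ⟨a, ha, o, ho, e1⟩ := hker _
          (mul_mem (mul_mem (mul_mem (inv_mem h1) h4) h1) (inv_mem h4)) (by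
            rw [θm _ (mul_mem (mul_mem (inv_mem h1) h4) h1) _ (inv_mem h4),
              θm _ (mul_mem (inv_mem h1) h4) _ h1, θm _ (inv_mem h1) _ h4, θi g h1, θi k h4,
              add_assoc, Ep_add_self])
        have h7 : o = 1 := hodd (g * a) (mul_mem h2 (hAcO ha)) o ho (hsq g h1 a ha h3) (by
          have : g * a * o = k * g * k⁻¹ := by rw [mul_assoc, ← e1]; group
          rw [this, conj_mul]
          exact hCA k h4 _ h3)
        have : g * k * (g * k) = g * g * (g⁻¹ * k * g * k⁻¹) * (k * k) := by group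
        rw [this, e1, h7, mul_one]
        exact mul_mem (mul_mem h3 ha) h6
      inv_mem' := by
        rintro g ⟨h1, h2, h3⟩
        exact ⟨inv_mem h1, inv_mem h2, by rw [← _root_.mul_inv_rev]; exact inv_mem h3⟩ }
  have hAB : A ≤ B := fun a ha => ⟨hAC ha, hAcO ha, mul_mem ha ha⟩
  have hBk : ∀ b ∈ B, θ b = 0 → b ∈ A := fun b hb h0 => by
    obtain ⟨a, ha, o, ho, rfl⟩ := hker b hb.1 h0
    rwa [hodd a (hAcO ha) o ho (mul_mem ha ha) hb.2.2, mul_one]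
  obtain ⟨s, hs⟩ : ∃ s : G → Ep e, ∀ b ∈ B, b * b = vE r e (s b) := by
    have : ∀ b, ∃ φ : Ep e, b ∈ B → b * b = vE r e φ := fun b => by
      by_cases hb : b ∈ B
      · obtain ⟨φ, e1 | e1⟩ := mA.1 hb.2.2
        · exact ⟨φ, fun _ => e1⟩
        · have h1 : b * t = t * b := by
            rw [eq_mul_inv_of_mul_eq e1.symm, vE_inv, mul_assoc (b * b), ← hb.1.1]; group
          exact ⟨0, fun _ => by rw [vE_zero, hAA b (hBk b hb ((θ0 b hb.1).2 h1))]⟩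
      · exact ⟨0, fun h1 => absurd h1 hb⟩
    choose s hs using this
    exact ⟨s, hs⟩
  have cjC : ∀ (x : SpecialLinearGroup ι F) (L : Ep e → Ep e),
      (∀ χ, r x * vE r e χ * (r x)⁻¹ = vE r e (L χ)) → ∀ g ∈ C,
        r x * g * (r x)⁻¹ ∈ C ∧ θ (r x * g * (r x)⁻¹) = L (θ g) := fun x L hL g hg => by
    have h1 : Function.Surjective L := Finite.injective_iff_surjective.1 fun a b e1 =>
      hinj (by simpa using (hL a).trans ((congrArg _ e1).trans (hL b).symm))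
    have h2 : r x * g * (r x)⁻¹ * t * (r x * g * (r x)⁻¹)⁻¹ = t * vE r e (L (θ g)) := by
      calc _ = r x * (g * ((r x)⁻¹ * t * r x) * g⁻¹) * (r x)⁻¹ := by group
        _ = _ := by
          rw [mul_assoc (r x)⁻¹, h.tc, inv_mul_cancel_left, hθ g hg, ← hL, ← mul_assoc, ← h.tc]
          group
    have h3 : r x * g * (r x)⁻¹ ∈ C := ⟨fun φ => by
      obtain ⟨ψ, rfl⟩ := h1 φ
      rw [← hL, conj_mul, conj_mul, hg.1], _, h2⟩
    exact ⟨h3, hinj (mul_left_cancel ((hθ _ h3).symm.trans h2))⟩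
  have cjB : ∀ (x : SpecialLinearGroup ι F) (L : Ep e → Ep e),
      (∀ χ, r x * vE r e χ * (r x)⁻¹ = vE r e (L χ)) → ∀ b ∈ B,
        r x * b * (r x)⁻¹ ∈ B ∧ s (r x * b * (r x)⁻¹) = L (s b) := fun x L hL b hb => by
    have h1 : r x * b * (r x)⁻¹ * (r x * b * (r x)⁻¹) = vE r e (L (s b)) := by
      rw [conj_mul, hs b hb, hL]
    have h2 : r x * b * (r x)⁻¹ ∈ B := by
      have h3 : r x ∈ 𝐂[O] := mem_centralizer_iff.2 fun o ho => hOr o ho x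
      exact ⟨(cjC x L hL b hb.1).1, mul_mem (mul_mem h3 hb.2.1) (inv_mem h3),
        mA.2 ⟨_, Or.inl h1⟩⟩
    exact ⟨h2, hinj ((hs _ h2).symm.trans h1)⟩
  have hsurC : ∀ ψ, ∃ g ∈ C, θ g = ψ := fun ψ => by
    obtain ⟨g, h1, h2⟩ := ht _ (vE_mem ψ)
    have h3 : g ∈ C := ⟨fun φ => h1 _ (vE_mem φ), ψ, h2⟩
    exact ⟨g, h3, hinj (mul_left_cancel ((hθ g h3).symm.trans h2))⟩
  have hsur : ∀ φ, ∃ b ∈ B, θ b = φ := fun φ => by
    obtain ⟨u, h1, h2⟩ := exists_11E h.three φ.1 e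
    obtain ⟨ψ, h3⟩ := exists_fE_one h2
    obtain ⟨g, hg, h4⟩ := hsurC ψ
    obtain ⟨h5, h6⟩ := cjC _ _ (conj_tv_vE (φ := φ) h1) _ (inv_mem hg)
    obtain ⟨k, hk⟩ : ∃ k, k = g * (r (tv u φ.1) * g⁻¹ * (r (tv u φ.1))⁻¹) := ⟨_, rfl⟩
    have h7 : k ∈ C := hk ▸ mul_mem hg h5
    have h8 : θ k = φ := by
      rw [hk, θm _ hg _ h5, h6, θi g hg, h4, h3, one_smul, ← add_assoc, Ep_add_self, zero_add]
    have h9 : k ∈ 𝐂[O] := by
      have h3 : r (tv u φ.1) ∈ 𝐂[O] := mem_centralizer_iff.2 fun o ho => hOr o ho _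
      have : k = g * r (tv u φ.1) * g⁻¹ * (r (tv u φ.1))⁻¹ := by rw [hk]; group
      rw [this]
      refine mul_mem (mem_centralizer_iff.2 fun o ho => ?_) (inv_mem h3)
      calc _ = g * (g⁻¹ * o * g⁻¹⁻¹ * r (tv u φ.1)) * g⁻¹ := by group
        _ = _ := by rw [hOr _ (hCO _ (inv_mem hg) o ho)]; group
    have h10 : θ (k * k) = 0 := by rw [θm _ h7 _ h7, Ep_add_self]
    refine ⟨k ^ Nat.card O, ⟨pow_mem h7 _, pow_mem h9 _, ?_⟩, ?_⟩
    · obtain ⟨a, ha, o, ho, e1⟩ := hker _ (mul_mem h7 h7) h10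
      rwa [← (Commute.refl k).mul_pow, e1, Commute.mul_pow (hAO a ha o ho).symm, hAn a ha, hOn o ho,
        mul_one]
    · rw [hn', pow_succ, pow_mul, θm _ (pow_mem (pow_mem h7 _) _) _ h7, h8, pow_two,
        (θ0 _ (pow_mem (mul_mem h7 h7) _)).2
          (Commute.pow_left ((θ0 _ (mul_mem h7 h7)).1 h10) n).eq, zero_add]
  have htA : t ∈ A := mA.2 ⟨0, Or.inr (by rw [vE_zero, mul_one])⟩
  have hvA : ∀ φ : Ep e, vE r e φ ∈ A := fun φ => mA.2 ⟨φ, Or.inl rfl⟩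
  have hss : ∀ b ∈ B, ∀ b' ∈ B, θ b = θ b' → s b' = s b ∨ s b' = s b + θ b := fun b hb b' hb' e1 => by
    obtain ⟨φ, e2 | e2⟩ := mA.1 (hBk _ (mul_mem (inv_mem hb) hb') (by
      rw [θm _ (inv_mem hb.1) _ hb'.1, θi b hb.1, e1, Ep_add_self]))
    · refine Or.inl (hinj ?_)
      rw [← hs b hb, ← hs b' hb', eq_mul_of_inv_mul_eq e2, mul_assoc, ← mul_assoc (vE r e φ),
        ← hb.1.1, mul_assoc b, vE_sq, mul_one]
    · refine Or.inr (hinj ?_)
      rw [vE_add, ← hs b hb, ← hs b' hb', eq_mul_of_inv_mul_eq e2, ← θi b hb.1]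
      have h1 := hθ _ (inv_mem hb.1)
      have h2 : t * vE r e φ * b = b * (t * vE r e (θ b⁻¹)) * vE r e φ := by
        rw [← h1, mul_assoc t, ← hb.1.1]; group
      rw [mul_assoc b, ← mul_assoc _ b, h2, h.t_vE φ, h.t_vE (θ b⁻¹)]
      calc _ = b * b * vE r e (θ b⁻¹) * (t * (vE r e φ * vE r e φ) * t) := by group
        _ = _ := by rw [vE_sq, mul_one, h.tt, mul_one]
  obtain ⟨u₀, hu₀, -⟩ := h.big_E he (0 : Ep e) 0
  obtain ⟨b₀, hb₀, rfl⟩ := hsur u₀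
  obtain ⟨l₀, hl₀⟩ : ∃ l₀ : F, s b₀ = l₀ • θ b₀ := by
    by_contra hc
    push Not at hc
    obtain ⟨z, h1, h2⟩ := exists_dot1 (e := (θ b₀).1) (u := (s b₀).1)
      fun c e1 => hc c (Subtype.ext e1)
    have h1' : fE e z (s b₀) = 1 := (dotProduct_comm _ _).trans h1
    have h2' : fE e z (θ b₀) = 0 := (dotProduct_comm _ _).trans h2
    obtain ⟨φ, h3, h4, h5⟩ := h.exists_phi hu₀ h2'
    obtain ⟨h6, h7⟩ := cjB _ _ (conj_tv_vE h3) _ hb₀
    have h8 := (cjC _ _ (conj_tv_vE h3) _ hb₀.1).2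
    rw [h2', zero_smul, add_zero] at h8
    rw [h1', one_smul] at h7
    rcases hss _ hb₀ _ h6 h8.symm with e1 | e1 <;> rw [h7] at e1
    · exact h4 (add_eq_left.1 e1)
    · exact h5 (add_left_cancel e1)
  have la : La B (vE r e) t θ s l₀ :=
    { vadd := vE_add
      vinj := hinj
      vB := fun φ => hAB (hvA φ)
      tB := hAB htA
      vc := fun b hb => hb.1.1
      tt := h.tt
      hθ := fun b hb => hθ b hb.1
      ker := fun b hb h0 => mA.1 (hBk b hb h0)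
      hs := hs
      hl := fun b hb h0 => by
        obtain ⟨x, L, h1, h2⟩ := h.trans_E he hu₀ h0
        obtain ⟨h3, h4⟩ := cjB _ _ h2 _ hb₀
        have h5 := (cjC _ _ h2 _ hb₀.1).2
        rw [hl₀, map_smul, h1] at h4
        rw [h1] at h5
        have := hss _ h3 _ hb h5
        rw [h4, h5] at this
        rwa [add_smul, one_smul]
      sur := hsur
      big := h.big_E he }
  obtain ⟨l, la, hcom⟩ := la.main
  let W : Subgroup G :=
    { carrier := {b | b ∈ B ∧ LP (vE r e) θ s l b}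
      one_mem' := ⟨one_mem _, la.v0 ▸ la.lp_v 0⟩
      mul_mem' := fun {a b} ha hb =>
        ⟨mul_mem ha.1 hb.1, la.lp_mul ha.1 hb.1 ha.2 hb.2 (hcom _ ha.1 _ hb.1 ha.2 hb.2)⟩
      inv_mem' := fun {a} ha => ⟨inv_mem ha.1, la.lp_inv ha.1 ha.2⟩ }
  have hth : ∀ g ∈ C, g * t * g⁻¹ * t = vE r e (θ g) := fun g hg => by
    rw [hθ g hg, h.t_vE, mul_assoc, h.tt, mul_one]
  refine ⟨W, l, fun a ha b hb => hcom _ hb.1 _ ha.1 hb.2 ha.2, fun v hv => ?_, fun u φ hφ => ?_,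
    fun w hw => hth w hw.1.1 ▸ vE_mem _, fun v hv => ?_, fun w hw h1 => ?_, fun w hw φ hφ h1 => ?_,
    fun g hg => ?_⟩
  · obtain ⟨φ, rfl⟩ := mem_vE.1 hv
    exact ⟨la.vB φ, la.lp_v φ⟩
  · by_cases h0 : φ ⬝ᵥ u = 0
    · refine mem_normalizer_fintype fun w hw => ?_
      have hL := conj_tv_vE (r := r) (u := u) (φ := ⟨φ, hφ⟩) h0
      obtain ⟨h1, h2⟩ := cjB _ _ hL w hw.1
      have h3 := (cjC _ _ hL w hw.1.1).2
      refine ⟨h1, by rw [h2, h3, hw.2.1, map_smul, smul_add, smul_smul, smul_eq_mul], fun h4 => ?_⟩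
      have h5 := (θ0 _ h1.1).1 h4
      obtain ⟨χ, e1⟩ := hw.2.2 ((θ0 _ hw.1.1).2 (by
        have h6 := h.tc (tv u φ)
        generalize r (tv u φ) = x at h5 h6
        calc w * t = x⁻¹ * (x * w * x⁻¹) * (x * t) := by group
          _ = x⁻¹ * (x * w * x⁻¹ * t) * x := by rw [← h6]; group
          _ = x⁻¹ * (t * x) * w := by rw [h5]; group
          _ = _ := by rw [h6]; group))
      exact ⟨_, by rw [e1]; exact hL χ⟩
    · rw [tv_of_ne h0, map_one]; exact one_mem _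
  · obtain ⟨φ, rfl⟩ := mem_vE.1 hv
    obtain ⟨b, hb, p, e1⟩ := la.exists_lp φ
    exact ⟨b, ⟨hb, p⟩, by rw [hth b hb.1, e1]⟩
  · obtain ⟨φ, rfl⟩ := hw.2.2 ((θ0 w hw.1.1).2 h1)
    exact vE_mem φ
  · rw [hth w hw.1.1] at h1
    rw [hs w hw.1, hw.2.1, (hinj h1 : θ w = ⟨φ, hφ⟩)]
    rfl
  · obtain ⟨h1, h2, h3, -⟩ := hg
    obtain ⟨ψ, hψ⟩ := mem_vE.1 h3
    have h4 : g ∈ C := ⟨fun φ => h2 _ (vE_mem φ), ψ, by
      rw [h.t_vE, hψ, inv_eq_of_mul_eq_one_left h1, mul_assoc (g * t * g) t, h.tt, mul_one]⟩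
    obtain ⟨b, hb, e1⟩ := hsur (θ g)
    obtain ⟨a, ha, o, ho, e2⟩ := hker _ (mul_mem (inv_mem hb.1) h4) (by
      rw [θm _ (inv_mem hb.1) _ h4, θi b hb.1, e1, Ep_add_self])
    have h5 : g = b * a * o := by rw [mul_assoc, ← e2]; group
    have h6 : b * a ∈ B := mul_mem hb (hAB ha)
    rw [hodd _ h6.2.1 o ho h6.2.2 (by rw [← h5, h1]; exact one_mem _), mul_one] at h5
    have h7 : g ∈ B := h5 ▸ h6
    exact (la.lp_or h7).imp (fun p => ⟨h7, p⟩) fun p => ⟨mul_mem h7 la.tB, p⟩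

end Cfsg.Agent.StdL
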