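import Cfsg.Agent.StdL.TrlB

/-! Additive model for `DblB`: an extension `M` of `E = e^⊥` by `E`, acted on by the transvections. -/

set_option autoImplicit false
set_option linter.unusedSectionVars false

namespace Cfsg.Agent.StdL

open Matrix Cfsg.Agent.LnT

variable {F ι : Type*} [Field F] [Fintype ι] [DecidableEq ι] [CharP F 2]

theorem sum_trick [Finite F] (hq : 2 < Nat.card F) {l : F} (A Γ : F → F → F)
    (hA : ∀ s c c', A s (c + c') = A s c + A s c') (hΓ : ∀ s c c', Γ s (c + c') = Γ s c + Γ s c')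
    (h : ∀ c d, A (c * d) c + c * Γ d c = l * d * c) : l = 0 := by
  classical
  haveI := Fintype.ofFinite F
  have h0 : ∑ c : Fˣ, (c : F) = 0 := by
    have := FiniteField.sum_pow_units F 1
    simp only [pow_one] at this
    rw [this, if_neg]
    rw [Nat.card_eq_fintype_card] at hq
    intro h
    have := Nat.le_of_dvd one_pos h
    omega
  have h1 : ∀ g : F → F, (∀ c c', g (c + c') = g c + g c') → ∑ c : Fˣ, g c = 0 := fun g hg => by
    have := map_sum (AddMonoidHom.mk' g hg) (fun c : Fˣ => (c : F)) Finset.univ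
    rw [h0, map_zero] at this
    exact this.symm
  have h2 : ∑ c : Fˣ, ∑ d : Fˣ, (A (c * d : Fˣ) c * ((c * d : Fˣ) : F)⁻¹ + Γ d c * (d : F)⁻¹) =
      ∑ _c : Fˣ, ∑ _d : Fˣ, l := by
    refine Finset.sum_congr rfl fun c _ => Finset.sum_congr rfl fun d _ => ?_
    have := h c d
    rw [Units.val_mul]
    field_simp
    linear_combination this
  simp only [Finset.sum_add_distrib] at h2
  have h3 : ∀ c : Fˣ, ∑ d : Fˣ, A (c * d : Fˣ) c * ((c * d : Fˣ) : F)⁻¹ =
      ∑ s : Fˣ, A s c * (s : F)⁻¹ := fun c =>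
    Equiv.sum_comp (Equiv.mulLeft c) fun s : Fˣ => A s c * (s : F)⁻¹
  rw [Finset.sum_congr rfl fun (c : Fˣ) _ => h3 c, Finset.sum_comm,
    Finset.sum_comm (f := fun (c d : Fˣ) => Γ d c * (d : F)⁻¹)] at h2
  simp only [← Finset.sum_mul] at h2
  rw [Finset.sum_eq_zero fun (s : Fˣ) _ => by rw [h1 _ (hA s), zero_mul],
    Finset.sum_eq_zero fun (s : Fˣ) _ => by rw [h1 _ (hΓ s), zero_mul], add_zero,
    Finset.sum_const, Finset.sum_const, Finset.card_univ, Fintype.card_units, nsmul_eq_mul,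
    nsmul_eq_mul, Nat.cast_sub Fintype.card_pos, FiniteField.cast_card_eq_zero] at h2
  simpa using h2.symm

/-- the additive model -/
structure Mo (e : ι → F) (l : F) (M : Type*) [AddCommGroup M] where
  v : Ep e →+ M
  θ : M →+ Ep e
  x : (ι → F) → Ep e → M →+ M
  inj : Function.Injective v
  θv : ∀ φ, θ (v φ) = 0
  ker : ∀ w, θ w = 0 → ∃ φ, v φ = w
  sur : Function.Surjective θ
  two : ∀ w, w + w = v (l • θ w)
  xv : ∀ y a, fE e y a = 0 → ∀ ψ, x y a (v ψ) = v (ψ + fE e y ψ • a)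
  θx : ∀ y a, fE e y a = 0 → ∀ w, θ (x y a w) = θ w + fE e y (θ w) • a
  add : ∀ y a b, fE e y a = 0 → fE e y b = 0 → ∀ w, x y (a + b) w = x y a (x y b w)
  zero : ∀ y w, x y 0 w = w
  conj : ∀ y a z b, fE e y a = 0 → fE e z b = 0 → ∀ w,
    x y a (x z b w) = x (z + fE e z a • y) (b + fE e y b • a) (x y a w)

namespace Mo

variable {e : ι → F} {l : F} {M : Type*} [AddCommGroup M] (m : Mo e l M)

/-- `x - 1` -/
def X (y : ι → F) (a : Ep e) : M →+ M := m.x y a - AddMonoidHom.id M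

theorem X_apply (y : ι → F) (a : Ep e) (w : M) : m.X y a w = m.x y a w - w := rfl

theorem x_eq (y : ι → F) (a : Ep e) (w : M) : m.x y a w = w + m.X y a w := by
  rw [X_apply, add_sub_cancel]

variable {y : ι → F} {a b : Ep e}

theorem Xv (h : fE e y a = 0) (ψ : Ep e) : m.X y a (m.v ψ) = m.v (fE e y ψ • a) := by
  rw [X_apply, m.xv y a h, map_add, add_sub_cancel_left]

theorem θX (h : fE e y a = 0) (w : M) : m.θ (m.X y a w) = fE e y (m.θ w) • a := by
  rw [X_apply, map_sub, m.θx y a h, add_sub_cancel_left]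

theorem Xadd (h : fE e y a = 0) (h' : fE e y b = 0) (w : M) :
    m.X y (a + b) w = m.X y a w + m.X y b w + m.X y a (m.X y b w) := by
  simp only [X_apply, map_sub, m.add y a b h h']
  abel

theorem X0 (w : M) : m.X y 0 w = 0 := by rw [X_apply, m.zero, sub_self]

theorem XX (h : fE e y a = 0) (w : M) : m.X y a (m.X y a w) = m.v ((l * fE e y (m.θ w)) • a) := by
  have h1 := m.Xadd h h w
  rw [Ep_add_self, X0, m.two, m.θX h, smul_smul] at h1
  rw [eq_neg_of_add_eq_zero_right h1.symm, neg_eq_iff_add_eq_zero, ← map_add, Ep_add_self, map_zero]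

theorem Xcomm {z : ι → F} (h : fE e y a = 0) (h' : fE e z b = 0) (h1 : fE e z a = 0)
    (h2 : fE e y b = 0) (w : M) : m.X y a (m.x z b w) = m.x z b (m.X y a w) := by
  have := m.conj y a z b h h' w
  rw [h1, h2, zero_smul, zero_smul, add_zero, add_zero] at this
  rw [X_apply, X_apply, map_sub, this]

theorem eq_add {w w' : M} (h : m.θ w = m.θ w') : ∃ φ, w = w' + m.v φ := by
  obtain ⟨φ, hφ⟩ := m.ker (w - w') (by rw [map_sub, h, sub_self])
  exact ⟨φ, by rw [hφ, add_sub_cancel]⟩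

theorem X_line (h : fE e y a = 0) (hs : ∃ ψ, fE e y ψ = 1) {w : M} {s : F} (hw : m.θ w = s • a) :
    ∃ c : F, m.X y a w = m.v (c • a) := by
  obtain ⟨ψ, hψ⟩ := hs
  obtain ⟨w', hw'⟩ := m.sur (s • ψ)
  obtain ⟨φ, rfl⟩ := m.eq_add (w := w) (w' := m.X y a w')
    (by rw [hw, m.θX h, hw', map_smul, hψ, smul_eq_mul, mul_one])
  exact ⟨_, by rw [map_add, m.XX h, m.Xv h, ← map_add, ← add_smul]⟩

include m in
theorem big [Finite F] (hq : 2 < Nat.card F) (h : fE e y a = 0) (hs : ∃ ψ, fE e y ψ = 1)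
    (ha : a ≠ 0) : l = 0 := by
  classical
  have hc : ∀ c : F, fE e y (c • a) = 0 := fun c => by rw [map_smul, h, smul_zero]
  have ex : ∀ (c : F) (w : M), ∃ μ : F, (∃ s : F, m.θ w = s • a) → m.X y (c • a) w = m.v (μ • a) := by
    intro c w
    by_cases hw : ∃ s : F, m.θ w = s • a
    · obtain ⟨s, hw⟩ := hw
      by_cases h0 : c = 0
      · exact ⟨0, fun _ => by rw [h0, zero_smul, X0, map_zero]⟩
      · obtain ⟨d, hd⟩ := m.X_line (hc c) hs (w := w) (s := s * c⁻¹)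
          (by rw [hw, smul_smul, inv_mul_cancel_right₀ h0])
        exact ⟨d * c, fun _ => by rw [hd, smul_smul]⟩
    · exact ⟨0, fun h => absurd h hw⟩
  choose μ hμ using ex
  have uq : ∀ c d : F, m.v (c • a) = m.v (d • a) → c = d := fun c d e1 =>
    smul_left_injective F ha (m.inj e1)
  have μv : ∀ (c : F) (w : M) (φ : Ep e), (∃ s : F, m.θ w = s • a) →
      μ c (w + m.v φ) = μ c w + fE e y φ * c := fun c w φ hw => uq _ _ (by
    rw [← hμ c _ (by rwa [map_add, m.θv, add_zero]), map_add, hμ c w hw, m.Xv (hc c), ← map_add,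
      smul_smul, add_smul])
  have μw : ∀ (c : F) (w w' : M), (∃ s : F, m.θ w = s • a) → (∃ s : F, m.θ w' = s • a) →
      μ c (w + w') = μ c w + μ c w' := fun c w w' ⟨s, h1⟩ ⟨s', h2⟩ => uq _ _ (by
    rw [← hμ c _ ⟨s + s', by rw [map_add, h1, h2, add_smul]⟩, map_add, hμ c w ⟨s, h1⟩,
      hμ c w' ⟨s', h2⟩, ← map_add, add_smul])
  have μc : ∀ (c c' : F) (w : M), (∃ s : F, m.θ w = s • a) → μ (c + c') w = μ c w + μ c' w :=
    fun c c' w hw => uq _ _ (by
      rw [← hμ _ _ hw, add_smul, m.Xadd (hc c) (hc c'), hμ c w hw, hμ c' w hw, m.Xv (hc c), hc,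
        zero_smul, map_zero, add_zero, ← map_add, add_smul])
  choose ws hws using fun s : F => m.sur (s • a)
  obtain ⟨ψ, hψ⟩ := hs
  choose wd hwd using fun d : F => m.sur (d • ψ)
  have hX : ∀ (c : F) (w : M), m.θ (m.X y (c • a) w) = (c * fE e y (m.θ w)) • a := fun c w => by
    rw [m.θX (hc c), smul_smul, mul_comm]
  have hd : ∀ d, fE e y (m.θ (wd d)) = d := fun d => by
    rw [hwd, map_smul, hψ, smul_eq_mul, mul_one]
  refine sum_trick hq (fun s c => μ c (ws s) + c * μ 1 (ws s))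
    (fun d c => μ 1 (m.X y (c • a) (wd d))) (fun s c c' => ?_) (fun d c c' => ?_) fun c d => ?_
  · rw [μc _ _ _ ⟨s, hws s⟩]; ring
  · rw [add_smul, m.Xadd (hc c) (hc c'), hμ c _ ⟨_, hX c' _⟩,
      μv _ _ _ ⟨_, by rw [map_add, hX, hX, ← add_smul]⟩, hc, zero_mul, add_zero,
      μw _ _ _ ⟨_, hX _ _⟩ ⟨_, hX _ _⟩]
  · obtain ⟨φ, e1⟩ := m.eq_add (w := m.X y (c • a) (wd d)) (w' := ws (c * d)) (by rw [hX, hd, hws])
    have h1 : μ c (m.X y (c • a) (wd d)) = l * d * c := uq _ _ (by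
      rw [← hμ c _ ⟨_, hX c _⟩, m.XX (hc c), hd, smul_smul])
    rw [← h1, e1, μv _ _ _ ⟨_, hws _⟩, μv _ _ _ ⟨_, hws _⟩]
    linear_combination (c * μ 1 (ws (c * d))) * (CharTwo.two_eq_zero (R := F))

theorem exists_fE2 {u a η : Ep e} (h : ∀ c d : F, η ≠ c • u + d • a) :
    ∃ z, fE e z η = 1 ∧ fE e z u = 0 ∧ fE e z a = 0 := by
  obtain ⟨z, h1, h2, h3⟩ := exists_dot2 (e := u.1) (f := a.1) (u := η.1)
    fun c d e1 => h c d (Subtype.ext e1)
  exact ⟨z, (dotProduct_comm _ _).trans h1, (dotProduct_comm _ _).trans h2,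
    (dotProduct_comm _ _).trans h3⟩

theorem exists_E2 (hn : 5 ≤ Fintype.card ι) (y : ι → F) (u a : Ep e) :
    ∃ b : Ep e, fE e y b = 0 ∧ ∀ c d : F, b ≠ c • u + d • a := by
  obtain ⟨b, h1, h2, h3⟩ := exists_22 hn e y u.1 a.1
  exact ⟨⟨b, (dotProduct_comm _ _).trans h1⟩, (dotProduct_comm _ _).trans h2,
    fun c d e1 => h3 c d (congrArg Subtype.val e1)⟩

theorem step1 (h : fE e y a = 0) {w : M} (hw : fE e y (m.θ w) = 0) (hu : ∀ c : F, m.θ w ≠ c • a) :
    ∃ c d : F, m.X y a w = m.v (c • m.θ w + d • a) := by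
  obtain ⟨η, hη⟩ := m.ker (m.X y a w) (by rw [m.θX h, hw, zero_smul])
  by_contra hc
  push Not at hc
  obtain ⟨z, h1, h2, h3⟩ := exists_fE2 (η := η) (u := m.θ w) (a := a)
    fun c d e1 => hc c d (by rw [← hη, e1])
  obtain ⟨φ, e1⟩ := m.eq_add (w := m.x z (m.θ w) w) (w' := w)
    (by rw [m.θx _ _ h2, h2, zero_smul, add_zero])
  have h4 := m.Xcomm h h2 h3 hw w
  rw [e1, map_add, ← hη, m.Xv h, m.xv _ _ h2, h1, one_smul, ← map_add] at h4
  exact hu _ (add_left_cancel (m.inj h4)).symm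

theorem step2 (hn : 5 ≤ Fintype.card ι) (h : fE e y a = 0) (hs : ∃ ψ, fE e y ψ = 1) {w : M}
    (hw : fE e y (m.θ w) = 0) : ∃ c : F, m.X y a w = m.v (c • a) := by
  by_cases hu : ∃ c : F, m.θ w = c • a
  · obtain ⟨c, hc⟩ := hu
    exact m.X_line h hs hc
  push Not at hu
  obtain ⟨b, hb, hb'⟩ := exists_E2 hn y (m.θ w) a
  obtain ⟨z, h1, h2, h3⟩ := exists_fE2 hb'
  obtain ⟨c, d, e1⟩ := m.step1 h3 h2 hu
  obtain ⟨c', d', e2⟩ := m.step1 hb hw fun c e1 => by
    by_cases h0 : c = 0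
    · exact hu 0 (by rw [e1, h0, zero_smul, zero_smul])
    · exact hb' c⁻¹ 0 (by rw [e1, smul_smul, inv_mul_cancel₀ h0, one_smul, zero_smul, add_zero])
  have h4 := m.conj z a y b h3 hb w
  rw [h, h1, zero_smul, add_zero, one_smul, add_comm b a, m.add y a b h hb, m.x_eq y b w,
    m.x_eq z a w, e1, e2, map_add, map_add (m.x y b), m.x_eq y b w, m.x_eq z a w, e1, e2,
    m.xv _ _ h3, m.xv _ _ hb, map_add (m.x y a), map_add (m.x y a), m.xv _ _ h, m.xv _ _ h,
    m.x_eq y a w] at h4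
  simp only [map_add, map_smul, h, hw, hb, h1, h2, smul_eq_mul, mul_zero, mul_one, add_zero,
    zero_add, zero_smul, map_zero] at h4
  refine ⟨d', ?_⟩
  have h5 : ∀ p q r s X D : M, w + (p + q) + (r + s + D) = w + X + (r + s) + (p + q) → X = D :=
    fun p q r s X D e => by
      rw [← sub_eq_zero] at e ⊢
      rw [← neg_eq_zero, ← e]; abel
  exact h5 _ _ _ _ _ _ h4

include m in
theorem small (hn : 5 ≤ Fintype.card ι) (hs : ∃ ψ, fE e y ψ = 1) : l = 0 := by
  obtain ⟨a, ha, ha'⟩ := exists_E2 (e := e) hn y 0 0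
  obtain ⟨b, hb, hb'⟩ := exists_E2 hn y a a
  have ha0 : a ≠ 0 := fun e1 => ha' 0 0 (by simp [e1])
  obtain ⟨ψ, hψ⟩ := id hs
  obtain ⟨w, hw⟩ := m.sur ψ
  have key : ∀ b : Ep e, fE e y b = 0 → (∀ c : F, b ≠ c • a) → m.X y a (m.X y b w) = 0 := by
    intro b hb hb'
    obtain ⟨c, hc⟩ := m.step2 hn ha hs (w := m.X y b w) (by rw [m.θX hb, map_smul, hb, smul_zero])
    obtain ⟨d, hd⟩ := m.step2 hn hb hs (w := m.X y a w) (by rw [m.θX ha, map_smul, ha, smul_zero])
    have h1 : m.X y a (m.X y b w) = m.X y b (m.X y a w) := by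
      rw [m.X_apply y b w, map_sub, m.Xcomm ha hb ha hb, ← X_apply]
    by_cases h0 : d = 0
    · rw [h1, hd, h0, zero_smul, map_zero]
    · exact absurd (by rw [mul_smul, m.inj (hc.symm.trans (h1.trans hd)), inv_smul_smul₀ h0])
        (hb' (d⁻¹ * c))
  have h1 := key b hb fun c e1 => hb' c 0 (by rw [e1, zero_smul, add_zero])
  have h2 := key (a + b) (by rw [map_add, ha, hb, add_zero]) fun c e1 => hb' c (-1) (by
    rw [← e1, neg_one_smul F a]; abel)
  rw [m.Xadd ha hb, h1, add_zero, map_add, h1, add_zero, m.XX ha, hw, hψ, mul_one,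
    ← map_zero m.v] at h2
  exact (smul_eq_zero.1 (m.inj h2)).resolve_right ha0

end Mo

end Cfsg.Agent.StdL
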