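import Cfsg.Agent.StdL.DblA
import Cfsg.Agent.StdL.DblM

/-! `W` is not homocyclic. Additive notation, `V = e^⊥`, `2 w = l θ w`. For `a ∈ V`, `y` a vector,
`a y = 0`: `x = r (tv y a)` acts on `V` by `ψ ↦ ψ + f(ψ) a`, `f ψ = ψ ⬝ᵥ y`; `X w = x w x⁻¹ w⁻¹` is an
endomorphism of `W`, `θ (X w) = f(θ w) a`, `X² = 2 X`, `X_{xx'} = X + X' + X X'`.
`two` (`q = 2`, `dim V ≥ 4`, suppose `l = 1`): for `f(θ w) = 1`, `y₀ = X w` has `θ y₀ = a`, `X y₀ = a`. On
`f(θ w) = 0`: `X w ∈ V ∩ ker f`, defined mod `a` by `u = θ w`: `η u`. Commuting transvections `x_{u,g}`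
(`g a = g u = 0`, `g (η u) = 1`) force `η u ∈ {0, u}` mod `a`; additivity: `η = κ_{a,f} id`;
`κ_{a,f+g} = κ_{a,f} + κ_{a,g}` and all `κ` are equal by conjugation, so `κ = 0`. Then `X W = ⟨y₀⟩` is cyclic
of order `4` and depends on `a` only (`Y a`); same axis: `y_{a+b} ∈ y_a + y_b + ⟨a, b⟩`. `x_{a,f}` normalises
`Y b`, so centralises `y_b` for `f b = 0`, `b ∉ ⟨a⟩`; hence centralises `y_a`: false.
`big` (`q > 2`): fix `a, f`, `X c` for `x = r (tv y (c • a))`; `W_a = θ⁻¹(F a)`, `V₀ = V ∩ ker f ≥ 2 W_a`.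
`W_a = X_c W + V` and `X_c W_a ≤ F a`. Extend `f : V → F` to an additive `ρ : W_a → F` (`W_a / V₀` is an
`F₂`-space). For `w ∈ W_a`, `θ w = s a`: `X_c w = (A c s + c ρ w) a`, `A` additive in `c`. Choose `w_d` with
`f(θ w_d) = d`, `Γ c d = ρ (X_c w_d)` is additive in `c`. `X_c X_c = 2 X_c` gives
`A c (c d) + c Γ c d = l c d`. Multiply by `(c d)⁻¹`, sum over `c, d ≠ 0` (`Σ_c c = 0`): `0 = l`. -/

set_option autoImplicit false

namespace Cfsg.Agent.StdL

open Matrix Subgroup Cfsg.Agent.LnT Cfsg.Agent.PLocal.Amb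
open scoped commutatorElement

variable {F ι G : Type*} [Field F] [Fintype ι] [DecidableEq ι] [Group G] [CharP F 2] [Finite F]
  [Finite G] {r : SpecialLinearGroup ι F →* G} {t : G}

theorem Ab.exists_mo (h : Su r t) {e : ι → F} (he : e ≠ 0) {W : Subgroup G} {l : F}
    (a : Ab r t e W l) : letI : CommGroup W := { (inferInstance : Group W) with
      mul_comm := fun x y => Subtype.ext (a.com _ x.2 _ y.2) }
    Nonempty (Mo e l (Additive W)) := by
  letI : CommGroup W := { (inferInstance : Group W) with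
      mul_comm := fun x y => Subtype.ext (a.com _ x.2 _ y.2) }
  have hinj := h.vE_inj he
  choose θ hθ using fun w : W => mem_vE.1 (a.th w w.2)
  have hn : ∀ (y : ι → F) (b : Ep e) (w : W), r (tv y b.1) * w * (r (tv y b.1))⁻¹ ∈ W :=
    fun y b w => (mem_normalizer_iff.1 (a.nrm y b.1 b.2) w).1 w.2
  have ext : ∀ w w' : Additive W, ((w.toMul : W) : G) = (w'.toMul : W) → w = w' :=
    fun w w' e1 => Additive.toMul.injective (Subtype.ext e1)
  refine ⟨{
    v := AddMonoidHom.mk' (fun φ => Additive.ofMul ⟨vE r e φ, a.le (vE_mem φ)⟩)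
      fun φ ψ => ext _ _ (vE_add φ ψ)
    θ := AddMonoidHom.mk' (fun w => θ w.toMul) fun w w' => hinj ?_
    x := fun y b => AddMonoidHom.mk' (fun w => Additive.ofMul ⟨_, hn y b w.toMul⟩)
      fun w w' => ext _ _ conj_mul.symm
    inj := fun φ ψ e1 => hinj (congrArg (fun w : Additive W => ((w.toMul : W) : G)) e1)
    θv := fun φ => hinj ?_
    ker := fun w hw => ?_
    sur := fun φ => ?_
    two := fun w => ext _ _ (a.sq _ w.toMul.2 _ (θ w.toMul).2 (hθ _).symm)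
    xv := fun y b hb ψ => ext _ _ (conj_tv_vE hb ψ)
    θx := fun y b hb w => hinj ?_
    add := fun y b c hb hc w => ext _ _ ?_
    zero := fun y w => ext _ _ ?_
    conj := fun y b z c hb hc w => ext _ _ ?_ }⟩
  · rw [vE_add, hθ, hθ, hθ, a.com _ (a.le (a.th _ w.toMul.2)) _ (a.le (a.th _ w'.toMul.2)),
      toMul_add, coe_mul]
    have h1 := a.com _ w.toMul.2 _ (a.le (a.th _ w'.toMul.2))
    calc _ = ((w.toMul : G) * ((w'.toMul : G) * t * (w'.toMul : G)⁻¹ * t)) * t⁻¹ *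
          (w.toMul : G)⁻¹ * t := by group
      _ = _ := by rw [h1, h.t_inv]; group
  · show vE r e (θ _) = _
    rw [hθ, vE_zero]
    show vE r e φ * t * (vE r e φ)⁻¹ * t = 1
    rw [← h.t_vE, mul_inv_cancel_right, h.tt]
  · have h1 := hθ w.toMul
    rw [show θ w.toMul = 0 from hw, vE_zero] at h1
    obtain ⟨φ, hφ⟩ := mem_vE.1 (a.ker _ w.toMul.2 (by
      rw [← mul_inv_eq_iff_eq_mul, eq_inv_of_mul_eq_one_left h1.symm, h.t_inv]))
    exact ⟨φ, ext _ _ hφ⟩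
  · obtain ⟨w, hw, e1⟩ := a.sur _ (vE_mem φ)
    exact ⟨Additive.ofMul ⟨w, hw⟩, hinj ((hθ _).trans e1)⟩
  · show vE r e (θ _) = vE r e (θ w.toMul + fE e y (θ w.toMul) • b)
    rw [← conj_tv_vE hb, hθ, hθ]
    show r (tv y b.1) * w.toMul * (r (tv y b.1))⁻¹ * t * (r (tv y b.1) * w.toMul *
      (r (tv y b.1))⁻¹)⁻¹ * t = _
    have h1 : (r (tv y b.1))⁻¹ * t * r (tv y b.1) = t := by rw [mul_assoc, h.tc, inv_mul_cancel_left]
    calc _ = r (tv y b.1) * (w.toMul * ((r (tv y b.1))⁻¹ * t * r (tv y b.1)) * (w.toMul : G)⁻¹ *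
          ((r (tv y b.1))⁻¹ * t * r (tv y b.1))) * (r (tv y b.1))⁻¹ := by group
      _ = _ := by rw [h1]
  · show r (tv y (b.1 + c.1)) * w.toMul * (r (tv y (b.1 + c.1)))⁻¹ =
      r (tv y b.1) * (r (tv y c.1) * w.toMul * (r (tv y c.1))⁻¹) * (r (tv y b.1))⁻¹
    rw [tv_add hb hc, map_mul]; group
  · show r (tv y 0) * w.toMul * (r (tv y 0))⁻¹ = _
    rw [tv_zero, map_one]; group
  · have h1 := tv_conj (tv y b.1) z c.1
    rw [tv_inv, tv_mulVec hb, vecMul_tv hb] at h1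
    show r (tv y b.1) * (r (tv z c.1) * w.toMul * (r (tv z c.1))⁻¹) * (r (tv y b.1))⁻¹ =
      r (tv (z + (b.1 ⬝ᵥ z) • y) (c.1 + (c.1 ⬝ᵥ y) • b.1)) * (r (tv y b.1) * w.toMul * (r (tv y b.1))⁻¹) *
        (r (tv (z + (b.1 ⬝ᵥ z) • y) (c.1 + (c.1 ⬝ᵥ y) • b.1)))⁻¹
    have h2 : r (tv y b.1) * r (tv y b.1) = 1 := by rw [← map_mul, tv_sq, map_one]
    rw [← h1, map_mul, map_mul, mul_assoc _ (r (tv y b.1)), ← mul_assoc (r (tv y b.1)) (r (tv y b.1) * _),
      ← mul_assoc (r (tv y b.1)) (r (tv y b.1)), h2, ← inv_eq_of_mul_eq_one_left h2]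
    rw [inv_eq_of_mul_eq_one_left h2]
    simp only [_root_.mul_inv_rev, inv_eq_of_mul_eq_one_left h2, one_mul, mul_assoc]
    rw [← mul_assoc (r (tv y b.1)) (r (tv y b.1)), h2, one_mul]

theorem Ab.two (h : Su r t) {e : ι → F} (he : e ≠ 0) {W : Subgroup G} {l : F} (a : Ab r t e W l)
    (hq : Nat.card F = 2) : l = 0 := by
  letI : CommGroup W := { (inferInstance : Group W) with
      mul_comm := fun x y => Subtype.ext (a.com _ x.2 _ y.2) }
  obtain ⟨m⟩ := a.exists_mo h he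
  obtain ⟨y, -, hy⟩ := exists_11E h.three 0 e
  exact m.small (h.hq.resolve_left (by omega)) (exists_fE_one hy)

theorem Ab.big (h : Su r t) {e : ι → F} (he : e ≠ 0) {W : Subgroup G} {l : F} (a : Ab r t e W l)
    (hq : 2 < Nat.card F) : l = 0 := by
  letI : CommGroup W := { (inferInstance : Group W) with
      mul_comm := fun x y => Subtype.ext (a.com _ x.2 _ y.2) }
  obtain ⟨m⟩ := a.exists_mo h he
  obtain ⟨y, -, hy⟩ := exists_11E h.three 0 e
  obtain ⟨φ, h1, h2⟩ := exists_20E h.three e y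
  exact m.big hq h1 (exists_fE_one hy) h2

end Cfsg.Agent.StdL
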