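import Cfsg.Agent.LnT.Hm

/-! Definitions for S3127 (standard subgroup `L_m(2^n)`, cyclic Sylow in the centralizer).
`r : SL ι F →* G` has central kernel and image `L`, `t` is the involution of `C(L)`. -/

set_option autoImplicit false

namespace Cfsg.Agent.StdL

open Matrix Subgroup Cfsg.Agent.LnT Cfsg.Agent.PLocal.Amb

variable {F ι G : Type*} [Field F] [Fintype ι] [DecidableEq ι] [Group G]

/-- `T` (vectors) and `S` (covectors) are `σ`-semilinear and contragredient. -/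
structure Semi (σ : F ≃+* F) (T S : (ι → F) ≃+ (ι → F)) : Prop where
  smT : ∀ (a : F) u, T (a • u) = σ a • T u
  smS : ∀ (a : F) φ, S (a • φ) = σ a • S φ
  dot : ∀ φ u, S φ ⬝ᵥ T u = σ (φ ⬝ᵥ u)

/-- `g` acts on the transvections as a collineation. -/
def TyI (r : SpecialLinearGroup ι F →* G) (g : G) (T S : (ι → F) ≃+ (ι → F)) : Prop :=
  ∀ u φ, φ ⬝ᵥ u = 0 → g * r (tv u φ) * g⁻¹ = r (tv (T u) (S φ))

/-- `g` acts on the transvections as a correlation. -/
def TyII (r : SpecialLinearGroup ι F →* G) (g : G) (T S : (ι → F) ≃+ (ι → F)) : Prop :=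
  ∀ u φ, φ ⬝ᵥ u = 0 → g * r (tv u φ) * g⁻¹ = r (tv (S φ) (T u))

/-- type I with field automorphism `σ` -/
def AcI (r : SpecialLinearGroup ι F →* G) (g : G) (σ : F ≃+* F) : Prop :=
  ∃ T S, Semi σ T S ∧ TyI r g T S

/-- type II with field automorphism `σ` -/
def AcII (r : SpecialLinearGroup ι F →* G) (g : G) (σ : F ≃+* F) : Prop :=
  ∃ T S, Semi σ T S ∧ TyII r g T S

/-- `O²(H)`: generated by the elements of odd order. -/
def Od (H : Subgroup G) : Subgroup G := closure {x | x ∈ H ∧ Odd (orderOf x)}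

/-- elementary abelian `2`-subgroup -/
def El (A : Subgroup G) : Prop := ∀ a ∈ A, a * a = 1

/-- `C(t) ∩ C(L)` -/
def K0 (r : SpecialLinearGroup ι F →* G) (t : G) : Subgroup G := centralizer {t} ⊓ 𝐂[r.range]

/-- the dual parametrisation -/
def du (r : SpecialLinearGroup ι F →* G) : SpecialLinearGroup ι F →* G :=
  r.comp (tr : SpecialLinearGroup ι F ≃* _).toMonoidHom

/-- the conjugate parametrisation -/
def cjh {M : Type*} [Group M] (g : G) (r : M →* G) : M →* G :=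
  (MulAut.conj g).toMonoidHom.comp r

/-- transvections with centre `e`; those with axis `ε` are `Vg (du r) ε` -/
def Vg (r : SpecialLinearGroup ι F →* G) (e : ι → F) : Subgroup G := (Vs e).map r

/-- central kernel, large dimension -/
structure Rp (r : SpecialLinearGroup ι F →* G) : Prop where
  three : 3 ≤ Fintype.card ι
  hq : 2 < Nat.card F ∨ 5 ≤ Fintype.card ι
  ker : ∀ g, r g = 1 → g ∈ center (SpecialLinearGroup ι F)

/-- the standard set-up -/
structure Su (r : SpecialLinearGroup ι F →* G) (t : G) : Prop extends Rp r where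
  tt : t * t = 1
  t1 : t ≠ 1
  tc : ∀ g, t * r g = r g * t
  nrm : ∀ c, c * t = t * c → c ∈ 𝐍[r.range]
  cyc : ∀ P : Subgroup G, P ≤ K0 r t → IsPGroup 2 P → IsCyclic P

/-- `t` is not a square in `K0`, i.e. `K0 = O × ⟨t⟩` -/
def Nsq (r : SpecialLinearGroup ι F →* G) (t : G) : Prop := ∀ k ∈ K0 r t, k * k ≠ t

/-- some transvection `z` has `z` or `t z` conjugate to `t` -/
def Tz (r : SpecialLinearGroup ι F →* G) (t : G) : Prop :=
  ∃ e ε : ι → F, e ≠ 0 ∧ ε ≠ 0 ∧ ε ⬝ᵥ e = 0 ∧ (IsConj t (r (tv e ε)) ∨ IsConj t (t * r (tv e ε)))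

/-- the normalizer of `⟨t⟩ V` moves `t` -/
def Mv (V : Subgroup G) (t : G) : Prop := ∃ g ∈ 𝐍[V ⊔ zpowers t], g * t * g⁻¹ ≠ t

/-- `C(V)` induces all translations of `t V` -/
def Trl (V : Subgroup G) (t : G) : Prop :=
  ∀ v ∈ V, ∃ g, (∀ x ∈ V, g * x = x * g) ∧ g * t * g⁻¹ = t * v

/-- the elements of the doubled group -/
def Wc (V : Subgroup G) (t : G) : Set G :=
  {g | g * g = 1 ∧ (∀ v ∈ V, g * v = v * g) ∧ g * t * g * t ∈ V ∧ g * t ∉ V}

/-- the doubled group -/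
def Wg (V : Subgroup G) (t : G) : Subgroup G := closure (Wc V t)

/-- `Wc V t` is an elementary abelian group translating `t V` -/
structure Dbl (V : Subgroup G) (t : G) : Prop where
  mem : ∀ g, g ∈ Wg V t ↔ g ∈ Wc V t
  com : ∀ a ∈ Wg V t, ∀ b ∈ Wg V t, a * b = b * a
  sur : ∀ v ∈ V, ∃ w ∈ Wg V t, w * t * w * t = v

/-- set-up after doubling -/
structure Ds (r : SpecialLinearGroup ι F →* G) (t : G) : Prop extends Su r t where
  nsq : Nsq r t
  dbl : ∀ e, e ≠ 0 → Dbl (Vg r e) t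
  dbl' : ∀ ε, ε ≠ 0 → Dbl (Vg (du r) ε) t

/-- set-up after the commutator relations -/
structure Hs (r : SpecialLinearGroup ι F →* G) (t : G) : Prop extends Ds r t where
  cov : ∀ e ε, e ≠ 0 → ε ≠ 0 → ε ⬝ᵥ e = 0 → ∀ c : F,
    ∃ x ∈ Wg (Vg r e) t ⊓ Wg (Vg (du r) ε) t, x * t * x * t = r (tv e (c • ε))
  cmt : ∀ e ε, e ≠ 0 → ε ≠ 0 → ε ⬝ᵥ e = 0 → ∀ a ∈ Wg (Vg r e) t, ∀ b ∈ Wg (Vg (du r) ε) t,
    a * b * a * b ∈ Wg (Vg r e) t ⊓ Wg (Vg (du r) ε) t

/-- field case: `G0 = ρ.range` is an image of `SL ι K`, `|K| = |F|²`, `t` a field automorphism -/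
structure Fld (r : SpecialLinearGroup ι F →* G) (t : G) {K : Type*} [Field K] (τ : K ≃+* K)
    (j : F →+* K) (ρ : SpecialLinearGroup ι K →* G) : Prop extends Su r t where
  nsq : Nsq r t
  card : Nat.card K = Nat.card F ^ 2
  ττ : ∀ a, τ (τ a) = a
  fix : ∀ a, τ a = a ↔ a ∈ j.range
  rp : Rp ρ
  ext : ∀ g, ρ (SpecialLinearGroup.map j g) = r g
  act : ∀ g, t * ρ g * t⁻¹ = ρ (SpecialLinearGroup.map (τ : K →+* K) g)
  hW : ∀ e, e ≠ 0 → Wc (Vg r e) t ⊆ ρ.range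
  hW' : ∀ ε, ε ≠ 0 → Wc (Vg (du r) ε) t ⊆ ρ.range
  cn : ∀ c, c * t = t * c → c ∈ 𝐍[ρ.range]

/-- `G0 = L₁ L₂` in the split case -/
def G0 (r₁ : SpecialLinearGroup ι F →* G) (t : G) : Subgroup G := r₁.range ⊔ (cjh t r₁).range

/-- split case: `L` is the diagonal of `L₁ L₁^t` -/
structure Spl (r : SpecialLinearGroup ι F →* G) (t : G) (r₁ : SpecialLinearGroup ι F →* G) : Prop
    extends Su r t where
  nsq : Nsq r t
  rp : Rp r₁
  com : ∀ g h, r₁ g * cjh t r₁ h = cjh t r₁ h * r₁ g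
  dec : ∀ g, r g = r₁ g * cjh t r₁ g
  hW : ∀ e, e ≠ 0 → Wc (Vg r e) t ⊆ G0 r₁ t
  hW' : ∀ ε, ε ≠ 0 → Wc (Vg (du r) ε) t ⊆ G0 r₁ t
  cn : ∀ c, c * t = t * c → c ∈ 𝐍[G0 r₁ t]

/-- rank of `g - 1` -/
noncomputable def rk (g : SpecialLinearGroup ι F) : ℕ := (dl g).rank

theorem cjh_apply {M : Type*} [Group M] (g : G) (r : M →* G) (x : M) :
    cjh g r x = g * r x * g⁻¹ := rfl

theorem du_apply (r : SpecialLinearGroup ι F →* G) (x : SpecialLinearGroup ι F) :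
    du r x = r (tr x) := rfl

theorem du_du (r : SpecialLinearGroup ι F →* G) : du (du r) = r :=
  MonoidHom.ext fun x => by rw [du_apply, du_apply, tr_tr]

theorem range_du (r : SpecialLinearGroup ι F →* G) : (du r).range = r.range := by
  ext x
  exact ⟨fun ⟨g, h⟩ => ⟨tr g, h⟩, fun ⟨g, h⟩ => ⟨tr g, by rw [du_apply, tr_tr, h]⟩⟩

theorem range_cjh {M : Type*} [Group M] (g : G) (r : M →* G) :
    (cjh g r).range = cj(g, r.range) := by
  rw [cjh, MonoidHom.range_comp]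

theorem mem_Vg {r : SpecialLinearGroup ι F →* G} {e : ι → F} {x : G} :
    x ∈ Vg r e ↔ ∃ φ, φ ⬝ᵥ e = 0 ∧ r (tv e φ) = x := by
  constructor
  · rintro ⟨_, ⟨φ, h, rfl⟩, rfl⟩; exact ⟨φ, h, rfl⟩
  · rintro ⟨φ, h, rfl⟩; exact ⟨_, ⟨φ, h, rfl⟩, rfl⟩

theorem du_tv [CharP F 2] (r : SpecialLinearGroup ι F →* G) (u φ : ι → F) :
    du r (tv φ u) = r (tv u φ) := by rw [du_apply, tr_tv]

theorem mem_Vg' [CharP F 2] {r : SpecialLinearGroup ι F →* G} {ε : ι → F} {x : G} :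
    x ∈ Vg (du r) ε ↔ ∃ u, ε ⬝ᵥ u = 0 ∧ r (tv u ε) = x := by
  simp only [mem_Vg, du_tv, dotProduct_comm ε]

theorem mem_K0 {r : SpecialLinearGroup ι F →* G} {t k : G} :
    k ∈ K0 r t ↔ k * t = t * k ∧ ∀ g, k * r g = r g * k := by
  simp only [K0, mem_inf, mem_centralizer_iff, Set.mem_singleton_iff, forall_eq, SetLike.mem_coe,
    MonoidHom.mem_range, forall_exists_index, forall_apply_eq_imp_iff]
  exact ⟨fun h => ⟨h.1.symm, fun g => (h.2 g).symm⟩, fun h => ⟨h.1.symm, fun g => (h.2 g).symm⟩⟩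

theorem K0_du (r : SpecialLinearGroup ι F →* G) (t : G) : K0 (du r) t = K0 r t := by
  rw [K0, range_du, K0]

theorem Od_le (H : Subgroup G) : Od H ≤ H := (closure_le _).2 fun _ h => h.1

theorem Od_mono {H K : Subgroup G} (h : H ≤ K) : Od H ≤ Od K :=
  closure_mono fun _ hx => ⟨h hx.1, hx.2⟩

theorem mem_Od {H : Subgroup G} {x : G} (h : x ∈ H) (ho : Odd (orderOf x)) : x ∈ Od H :=
  subset_closure ⟨h, ho⟩

theorem El.comm {A : Subgroup G} (h : El A) {a b : G} (ha : a ∈ A) (hb : b ∈ A) :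
    a * b = b * a := by
  have h1 := h _ (A.mul_mem ha hb)
  rw [eq_inv_of_mul_eq_one_left h1, _root_.mul_inv_rev, inv_eq_of_mul_eq_one_left (h a ha),
    inv_eq_of_mul_eq_one_left (h b hb)]

theorem Rp.du {r : SpecialLinearGroup ι F →* G} (h : Rp r) : Rp (du r) :=
  ⟨h.three, h.hq, fun g e => by
    have := h.ker _ e
    rw [mem_center_iff] at this ⊢
    intro x
    apply (tr : SpecialLinearGroup ι F ≃* _).injective
    rw [map_mul, map_mul]
    exact this _⟩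

theorem Rp.cjh {r : SpecialLinearGroup ι F →* G} (h : Rp r) (g : G) : Rp (cjh g r) :=
  ⟨h.three, h.hq, fun x e => h.ker x (by
    rw [cjh_apply] at e
    exact conj_eq_one_iff.1 e)⟩

theorem Su.du {r : SpecialLinearGroup ι F →* G} {t : G} (h : Su r t) : Su (du r) t :=
  ⟨h.toRp.du, h.tt, h.t1, fun g => h.tc _, fun c e => by rw [range_du]; exact h.nrm c e,
    fun P hP => h.cyc P (by rwa [K0_du] at hP)⟩

theorem Nsq.du {r : SpecialLinearGroup ι F →* G} {t : G} (h : Nsq r t) : Nsq (du r) t := by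
  intro k hk
  rw [K0_du] at hk
  exact h k hk

theorem Ds.du {r : SpecialLinearGroup ι F →* G} {t : G} (h : Ds r t) : Ds (du r) t :=
  ⟨h.toSu.du, h.nsq.du, h.dbl', fun e he => by rw [du_du]; exact h.dbl e he⟩

end Cfsg.Agent.StdL
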