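import Cfsg.Agent.StdL.InA

/-! Pure matrices ( notation of `InA`). `U` = group generated by the `tv u φ` of `rad_od` and
the `lv i j c`, `i < j` (omit the latter if `q = ρ = 2`); it is a `2`-group (it stabilises a full flag
acting trivially on the factors; or: unipotent mod the radical). `M = {1 + W | W V ≤ im N, W (ker N) = 0}`
`≅ M_ρ(F)`, `g (1 + W) ↔ I + A`; if `I + A` is invertible, `g ~ g a` (`isConj_of_rk`). Let `a = 1 + W ∈ A`.
(i) `a` acts on `im N` as `ā`; if `ā ≠ 1` find `B ∈ M ∩ U` with `⁅a, B⁆ = ā B ā⁻¹ + B ≠ 0` and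
`I + ⁅a,B⁆` invertible: `ρ ≥ 3`: `B = x ⊗ b`, `ā x = x`, `b x = 0`, `b ā ≠ b` (nilpotent result);
`ρ = 2`, `ā = 1 + x E₁₂` in a suitable basis: `q ≥ 4`: `B = c E₂₁`, `c ≠ 0, x⁻¹`; `q = 2`: `B = E₁₁`.
(ii) so `W N = 0 = N W`. If `W u ≠ 0` for some `u ∈ ker N`: `⁅a, tv u (ψ N)⁆ = tv (W u) (ψ N) ≠ 1`, and
`N + W u ⊗ ψ N = (1 + W u ⊗ ψ) N` has rank `ρ` if `ψ (W u) = 0`, `ψ N ≠ 0` (choose `ψ`; also `ψ u = 0`
if `u ∈ im N`, not needed as `W (im N) = 0`). Dually. Hence `A ≤ M`.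
(iii) `𝒜 ≤ M_ρ(F)` additive, `I + A` singular for `A ≠ 0`, invariant under the unitriangular group `U₀`.
Fixed points of `U₀` are `a I + c E₁ρ`, so `a = 1`: at most one nonzero fixed point `A₀` (rank `ρ`).
If `|𝒜| ≥ 4` there is `A ∉ {0, A₀}` with `u A u⁻¹ + A ∈ {0, A₀}` for all `u ∈ U₀` (`2`-group acting on
`𝒜/⟨A₀⟩`), not all `0`, so nonzero for some `u = 1 + c E i j`; the rank of `u A u⁻¹ + A` is `≤ 2`, so
`ρ = 2`, `q ≥ 4`: the kernel of `c ↦ u_c A u_c⁻¹ + A` has index `2`, contains `c ≠ 0`, so `A` commutes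
with `E₁₂`: false. `q = ρ = 2`: a subgroup of order `≥ 8` of `M₂(F₂)` contains `A ≠ 0` with `I + A`
invertible (`decide`-like: 5 such `A`, every hyperplane contains one). -/

set_option autoImplicit false
set_option linter.unusedSectionVars false

namespace Cfsg.Agent.StdL

open Matrix Subgroup Cfsg.Agent.LnT Cfsg.Agent.PLocal.Amb
open scoped commutatorElement

variable {F ι : Type*} [Field F] [Fintype ι] [DecidableEq ι] [CharP F 2] [Finite F]

section Mat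

variable {κ : Type*} [Fintype κ] [DecidableEq κ]

theorem madd_self (B : Matrix κ κ F) : B + B = 0 := by ext; exact CharTwo.add_self_eq_zero _

theorem det_two {x y a b : κ → F} (h : a ⬝ᵥ y = 0) :
    (1 + (vecMulVec x a + vecMulVec y b)).det = (1 + a ⬝ᵥ x) * (1 + b ⬝ᵥ y) := by
  rw [← det_one_add_vv, ← det_one_add_vv, ← det_mul, add_mul, mul_add, mul_add, vecMulVec_mul_vecMulVec, h]
  congr 1
  simp only [one_mul, mul_one, zero_smul, vecMulVec_zero]
  abel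

theorem one_add_ne {c : F} (h : c ≠ 1) : 1 + c ≠ 0 := fun e => h (CharTwo.add_eq_zero.1 e).symm

/-- step (i) -/
theorem inB_i {A : Matrix κ κ F} (A2 : A * A = 1) (h3 : Nat.card F = 2 → Fintype.card κ ≠ 2 → 3 ≤ Fintype.card κ)
    (h : ∀ x b, (Nat.card F = 2 ∧ Fintype.card κ = 2) ∨ b ⬝ᵥ x = 0 →
      (1 + (vecMulVec (A *ᵥ x) (b ᵥ* A) + vecMulVec x b)).det ≠ 0 →
        vecMulVec (A *ᵥ x) (b ᵥ* A) + vecMulVec x b = 0) : A = 1 := by
  obtain ⟨n, rfl⟩ : ∃ n, A = 1 + n := ⟨A - 1, by simp⟩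
  have nn : ∀ z, n *ᵥ n *ᵥ z = 0 := fun z => by
    rw [mulVec_mulVec, show n * n = 0 by
      rw [add_mul, mul_add, mul_add, mul_one, one_mul, mul_one, add_assoc, ← add_assoc n, madd_self, zero_add] at A2
      exact add_eq_left.1 A2, zero_mulVec]
  simp only [add_mulVec, one_mulVec, vecMul_add, vecMul_one] at h
  by_contra ne
  obtain ⟨z, hz⟩ : ∃ z, n *ᵥ z ≠ 0 := by
    by_contra! r
    exact ne (by rw [mext (A := n) (B := 0) fun x => by rw [r, zero_mulVec], add_zero])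
  by_cases q : Nat.card F = 2
  · obtain ⟨b, hb⟩ := exists_dot0 hz
    obtain ⟨x, x0, x1, x2⟩ : ∃ x, x ≠ 0 ∧ n *ᵥ x = 0 ∧ ((Nat.card F = 2 ∧ Fintype.card κ = 2) ∨ b ⬝ᵥ x = 0) := by
      by_cases r : Fintype.card κ = 2
      · exact ⟨_, hz, nn z, Or.inl ⟨q, r⟩⟩
      by_cases r' : ∀ y, ∃ c : F, n *ᵥ y = c • n *ᵥ z
      · obtain ⟨γ, hγ⟩ := exists_dot_of_range' hz r'
        obtain ⟨x, x1, x2⟩ := exists_ker_notMem (F := F) (a := 2) (b := 0) (h3 q r) ![γ, b] ![]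
        exact ⟨x, fun e => x2 (e ▸ zero_mem _), by rw [hγ, show γ ⬝ᵥ x = 0 from x1 0, zero_smul], Or.inr (x1 1)⟩
      · push Not at r'
        obtain ⟨y, hy⟩ := r'
        exact ⟨n *ᵥ y + (b ⬝ᵥ n *ᵥ y) • n *ᵥ z, fun e => hy _ (vadd_eq_zero.1 e), by simp [mulVec_add, mulVec_smul, nn],
          Or.inr (by simp [hb, CharTwo.add_self_eq_zero])⟩
    have := h x b x2
    rw [x1, add_zero, vecMulVec_add, add_right_comm, madd_self, zero_add, det_one_add_vv, vecMul_dot, x1] at this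
    have := congrArg (· *ᵥ z) (this (by simp))
    simp [vv_mulVec, vecMul_dot, hb, x0] at this
  · obtain ⟨c, c0, c1⟩ := exists_ne01 (F := F) (lt_of_lt_of_le (by decide) (four_le_card q))
    obtain ⟨b, b1, b2⟩ := exists_dot1 (e := z) (u := n *ᵥ z) fun a e => hz (by
      have := nn z
      rw [e, mulVec_smul, smul_eq_zero_iff_left hz] at this
      rw [e, this, zero_smul])
    have := h z (c • b) (Or.inr (by simp [b2]))
    rw [show vecMulVec (z + n *ᵥ z) (c • b + (c • b) ᵥ* n) + vecMulVec z (c • b) =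
      vecMulVec z ((c • b) ᵥ* n) + vecMulVec (n *ᵥ z) (c • b + (c • b) ᵥ* n) by
        rw [add_vecMulVec, vecMulVec_add, add_right_comm, add_right_comm (vecMulVec z _), madd_self, zero_add],
      det_two (by rw [vecMul_dot, nn, dotProduct_zero])] at this
    have := congrArg (· *ᵥ n *ᵥ z) (this (by simp [vecMul_dot, b1, nn, one_add_ne c1]))
    simp only [add_mulVec, vv_mulVec, zero_mulVec, add_dotProduct, vecMul_dot, nn, smul_dotProduct, b1] at this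
    simp [c0, hz] at this

/-- step (iii) -/
theorem inB_iii (S : AddSubgroup (Matrix κ κ F)) (h3 : Nat.card F = 2 → 3 ≤ Fintype.card κ) {e : κ → F}
    (he : e ≠ 0) (h1 : ∀ B ∈ S, (1 + B).det ≠ 0 → B = 0)
    (h2 : ∀ B ∈ S, ∀ β, β ⬝ᵥ e = 0 → (1 + vecMulVec e β) * B * (1 + vecMulVec e β) ∈ S) : Nat.card S ≤ 2 := by
  have c : ∀ B ∈ S, ∀ β, β ⬝ᵥ e = 0 →
      vecMulVec (B *ᵥ e) β + vecMulVec e (β ᵥ* B + (β ⬝ᵥ B *ᵥ e) • β) ∈ S := fun B hB β hβ => by
    have := add_mem (h2 B hB β hβ) hB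
    rwa [add_mul, one_mul, mul_add, mul_one, add_mul, vecMulVec_mul, mul_vecMulVec, vecMulVec_mul_vecMulVec,
      vecMul_dot, add_right_comm, add_right_comm B, madd_self, zero_add, add_left_comm, ← vecMulVec_add] at this
  have k : ∀ B ∈ S, ∀ β, β ⬝ᵥ e = 0 → β ⬝ᵥ B *ᵥ e ≠ 1 →
      vecMulVec (B *ᵥ e) β + vecMulVec e (β ᵥ* B + (β ⬝ᵥ B *ᵥ e) • β) = 0 := fun B hB β hβ r =>
    h1 _ (c B hB β hβ) (by rw [det_two hβ]; simp [vecMul_dot, hβ, one_add_ne r])
  have a : ∀ B ∈ S, ∀ β, β ⬝ᵥ e = 0 → β ⬝ᵥ B *ᵥ e = 0 := fun B hB β hβ => by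
    by_contra r
    by_cases q : Nat.card F = 2
    · obtain ⟨γ, g1, g2⟩ := exists_ker_notMem (F := F) (a := 2) (b := 0) (h3 q) ![e, B *ᵥ e] ![]
      have a1 : γ ⬝ᵥ e = 0 := by rw [dotProduct_comm]; exact g1 0
      have a2 : γ ⬝ᵥ B *ᵥ e = 0 := by rw [dotProduct_comm]; exact g1 1
      obtain ⟨z, hz⟩ := exists_dot0 (show γ ≠ 0 from fun r => g2 (r ▸ zero_mem _))
      rw [dotProduct_comm] at hz
      have := congrArg (· *ᵥ z) (k _ (c B hB β hβ) γ a1 (by simp [add_mulVec, vv_mulVec, hβ, a1]))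
      simp only [add_mulVec, vv_mulVec, zero_mulVec, add_dotProduct, vecMul_dot, smul_dotProduct, dotProduct_add,
        dotProduct_smul, hβ, a1, a2, hz] at this
      simp [r, he] at this
    · obtain ⟨t, t0, t1⟩ := exists_ne01 (F := F) (lt_of_lt_of_le (by decide) (four_le_card q))
      have := congrArg (· *ᵥ e) (k B hB ((t * (β ⬝ᵥ B *ᵥ e)⁻¹) • β) (by simp [hβ]) (by simp [r, t1]))
      simp only [add_mulVec, vv_mulVec, zero_mulVec, add_dotProduct, vecMul_dot, smul_dotProduct, hβ] at this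
      simp [r, t0, he] at this
  have b : ∀ B ∈ S, B ≠ 0 → B *ᵥ e = e := fun B hB B0 => by
    obtain ⟨l, hl⟩ := smul_of_dot (a B hB)
    obtain ⟨δ, hδ⟩ := exists_dot_of_range (A := B + l • 1) he fun β hβ => dext fun x => by
      have := congrArg (· *ᵥ x) (k B hB β hβ (by rw [a B hB β hβ]; exact zero_ne_one))
      rw [a B hB β hβ] at this
      simp only [add_mulVec, vv_mulVec, hl, zero_smul, add_zero, smul_smul, ← add_smul, zero_mulVec,
        smul_eq_zero_iff_left he] at this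
      rw [vecMul_add, add_dotProduct, vecMul_smul, vecMul_one, smul_dotProduct, zero_dotProduct, ← this, add_comm,
        smul_eq_mul, mul_comm]
    have d : δ ⬝ᵥ e = 0 := by
      have := hδ e
      rw [add_mulVec, hl, smul_mulVec, one_mulVec, vadd_self] at this
      exact (smul_eq_zero_iff_left he).1 this.symm
    by_contra r
    have l1 := one_add_ne (c := l) fun e => r (by rw [hl, e, one_smul])
    refine B0 (h1 B hB ?_)
    rw [show 1 + B = (1 + l) • (1 + vecMulVec e ((1 + l)⁻¹ • δ)) from mext fun x => by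
      rw [smul_mulVec, add_mulVec, add_mulVec, vv_mulVec, smul_dotProduct, smul_add, smul_smul, smul_eq_mul,
        mul_inv_cancel_left₀ l1, ← hδ, add_mulVec, smul_mulVec, add_smul, one_smul, add_assoc, add_left_comm (l • _),
        vadd_self, add_zero], det_smul, det_one_add_vv]
    simp [d, l1]
  refine (Nat.card_le_card_of_injective (β := Prop) (fun B : S => B.1 = 0) fun B C r => Subtype.ext ?_).trans (by simp)
  by_cases B0 : B.1 = 0
  · exact B0.trans (r.mp B0).symm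
  by_contra ne
  have := b _ (add_mem B.2 C.2) fun e => ne (by rw [← add_zero B.1, ← madd_self C.1, ← add_assoc, e, zero_add])
  rw [add_mulVec, b _ B.2 B0, b _ C.2 fun e => B0 (r.mpr e), vadd_self] at this
  exact he this.symm

theorem inB_22 (S : AddSubgroup (Matrix (Fin 2) (Fin 2) F)) (q : Nat.card F = 2)
    (h1 : ∀ B ∈ S, (1 + B).det ≠ 0 → B = 0) : Nat.card S ≤ 4 := by
  have t : (1 : F) + 1 = 0 := CharTwo.add_self_eq_zero 1
  have n : ∀ a b c d : F, b = 1 ∨ c = 1 → (1 + a) * (1 + d) - b * c = 1 → !![a, b; c, d] ∉ S := fun a b c d r e m => by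
    have := h1 _ m (by rw [det_fin_two]; simp [e])
    rcases r with rfl | rfl
    exacts [one_ne_zero (congrFun (congrFun this 0) 1), one_ne_zero (congrFun (congrFun this 1) 0)]
  have c := S.card_mul_index
  rw [show Nat.card (Matrix (Fin 2) (Fin 2) F) = 16 by simp [Matrix, Nat.card_fun, q]] at c
  by_contra! r
  have i : S.index ∣ 2 ^ 4 := Dvd.intro_left _ c
  obtain ⟨k, k4, e⟩ := (Nat.dvd_prime_pow Nat.prime_two).1 i
  have e1 := n 0 1 0 0 (Or.inl rfl) (by simp)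
  rcases k with _ | _ | k
  · exact e1 ((AddSubgroup.index_eq_one.1 e).ge (AddSubgroup.mem_top _))
  · have a := fun {x y} (hx : x ∉ S) (hy : y ∉ S) => (S.add_mem_iff_of_index_two e).2 (iff_of_false hx hy)
    refine n 1 1 1 1 (Or.inl rfl) (by rw [t]; simp [CharTwo.neg_eq]) ?_
    convert add_mem (a (n 0 1 1 1 (Or.inl rfl) (by rw [t]; simp [CharTwo.neg_eq]))
      (n 1 1 1 0 (Or.inl rfl) (by rw [t]; simp [CharTwo.neg_eq]))) (a e1 (n 0 0 1 0 (Or.inr rfl) (by simp))) using 1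
    simp [t]
  · rw [e, pow_succ, pow_succ] at c
    have := Nat.mul_le_mul r (Nat.one_le_two_pow (n := k))
    nlinarith

end Mat

namespace Fr

variable {κ : Type*} [Fintype κ] [DecidableEq κ] {g : SpecialLinearGroup ι F} {P X : Matrix ι κ F}
  {Q Ψ : Matrix κ ι F} (h : Fr g P X Q Ψ)

/-- elements acting trivially on the factors of `0 < im N ≤ ker N < V` -/
def rad (_ : Fr g P X Q Ψ) : Subgroup (SpecialLinearGroup ι F) where
  carrier := {r | (∀ a, r.1 *ᵥ P *ᵥ a = P *ᵥ a) ∧ (∀ x, Q *ᵥ r.1 *ᵥ x = Q *ᵥ x) ∧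
    ∀ v, Q *ᵥ v = 0 → ∃ a, r.1 *ᵥ v = v + P *ᵥ a}
  one_mem' := ⟨by simp, by simp, fun v _ => ⟨0, by simp⟩⟩
  mul_mem' := fun {r s} hr hs => ⟨fun a => by rw [mul_mulVec', hs.1, hr.1], fun x => by rw [mul_mulVec', hr.2.1, hs.2.1],
    fun v hv => by
      obtain ⟨a, ha⟩ := hr.2.2 v hv
      obtain ⟨b, hb⟩ := hs.2.2 v hv
      exact ⟨a + b, by rw [mul_mulVec', hb, mulVec_add, ha, hr.1, mulVec_add, add_assoc]⟩⟩
  inv_mem' := fun {r} hr => ⟨fun a => inv_mulVec_of (hr.1 a), fun x => by rw [← hr.2.1, mulVec_inv_mulVec],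
    fun v hv => (hr.2.2 v hv).imp fun a ha => inv_mulVec_of (by
      rw [mulVec_add, ha, hr.1, add_assoc, vadd_self, add_zero])⟩

theorem pg_rad : IsPGroup 2 h.rad := isPGroup_iff.2 fun r hr => ⟨2, slext fun x => by
  have k : ∀ x, ∃ a, r.1 *ᵥ r.1 *ᵥ x = x + P *ᵥ a := fun x => by
    obtain ⟨a, ha⟩ := hr.2.2 (r.1 *ᵥ x + x) (by rw [mulVec_add, hr.2.1, vadd_self])
    rw [mulVec_add, add_assoc, add_comm, add_right_inj] at ha
    exact ⟨a, ha⟩
  obtain ⟨a, ha⟩ := k x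
  rw [show r ^ 2 ^ 2 = r * (r * (r * r)) by
      rw [show 2 ^ 2 = 4 from rfl]; simp only [pow_succ, pow_zero, one_mul, mul_assoc], mul_mulVec',
    mul_mulVec', mul_mulVec', ha, mulVec_add, mulVec_add, ha, hr.1, hr.1, add_assoc, vadd_self, add_zero]
  simp⟩

include h in
theorem bar {c : SpecialLinearGroup ι F} (hc : c ∈ centralizer {g}) :
    c.1 * P = P * (Ψ * c.1 * P) ∧ Q * c.1 = Ψ * c.1 * P * Q := by
  have e : c.1 * (P * Q) = P * Q * c.1 := by
    have e0 := mem_centralizer_singleton_iff.1 hc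
    have : c.1 * g.1 = g.1 * c.1 := congrArg Subtype.val e0
    rwa [h.val, mul_add, add_mul, mul_one, one_mul, add_right_inj] at this
  have e2 : Q * c.1 = Ψ * c.1 * P * Q := by
    rw [Matrix.mul_assoc, Matrix.mul_assoc, e, Matrix.mul_assoc, h.ΨP']
  refine ⟨?_, e2⟩
  rw [← Matrix.mul_one (c.1 * P), ← h.QX, ← Matrix.mul_assoc, Matrix.mul_assoc c.1, e, Matrix.mul_assoc P, e2,
    Matrix.mul_assoc P, Matrix.mul_assoc _ Q, h.QX, Matrix.mul_one]

theorem norm_rad : centralizer {g} ≤ 𝐍[h.rad] := fun c hc => mem_normalizer_of_cj_le (cj_le_iff_forall.2 fun r hr => by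
  obtain ⟨a1, a2⟩ := h.bar hc
  obtain ⟨b1, b2⟩ := h.bar (inv_mem hc)
  refine ⟨fun a => ?_, fun x => ?_, fun v hv => ?_⟩
  · rw [mul_mulVec', mul_mulVec', mulVec_mulVec a, b1, ← mulVec_mulVec a, hr.1, mulVec_mulVec a, ← b1,
      ← mulVec_mulVec a, mulVec_inv_mulVec]
  · rw [mul_mulVec', mul_mulVec', mulVec_mulVec _ Q, a2, ← mulVec_mulVec _ _ Q, hr.2.1, mulVec_mulVec _ _ Q, ← a2,
      ← mulVec_mulVec, mulVec_inv_mulVec]
  · obtain ⟨a, ha⟩ := hr.2.2 ((c⁻¹).1 *ᵥ v) (by rw [mulVec_mulVec, b2, ← mulVec_mulVec, hv, mulVec_zero])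
    exact ⟨_, by rw [mul_mulVec', mul_mulVec', ha, mulVec_add, mulVec_inv_mulVec, mulVec_mulVec a, a1,
      ← mulVec_mulVec a]⟩)

end Fr

theorem inB (hq : 2 < Nat.card F ∨ 5 ≤ Fintype.card ι) {g : SpecialLinearGroup ι F}
    (g2 : g * g = 1) (hr : 2 ≤ rk g) : ∃ U : Subgroup (SpecialLinearGroup ι F), IsPGroup 2 U ∧
      U ≤ Od (centralizer {g}) ∧ ∀ A : Subgroup (SpecialLinearGroup ι F), El A →
        A ≤ centralizer {g} → U ≤ 𝐍[A] → (∀ a ∈ A, a ≠ 1 → ¬ IsConj g (g * a)) →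
          Nat.card A ≤ 2 ∨ (Nat.card F = 2 ∧ rk g = 2 ∧ Nat.card A ≤ 4) := by
  have := Fact.mk Nat.prime_two
  obtain ⟨n, hn, P, X, Q, Ψ, h⟩ : ∃ n, rk g = n ∧ ∃ (P X : Matrix ι (Fin n) F) (Q Ψ : Matrix (Fin n) ι F),
    Fr g P X Q Ψ := ⟨_, rfl, exists_fr g2⟩
  have two : 2 ≤ Fintype.card (Fin n) := by rw [Fintype.card_fin]; omega
  obtain ⟨Λ, l1, l2, l3, -⟩ := h.exists_lam
  obtain ⟨e, he, -⟩ := exists_perp two (0 : Fin n → F)
  obtain ⟨U, hU, le⟩ := exists_isSyl_ge (p := 2) (R := (Vs e).map Λ ⊓ Od (centralizer {g}))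
    ((IsPGroup.map (isPGroup_iff.2 (by rintro _ ⟨φ, -, rfl⟩; exact ⟨1, by rw [pow_one, sq, tv_sq]⟩)) Λ).to_inf_left)
    inf_le_right
  refine ⟨U, hU.pgrp, hU.le, fun A hA AC UA nc => ?_⟩
  have RU : ∀ u φ, φ ⬝ᵥ u = 0 → Q *ᵥ u = 0 → φ ᵥ* P = 0 → (∀ v, Q *ᵥ v = 0 → ∃ a, (φ ⬝ᵥ v) • u = P *ᵥ a) →
      tv u φ ∈ Od (centralizer {g}) → tv u φ ∈ U := fun u φ h0 h1 h2 h3 hD =>
    hU.le_of_le_normalizer h.pg_rad.to_inf_left inf_le_right
      (fun c hc => inf_normalizer_le_normalizer_inf ⟨h.norm_rad (Od_le _ (hU.le hc)), le_normalizer (hU.le hc)⟩)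
      ⟨⟨fun a => by rw [tv_mulVec h0, h.dot h2, zero_smul, add_zero],
        fun x => by rw [tv_mulVec h0, mulVec_add, mulVec_smul, h1, smul_zero, add_zero],
        fun v hv => (h3 v hv).imp fun a r => by rw [tv_mulVec h0, r]⟩, hD⟩
  have cm : ∀ t ∈ U, ∀ a ∈ A, a * t * a⁻¹ * t⁻¹ ∈ A := fun t ht a ha => by
    simpa [mul_assoc] using mul_mem ha (conj_mem_of_mem_normalizer (UA ht) (inv_mem ha))
  have crit : ∀ a ∈ A, rk (g * a) = Fintype.card (Fin n) → a = 1 := fun a ha r => by_contra fun a1 =>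
    nc a ha a1 (isConj_of_rk g2 (by
      rw [mul_assoc, ← mul_assoc a, mem_centralizer_singleton_iff.1 (AC ha), mul_assoc, hA a ha, mul_one, g2])
      (h.card_eq.trans r.symm))
  have critB : ∀ B, h.mB B ∈ A → (1 + B).det ≠ 0 → B = 0 := fun B hB d => h.mB_inj (by
    rw [h.mB_zero]
    exact crit _ hB (Fr.rk_eq (P' := P) (Q' := (1 + B) * Q) (L := Ψ) (R := X)
      (by rw [show g * h.mB B = h.mB (1 + B) by rw [h.mB_add, h.mB_one], dl, h.mB_val, add_sub_cancel_left])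
      (by rwa [h.ΨP, Matrix.one_mul, Matrix.mul_assoc, h.QX, Matrix.mul_one])))
  have mi : ∀ B, (h.mB B)⁻¹ = h.mB B := fun B =>
    inv_eq_of_mul_eq_one_right (by rw [← h.mB_add, madd_self, h.mB_zero])
  have mU : ∀ x b : Fin n → F, (Nat.card F = 2 ∧ Fintype.card (Fin n) = 2) ∨ b ⬝ᵥ x = 0 →
      tv (P *ᵥ x) (b ᵥ* Q) ∈ U := fun x b r => by
    refine RU _ _ (h.dot (h.wQP b) x) (h.vQP x) (h.wQP b) (fun v hv => ⟨0, by simp [h.dot' hv]⟩) ?_
    by_cases q : Nat.card F = 2 ∧ n = 2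
    · exact h.rad1 two x (h.wQP b) (Or.inl (by rw [Fintype.card_fin]; omega))
    · exact h.k2 two (perf_fin (by omega) q) (r.resolve_left (by rwa [Fintype.card_fin]))
  have st : ∀ a ∈ A, ∃ B, h.mB B = a := fun a ha => by
    have ai : a⁻¹ = a := inv_eq_of_mul_eq_one_right (hA a ha)
    obtain ⟨b1, b2⟩ := h.bar (AC ha)
    generalize Ψ * a.1 * P = Ab at b1 b2
    have A2 : Ab * Ab = 1 := by
      rw [← h.ΨP' (_ * _), ← Matrix.mul_assoc P, ← b1, Matrix.mul_assoc a.1, ← b1, ← Matrix.mul_assoc a.1,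
        ← Matrix.SpecialLinearGroup.coe_mul, hA a ha]
      simp [h.ΨP]
    have b2' : Q * (a⁻¹).1 = Ab * Q := by rw [ai]; exact b2
    have key : ∀ x b, (Nat.card F = 2 ∧ Fintype.card (Fin n) = 2) ∨ b ⬝ᵥ x = 0 →
        h.mB (vecMulVec (Ab *ᵥ x) (b ᵥ* Ab) + vecMulVec x b) ∈ A := fun x b r => by
      have := cm _ (mU x b r) a ha
      rwa [← h.mB_tv, h.mB_conj b1 b2', mi, ← h.mB_add, mul_vecMulVec, vecMulVec_mul] at this
    have i : Ab = 1 := inB_i A2 (fun _ _ => by omega) fun x b r => critB _ (key x b r)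
    rw [i, Matrix.mul_one] at b1
    rw [i, Matrix.one_mul] at b2
    have WP : dl a * P = 0 := by rw [dl, Matrix.sub_mul, b1, Matrix.one_mul, sub_self]
    have QW : Q * dl a = 0 := by rw [dl, Matrix.mul_sub, b2, Matrix.mul_one, sub_self]
    have c1 : ∀ u, Q *ᵥ u = 0 → dl a *ᵥ u = 0 := fun u hu => by_contra fun w0 => by
      obtain ⟨b, b0, hb⟩ := exists_perp two (Ψ *ᵥ dl a *ᵥ u)
      have qw : Q *ᵥ dl a *ᵥ u = 0 := by rw [mulVec_mulVec, QW, zero_mulVec]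
      have := cm _ (RU _ _ (h.dot' hu b) hu (h.wQP b) (fun v hv => ⟨0, by simp [h.dot' hv]⟩)
        (rad_od hq g2 hr (h.dot' hu b) (h.kerN.2 hu) (h.kerN'.2 (h.wQP b))
          (Or.inr ⟨b ᵥ* Ψ, by rw [h.N, ← vecMul_vecMul, h.wΨP]⟩) (Or.inr fun x _ r _ => absurd (by
            rw [← r, h.N, ← mulVec_mulVec, mulVec_mulVec, WP, zero_mulVec]) w0))) a ha
      rw [tv_conj, ai, vecMul_vecMul, b2, tv_inv, mulVec_dl, add_tv (h.dot' hu b) (h.dot' qw b), mul_assoc,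
        ← add_tv (h.dot' qw b) (h.dot' hu b), add_comm, add_tv (h.dot' hu b) (h.dot' qw b), ← mul_assoc, tv_sq,
        one_mul] at this
      have := crit _ this (Fr.rk_eq (P' := P + vecMulVec (dl a *ᵥ u) b) (Q' := Q) (L := Ψ) (R := X)
        (mext fun x => by
          rw [dl_mul, dl_tv (h.dot' qw b), mulVec_smul, h.kerN.2 qw, smul_zero, add_zero, ← mulVec_mulVec, add_mulVec,
            h.N, ← mulVec_mulVec, ← dotProduct_mulVec]
          rw [vecMulVec_mulVec, op_smul_eq_smul])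
        (by rw [h.QX, Matrix.mul_one, Matrix.mul_add, h.ΨP, mul_vecMulVec, det_one_add_vv, hb]; simp))
      exact ((tv_eq_one (h.dot' qw b)).1 this).elim w0 fun r => b0 (by rw [← h.wQX b, r, zero_vecMul])
    have c2 : ∀ φ, φ ᵥ* P = 0 → φ ᵥ* dl a = 0 := fun φ hφ => by_contra fun w0 => by
      obtain ⟨x, x0, hx⟩ := exists_perp two ((φ ᵥ* dl a) ᵥ* X)
      have pw : (φ ᵥ* dl a) ᵥ* P = 0 := by rw [vecMul_vecMul, WP, vecMul_zero]
      have := cm _ (RU _ _ (h.dot hφ x) (h.vQP x) hφ (fun v _ => ⟨_, (mulVec_smul _ _ _).symm⟩)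
        (rad_od hq g2 hr (h.dot hφ x) (h.kerN.2 (h.vQP x)) (h.kerN'.2 hφ)
          (Or.inl ⟨X *ᵥ x, by rw [h.N, ← mulVec_mulVec, h.vQX]⟩) (Or.inr fun _ ψ _ r => absurd (by
            rw [← r, h.N, ← vecMul_vecMul, vecMul_vecMul, QW, vecMul_zero]) w0))) a ha
      rw [tv_conj, ai, mulVec_mulVec, b1, tv_inv, vecMul_dl, ← tv_add (by rw [add_dotProduct, h.dot hφ, h.dot pw, add_zero])
        (h.dot hφ x), add_right_comm, vadd_self, zero_add] at this
      have := crit _ this (Fr.rk_eq (P' := P) (Q' := Q + vecMulVec x (φ ᵥ* dl a)) (L := Ψ) (R := X)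
        (mext fun y => by
          rw [dl_mul, dl_tv (h.dot pw x), mulVec_smul, h.kerN.2 (h.vQP x), smul_zero, add_zero, ← mulVec_mulVec,
            add_mulVec, h.N, ← mulVec_mulVec, mulVec_add, ← mulVec_smul]
          congr 2
          ext i; simp [vecMulVec_mulVec, mul_comm])
        (by rw [h.ΨP, Matrix.one_mul, Matrix.add_mul, h.QX, vecMulVec_mul, det_one_add_vv, dotProduct_comm, hx]; simp))
      exact ((tv_eq_one (h.dot pw x)).1 this).elim (fun r => x0 (by rw [← h.vΨP x, r, mulVec_zero])) w0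
    refine ⟨Ψ * dl a * X, slext fun x => dext' fun φ => ?_⟩
    have e1 := c1 (x - X *ᵥ Q *ᵥ x) (by rw [mulVec_sub, h.vQX, sub_self])
    have e2 := c2 (φ - (φ ᵥ* P) ᵥ* Ψ) (by rw [sub_vecMul, h.wΨP, sub_self])
    rw [mulVec_sub, sub_eq_zero] at e1
    rw [sub_vecMul, sub_eq_zero] at e2
    rw [mulVec_dl a, e1, h.mB_val, add_mulVec, one_mulVec, dotProduct_add, dotProduct_add, dotProduct_mulVec φ (dl a),
      e2]
    simp only [← mulVec_mulVec, vecMul_dot]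
    rw [dotProduct_mulVec φ P, dotProduct_mulVec _ Ψ]
  let S : AddSubgroup (Matrix (Fin n) (Fin n) F) :=
    { carrier := {B | h.mB B ∈ A}
      zero_mem' := by simp [h.mB_zero]
      add_mem' := fun {B C} hB hC => by simpa [h.mB_add] using mul_mem hB hC
      neg_mem' := fun {B} hB => by rwa [neg_eq_of_add_eq_zero_right (madd_self B)] }
  have cS : Nat.card S = Nat.card A := Nat.card_eq_of_bijective (fun B => ⟨h.mB B.1, B.2⟩)
    ⟨fun B C r => Subtype.ext (h.mB_inj (congrArg Subtype.val r)), fun a => by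
      obtain ⟨B, hB⟩ := st a a.2
      exact ⟨⟨B, show h.mB B ∈ A from hB ▸ a.2⟩, Subtype.ext hB⟩⟩
  rw [← cS]
  by_cases q : Nat.card F = 2 ∧ n = 2
  · obtain ⟨q, rfl⟩ := q
    exact Or.inr ⟨q, hn, inB_22 S q critB⟩
  refine Or.inl (inB_iii S (fun r => by rw [Fintype.card_fin]; by_contra; exact q ⟨r, by omega⟩) he critB
    fun B hB β hβ => ?_)
  have := conj_mem_of_mem_normalizer (UA (le ⟨⟨_, ⟨β, hβ, rfl⟩, rfl⟩, od_perf (perf_fin (by omega) q) Λ l1 _⟩)) hB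
  rwa [h.mB_conj (l2 _) (by rw [← map_inv, l3]), tv_inv, tv_val hβ] at this

end Cfsg.Agent.StdL
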