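import Cfsg.Agent.StdL.OutC
import Cfsg.Agent.StdL.InB

/-! If `t` is not isolated, some transvection `z` has `z` or `t z` conjugate to `t`. -/

set_option autoImplicit false

namespace Cfsg.Agent.StdL

open Matrix Subgroup Cfsg.Agent.LnT Cfsg.Agent.PLocal.Amb
open scoped commutatorElement

variable {F ι G : Type*} [Field F] [Fintype ι] [DecidableEq ι] [Group G] [CharP F 2] [Finite F]
  [Finite G] {r r' : SpecialLinearGroup ι F →* G} {t s : G}

/-- `s` is a conjugate of `t` in `⟨t⟩ L - {t}` over the involution `g` -/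
structure FuI (r : SpecialLinearGroup ι F →* G) (t s : G) (g : SpecialLinearGroup ι F) : Prop where
  cj : IsConj t s
  ne : s ≠ t
  sq : g * g = 1
  eq : s = r g ∨ s = t * r g

theorem fu_fix {U : Subgroup (SpecialLinearGroup ι F)} (hU : IsPGroup 2 U)
    {g : SpecialLinearGroup ι F} (hc : ∀ u ∈ U, g * u = u * g) (g1 : g ≠ 1) :
    ∃ e, e ≠ 0 ∧ (∃ x, dl g *ᵥ x = e) ∧ ∀ u ∈ U, u.1 *ᵥ e = e := by
  have : Fact (Nat.Prime 2) := ⟨Nat.prime_two⟩
  let W := LinearMap.range (dl g).mulVecLin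
  let _ : MulAction U W :=
    { smul := fun u w => ⟨u.1.1 *ᵥ w.1, by
        obtain ⟨_, x, rfl⟩ := w
        exact ⟨_, dl_comm (hc u u.2) x⟩⟩
      one_smul := fun w => Subtype.ext (one_mulVec w.1)
      mul_smul := fun u v w => Subtype.ext (mul_mulVec' u.1 v.1 w.1) }
  obtain ⟨x, hx⟩ : ∃ x, dl g *ᵥ x ≠ 0 := by
    by_contra! h
    exact g1 (slext fun x => (dl_eq_zero.1 (h x)).trans (one_mulVec x).symm)
  have h2 : addOrderOf (⟨dl g *ᵥ x, x, rfl⟩ : W) = 2 := addOrderOf_eq_prime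
    (Subtype.ext (by rw [two_nsmul]; exact vadd_self _)) fun e => hx (congrArg Subtype.val e)
  obtain ⟨b, hb, h0⟩ := hU.exists_fixed_point_of_prime_dvd_card_of_fixed_point W
    (h2 ▸ addOrderOf_dvd_natCard _) (a := 0) fun u => Subtype.ext (mulVec_zero _)
  exact ⟨b, fun e => h0 (Subtype.ext e.symm), b.2, fun u hu => congrArg Subtype.val (hb ⟨u, hu⟩)⟩

namespace FuI

variable {g g' : SpecialLinearGroup ι F}

omit [CharP F 2] [Finite F] [Finite G] in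
theorem comm (f : FuI r t s g) {c : G} (h1 : c * t = t * c) :
    c * s = s * c ↔ c * r g = r g * c := by
  rcases f.eq with e | e <;> rw [e]
  rw [← mul_assoc, h1, mul_assoc, mul_assoc, mul_left_cancel_iff]

omit [CharP F 2] [Finite F] [Finite G] in
theorem ss (f : FuI r t s g) (h : Su r t) : s * s = 1 := by
  obtain ⟨x, rfl⟩ := isConj_iff.1 f.cj
  rw [conj_mul, h.tt, mul_one, mul_inv_cancel]

omit [CharP F 2] [Finite F] [Finite G] in
theorem st (f : FuI r t s g) (h : Su r t) : t * s = s * t := (f.comm rfl).2 (h.tc g)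

omit [Finite G] in
theorem rk (f : FuI r t s g) (h : Su r t) (n : ¬ Tz r t) : 2 ≤ rk g := by
  by_contra! c
  obtain c | c : StdL.rk g = 0 ∨ StdL.rk g = 1 := by omega
  · have := f.eq
    rw [rk_eq_zero.1 c, map_one, mul_one] at this
    exact this.elim (fun e => h.t1 (isConj_one_left.1 (e ▸ f.cj))) f.ne
  · obtain ⟨u, φ, h1, h2, h3, rfl⟩ := isTv_of_rk f.sq c
    exact n ⟨u, φ, h1, h2, h3, f.eq.elim (fun e => .inl (e ▸ f.cj))
      fun e => .inr (e ▸ f.cj)⟩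

theorem le_range (f : FuI r t s g) (h : Su r t) (h' : Su r' s)
    {U : Subgroup (SpecialLinearGroup ι F)} (hU : IsPGroup 2 U) (hl : U ≤ Od (centralizer {g})) :
    U.map r ≤ r'.range := fun y hy => by
  obtain ⟨k, hk⟩ := isPGroup_iff.1 (hU.map r) y hy
  refine h'.o2 (Od.map r ?_ (map_mono hl hy)) hk
  rintro _ ⟨c, hc, rfl⟩
  exact mem_centralizer_singleton_iff.2 ((f.comm (h.tc c).symm).2 (by
    rw [← map_mul, mem_centralizer_singleton_iff.1 hc, map_mul]))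

theorem false_of_le (f : FuI r t s g) (f' : FuI r' s t g') (h : Su r t) (h' : Su r' s)
    (n : ¬ Tz r t) (n' : ¬ Tz r' s) (hr : StdL.rk g' ≤ StdL.rk g) : False := by
  have k2 : ∀ {x : SpecialLinearGroup ι F}, x * x = 1 → x ^ 2 ^ 1 = 1 := fun e => by
    rw [pow_one, pow_two, e]
  have r2 := f'.rk h' n'
  obtain ⟨U, hU, hl, hB⟩ := inB h.hq f.sq (f.rk h n)
  obtain ⟨U', hU', e1, -⟩ := h'.lift_sub (hU.map r) (f.le_range h h' hU hl)
  have c1 : ∀ u ∈ U', u * g' = g' * u := fun u hu => by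
    obtain ⟨v, -, e⟩ := e1.le (mem_map_of_mem r' hu)
    exact h'.comm (k2 f'.sq) ((f'.comm (h'.tc u).symm).1 (e ▸ (h.tc v).symm))
  obtain ⟨e, e0, he, hf⟩ := fu_fix hU' (fun u hu => (c1 u hu).symm) fun c => by
    rw [rk_eq_zero.2 c] at r2; omega
  have hV : IsPGroup 2 (Vs e ⊓ Od (centralizer {g'}) : Subgroup _) :=
    isPGroup_iff.2 fun x hx => by
      obtain ⟨φ, -, rfl⟩ := hx.1
      exact ⟨1, k2 (tv_sq _ _)⟩
  obtain ⟨A, hA, e2, e3⟩ := h.lift_sub (hV.map r') (f'.le_range h' h hV inf_le_right)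
  rw [h'.card_map hV] at e3
  have mA : ∀ a ∈ A, ∃ φ, φ ⬝ᵥ e = 0 ∧ tv e φ ∈ Od (centralizer {g'}) ∧ r' (tv e φ) = r a :=
    fun a ha => by
      obtain ⟨_, ⟨⟨φ, h1, rfl⟩, h2⟩, h3⟩ := e2.le (mem_map_of_mem r ha)
      exact ⟨φ, h1, h2, h3⟩
  have hE : El A := fun a ha => by
    obtain ⟨φ, -, -, h3⟩ := mA a ha
    obtain ⟨k, hk⟩ := isPGroup_iff.1 hA _ (mul_mem ha ha)
    exact h.eq_of hk (one_pow _) (by rw [map_mul, ← h3, ← map_mul, tv_sq, map_one, map_one])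
  have := inA h'.hq f'.sq r2 e0 he
  rw [← e3] at this
  refine (hB A hE (fun a ha => ?_) (fun u hu => mem_normalizer_of_cj_le (cj_le_iff_forall.2
    fun a ha => ?_)) (fun a ha a1 c => ?_)).elim (by omega) fun ⟨c1, c2, c3⟩ => by
      have := this.2 c1 (by omega)
      omega
  · obtain ⟨φ, -, -, h3⟩ := mA a ha
    exact mem_centralizer_singleton_iff.2 (h.comm (k2 f.sq)
      ((f.comm (h.tc a).symm).1 (h3 ▸ (h'.tc _).symm)))
  · obtain ⟨φ, h1, h2, h3⟩ := mA a ha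
    obtain ⟨v, hv, e4⟩ := e1.ge (mem_map_of_mem r hu)
    obtain ⟨b, hb, e5⟩ := e2.ge (mem_map_of_mem r' (x := v * tv e φ * v⁻¹) ⟨⟨φ ᵥ* (v⁻¹).1,
      by rw [← h1, ← dot_conj v φ e, hf v hv], by rw [tv_conj, hf v hv]⟩,
      Od.conj (le_normalizer (mem_centralizer_singleton_iff.2 (c1 v hv))) h2⟩)
    rwa [← h.eq_of_sq (y := u * a * u⁻¹) (hE b hb) (by rw [conj_mul, hE a ha, mul_one, mul_inv_cancel])
      (by rw [e5]; simp only [map_mul, map_inv, e4, h3])]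
  · obtain ⟨φ, h1, -, h3⟩ := mA a ha
    obtain ⟨l, hl⟩ := isConj_iff.1 c
    refine n' ⟨e, φ, e0, fun c => a1 (h.eq_of_sq (hE a ha) (mul_one 1) ?_), h1,
      .inr (isConj_iff.2 ⟨r l, ?_⟩)⟩
    · rw [← h3, c, tv_zero, map_one, map_one]
    · have := congrArg r hl
      rw [map_mul, map_mul, map_mul, map_inv] at this
      rw [h3]
      rcases f.eq with c | c <;> rw [c]
      · exact this
      · rw [← mul_assoc, ← h.tc, mul_assoc t, mul_assoc t, this, mul_assoc]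

omit [Finite G] in
/-- an involution centralising the transvections with axis `ψ N` and centre in `im N` is inner -/
theorem inn (h : Su r t) (g2 : g * g = 1) (hr : 2 ≤ StdL.rk g) {ψ : ι → F} (h0 : ψ ᵥ* dl g ≠ 0)
    {c : G} (c1 : c * t = t * c) (c2 : c * c = 1) (hc : ∀ x,
      c * r (tv (dl g *ᵥ x) (ψ ᵥ* dl g)) * c⁻¹ = r (tv (dl g *ᵥ x) (ψ ᵥ* dl g))) :
    ∃ x, x * x = 1 ∧ (c = r x ∨ c = t * r x) := by
  have d0 : ∀ x, (ψ ᵥ* dl g) ⬝ᵥ dl g *ᵥ x = 0 := fun x => by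
    rw [vecMul_dot, dl_dl g2, dotProduct_zero]
  obtain ⟨y, hy⟩ := exists_dot0 h0
  rw [dotProduct_comm] at hy
  obtain ⟨σ, ⟨T, S, h1, h2⟩ | ⟨T, S, h1, h2⟩⟩ := h.exists_ac (h.nrm c c1)
  · have k : ∀ x, (S (ψ ᵥ* dl g) ⬝ᵥ y) • T (dl g *ᵥ x) = dl g *ᵥ x := fun x => by
      have := (tv_eq_iff (by rw [h1.dot, d0, map_zero]) (d0 x)).1
        (h.eq_of_sq (tv_sq _ _) (tv_sq _ _) ((h2 _ _ (d0 x)).symm.trans (hc x))) y
      rwa [hy, one_smul] at this
    obtain rfl : σ = RingEquiv.refl F := RingEquiv.ext fun a => by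
      have := k (a • y)
      rw [mulVec_smul, h1.smT, smul_comm, k] at this
      obtain ⟨x, hx⟩ : ∃ x, dl g *ᵥ x ≠ 0 := ⟨y, fun e => by
        rw [vecMul_dot, e, dotProduct_zero] at hy; exact zero_ne_one hy⟩
      have := k (a • x)
      rw [mulVec_smul, h1.smT, smul_comm, k] at this
      exact smul_left_injective F hx this
    exact h.inn c1 c2 ⟨T, S, h1, h2⟩
  · have k : LinearMap.range (dl g).mulVecLin ≤ F ∙ S (ψ ᵥ* dl g) := by
      rintro _ ⟨x, rfl⟩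
      have := (tv_eq_iff (by rw [dotProduct_comm, h1.dot, d0, map_zero]) (d0 x)).1
        (h.eq_of_sq (tv_sq _ _) (tv_sq _ _) ((h2 _ _ (d0 x)).symm.trans (hc x))) y
      rw [hy, one_smul] at this
      exact Submodule.mem_span_singleton.2 ⟨_, this⟩
    have := (Submodule.finrank_mono k).trans (finrank_span_le_card {S (ψ ᵥ* dl g)})
    rw [Set.toFinset_singleton, Finset.card_singleton] at this
    exact absurd (hr.trans this) (by decide)

end FuI

omit [Finite G] [Finite F] [CharP F 2] in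
theorem fu_cjh (x : G) : cjh x⁻¹ (cjh x r) = r := MonoidHom.ext fun y => by
  simp [cjh_apply, mul_assoc]

omit [Finite G] in
theorem Su.fu_ex (h : Su r t) {x : G} (h1 : x * t * x⁻¹ ≠ t)
    (h2 : x * t * x⁻¹ * t = t * (x * t * x⁻¹)) : ∃ s g, FuI r t s g := by
  have s2 : x * t * x⁻¹ * (x * t * x⁻¹) = 1 := by rw [conj_mul, h.tt, mul_one, mul_inv_cancel]
  have ou : Ou r (x * t * x⁻¹) → ∃ s g, FuI r t s g := fun ⟨w, l, w2, w1, _, h4, h5⟩ => by
    obtain ⟨y, y2, e⟩ := (h.cj x).comm_inn h4 (by rw [← map_mul, w2, map_one])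
    refine ⟨t * (x⁻¹ * r w * x), y, isConj_iff.2 ⟨x⁻¹ * r l * x, ?_⟩, fun c => w1
      (h.eq_of_sq w2 (mul_one 1) (by
        rw [map_one, ← conj_eq_one_iff (a := x⁻¹), inv_inv]; exact mul_eq_left.1 c)), y2, ?_⟩
    · calc _ = x⁻¹ * (r l * (x * t * x⁻¹) * (r l)⁻¹) * x := by group
        _ = _ := by rw [h5]; group
    · rcases e with e | e <;> rw [e, cjh_apply]
      · exact .inr (by group)
      · exact .inl (by rw [show t * (x⁻¹ * (x * t * x⁻¹ * (x * r y * x⁻¹)) * x) = t * t * r y by group,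
          h.tt, one_mul])
  obtain ⟨σ, hA | hA⟩ := h.exists_ac (h.nrm _ h2) <;> by_cases c : σ = RingEquiv.refl F
  · obtain ⟨g, g2, e⟩ := h.inn h2 s2 (c ▸ hA)
    exact ⟨_, g, isConj_iff.2 ⟨x, rfl⟩, h1, g2, e⟩
  exacts [ou (outA h.toRp s2 hA c), ou (outC h.toRp s2 (c ▸ hA)), ou (outB h.toRp s2 hA c)]

theorem Su.tz (h : Su r t) (hZ : ∃ g, g * t * g⁻¹ ≠ t ∧ g * t * g⁻¹ * t = t * (g * t * g⁻¹)) :
    Tz r t := by
  have : Fact (Nat.Prime 2) := ⟨Nat.prime_two⟩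
  by_contra n
  obtain ⟨x, h1, h2⟩ := hZ
  obtain ⟨s, g, f⟩ := h.fu_ex h1 h2
  clear h1 h2 x
  have hr := f.rk h n
  obtain ⟨ψ, h0⟩ : ∃ ψ, ψ ᵥ* dl g ≠ 0 := by
    by_contra! c
    rw [rk_eq_zero.2 (slext fun x => (dl_eq_zero.1 (dext' fun y => by
      rw [← vecMul_dot, c, zero_dotProduct, dotProduct_zero])).trans (one_mulVec x).symm)] at hr
    omega
  have pV : ∀ (r : SpecialLinearGroup ι F →* G) e, IsPGroup 2 (Vg r e) := fun r e =>
    isPGroup_iff.2 fun x hx => ⟨1, by rw [pow_one, pow_two, el_Vg e x hx]⟩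
  have lV : ∀ {r : SpecialLinearGroup ι F →* G}, Su r t → ∀ e, Vg r e ≤ centralizer {t} := by
    rintro r h e _ ⟨x, -, rfl⟩
    exact mem_centralizer_singleton_iff.2 (h.tc x).symm
  obtain ⟨P, hP, hQ⟩ := exists_isSyl_ge ((pV (StdL.du r) (ψ ᵥ* dl g)).to_le inf_le_left)
    (inf_le_inf_right (centralizer {s}) (lV h.du _))
  have ct : ∀ p ∈ P, p * t = t * p := fun p hp => mem_centralizer_singleton_iff.1 (hP.le hp).1
  have cs : ∀ p ∈ P, p * s = s * p := fun p hp => mem_centralizer_singleton_iff.1 (hP.le hp).2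
  by_cases hS : IsSyl 2 P (centralizer {s})
  · obtain ⟨T, hT⟩ := exists_isSyl 2 (centralizer {t})
    obtain ⟨x, e⟩ := isConj_iff.1 f.cj
    have h1 := hT.cj x
    rw [← centralizer_singleton_conj, e] at h1
    have h2 := hT.of_card_ge hP.pgrp (hP.le.trans inf_le_left)
      ((card_cj x T).symm.trans (h1.card_eq hS)).le
    obtain ⟨e, e0⟩ : ∃ e : ι → F, e ≠ 0 := ⟨_, h0⟩
    obtain ⟨c, hc, h3⟩ := h2.exists_cj_le (pV r e) (lV h e)
    have h4 : c⁻¹ * t * c = t := by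
      rw [mul_assoc, ← mem_centralizer_singleton_iff.1 hc, inv_mul_cancel_left]
    have h5 : IsConj t (c⁻¹ * s * c) := f.cj.trans (isConj_iff.2 ⟨c⁻¹, by rw [inv_inv]⟩)
    have cj : ∀ a b : G, c⁻¹ * a * c * (c⁻¹ * b * c) = c⁻¹ * (a * b) * c := fun a b => by group
    rcases h.cent_V_sq (c := c⁻¹ * s * c) (by rw [← h4, cj, cj, f.st h])
      (by rw [cj, f.ss h]; simp) e0 fun v hv => by
        rw [show v = c⁻¹ * (c * v * c⁻¹) * c by group, cj, cj, cs _ (h3 (conj_mem_cj c hv))]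
      with h6 | h6 <;> obtain ⟨φ, h7, h8⟩ := mem_Vg.1 h6
    · refine n ⟨e, φ, e0, fun c => h.t1 (isConj_one_left.1 ?_), h7, .inl (h8 ▸ h5)⟩
      rwa [← h8, c, tv_zero, map_one] at h5
    · have h9 : c⁻¹ * s * c = t * r (tv e φ) := by rw [h.tc, h8, mul_assoc _ t, h.tt, mul_one]
      refine n ⟨e, φ, e0, fun c => f.ne ?_, h7, .inr (h9 ▸ h5)⟩
      rw [c, tv_zero, map_one, mul_one, ← h4] at h9
      simpa using h9
  obtain ⟨R, hR, h1, h2, h3⟩ : ∃ R : Subgroup G, IsPGroup 2 R ∧ P ≤ R ∧ R ≤ centralizer {s} ∧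
      ¬ R ≤ P := by
    by_contra! c
    exact hS ⟨hP.le.trans inf_le_right, hP.pgrp, c⟩
  obtain ⟨x, ⟨xR, xN⟩, xP⟩ := SetLike.exists_of_lt (lt_inf_normalizer hR (lt_of_le_not_ge h1 h3))
  have tP : t ∈ P := zpowers_le.1 (hP.le_of_normalizes
    (isPGroup_zpowers ⟨1, by rw [pow_one, pow_two, h.tt]⟩) (zpowers_le.2 ⟨mem_centralizer_singleton_iff.2
      rfl, mem_centralizer_singleton_iff.2 (f.st h)⟩)
    (zpowers_le.2 (centralizer_le_normalizer' P (mem_centralizer_iff.2 ct))))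
  have key : ∀ x ∈ R, x ∈ 𝐍[P] → x ∉ P → ∃ g, FuI r t (x * t * x⁻¹) g := fun x xR xN xP => by
    have c0 : ∀ p ∈ P, x * t * x⁻¹ * p = p * (x * t * x⁻¹) := fun p hp => by
      calc _ = x * (t * (x⁻¹ * p * x)) * x⁻¹ := by group
        _ = _ := by rw [← ct _ (inv_conj_mem_of_mem_normalizer xN hp)]; group
    obtain ⟨y, y2, e⟩ := FuI.inn h f.sq hr h0 (c0 t tP)
      (by rw [conj_mul, h.tt, mul_one, mul_inv_cancel]) fun v => by
        have d0 : (ψ ᵥ* dl g) ⬝ᵥ dl g *ᵥ v = 0 := by rw [vecMul_dot, dl_dl f.sq, dotProduct_zero]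
        rw [c0 _ (hQ ⟨mem_Vg'.2 ⟨_, d0, rfl⟩, mem_centralizer_singleton_iff.2 ((f.comm (h.tc _).symm).2
          (by rw [← map_mul, ← map_mul, comm_tv d0 (dl_eq_zero.1 (dl_dl f.sq v))
            (dl_eq_zero'.1 (dext fun y => by
              rw [vecMul_dot, vecMul_dot, dl_dl f.sq, dotProduct_zero, zero_dotProduct]))]))⟩),
          mul_inv_cancel_right]
    exact ⟨y, isConj_iff.2 ⟨x, rfl⟩, fun c => xP (hP.max (R ⊓ centralizer {t}) (hR.to_le inf_le_left)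
      (le_inf h1 (hP.le.trans inf_le_left)) (le_inf inf_le_right (inf_le_left.trans h2))
      ⟨xR, mem_centralizer_singleton_iff.2 (mul_inv_eq_iff_eq_mul.1 c)⟩), y2, e⟩
  obtain ⟨g1, f1⟩ := key x xR xN xP
  obtain ⟨g2, f2⟩ := key x⁻¹ (inv_mem xR) (inv_mem xN) (mt inv_mem_iff.1 xP)
  have f3 : FuI (cjh x r) (x * t * x⁻¹) t g2 := ⟨f1.cj.symm, f1.ne.symm, f2.sq, by
    rw [cjh_apply, conj_mul]
    exact f2.eq.imp (fun e => by rw [← e]; group) fun e => by rw [← e]; group⟩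
  have n' : ¬ Tz (cjh x r) (x * t * x⁻¹) := fun c => n (by
    simpa [fu_cjh, mul_assoc] using c.cj x⁻¹)
  rcases le_total (rk g1) (rk g2) with c | c
  exacts [f3.false_of_le f1 (h.cj x) h n' n c, f1.false_of_le f3 h (h.cj x) n n' c]

end Cfsg.Agent.StdL
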