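import Cfsg.Agent.StdL.Bas

/-! The doubled groups of an incident point and hyperplane meet in a group covering the root group. -/

set_option autoImplicit false
set_option linter.unusedSectionVars false

namespace Cfsg.Agent.StdL

open Matrix Subgroup Cfsg.Agent.LnT Cfsg.Agent.PLocal.Amb
open scoped commutatorElement

variable {F ι G : Type*} [Field F] [Fintype ι] [DecidableEq ι] [Group G] [CharP F 2] [Finite F]
  [Finite G] {r : SpecialLinearGroup ι F →* G} {t : G}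

namespace Hat

variable {e ε u φ ψ ψ' : ι → F} {w w' : G} {g : SpecialLinearGroup ι F} {a b : F}

theorem exists_diag (he : e ≠ 0) (hε : ε ≠ 0) (h0 : ε ⬝ᵥ e = 0) {y k l : F}
    (h : y ^ Fintype.card ι * (k * l) = 1) : ∃ g : SpecialLinearGroup ι F,
      g.1 *ᵥ e = (y * k) • e ∧ ε ᵥ* g.1 = (y * l) • ε ∧
        ∀ u, ε ⬝ᵥ u = 0 → ∃ c : F, g.1 *ᵥ u = y • (u + c • e) := by
  obtain ⟨η, h1⟩ := exists_dot0 he
  obtain ⟨x, h2⟩ := exists_dot0 hε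
  refine ⟨⟨y • ((1 + vecMulVec e ((k - 1) • η)) * (1 + vecMulVec x ((l - 1) • ε))), by
    rw [det_smul, det_mul, det_one_add_vv, det_one_add_vv, ← h]
    simp [h1, dotProduct_comm ε x, h2]⟩, ?_, ?_, fun u hu => ⟨(k - 1) * η ⬝ᵥ u, ?_⟩⟩
  · simp only [smul_mulVec, ← mulVec_mulVec, add_mulVec, one_mulVec, vv_mulVec, smul_dotProduct, h0,
      h1, smul_zero, zero_smul, add_zero]
    module
  · simp only [vecMul_smul, ← vecMul_vecMul, vecMul_add, vecMul_one, vecMul_vecMulVec, h0,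
      zero_smul, add_zero, dotProduct_comm ε x, h2]
    module
  · simp only [smul_mulVec, ← mulVec_mulVec, add_mulVec, one_mulVec, vv_mulVec, smul_dotProduct, hu]
    simp

theorem lin (h : Rp r) (he : e ≠ 0) (hε : ε ≠ 0) (h0 : ε ⬝ᵥ e = 0) {κ : F → (ι → F) → F}
    (h1 : ∀ c u v, ε ⬝ᵥ u = 0 → ε ⬝ᵥ v = 0 → κ c (u + v) = κ c u + κ c v)
    (h2 : ∀ c (a : F), κ c (a • e) = 0)
    (h3 : ∀ c c', ∃ ψ, ∀ u, ε ⬝ᵥ u = 0 → κ (c + c') u = κ c u + κ c' u + ψ ⬝ᵥ u)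
    (h4 : ∀ (g : SpecialLinearGroup ι F) (a b : F), g.1 *ᵥ e = a • e → ε ᵥ* g.1 = b • ε → ∀ c, ∃ ψ,
      ∀ u, ε ⬝ᵥ u = 0 → κ (a * b⁻¹ * c) (b⁻¹ • g.1 *ᵥ u) = a * b⁻¹ * κ c u + ψ ⬝ᵥ u)
    (c a : F) (hu : ε ⬝ᵥ u = 0) : κ c (a • u) = a * κ c u := by
  have s : ∀ (a : F) {u}, ε ⬝ᵥ u = 0 → ε ⬝ᵥ a • u = 0 := fun a u hu => by simp [hu]
  rcases h.three.eq_or_lt with hn | hn
  swap
  · obtain ⟨v, hv, h5⟩ := exists_12 hn ε e u
    obtain ⟨f, f1, f2, f3⟩ := exists_dot2 h5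
    obtain ⟨ψ, h6⟩ := h4 (tv u f) 1 1 (by simp [tv_mulVec f3, f2]) (by simp [vecMul_tv f3, hu]) c
    have h7 : ∀ a : F, κ c (a • u) = a * ψ ⬝ᵥ v := fun a => by
      simpa [tv_mulVec f3, f1, h1 c _ _ (s a hv) (s a hu)] using h6 _ (s a hv)
    rw [h7, ← one_smul F u, h7, one_mul]
  have h5 : ∀ y k l : F, y ^ 3 * (k * l) = 1 → ∀ c, ∃ ψ, ∀ u, ε ⬝ᵥ u = 0 →
      κ (k * l⁻¹ * c) (l⁻¹ • u) = k * l⁻¹ * κ c u + ψ ⬝ᵥ u := fun y k l hy c => by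
    have y0 : y ≠ 0 := fun e => by simp [e] at hy
    obtain ⟨g, g1, g2, g3⟩ := exists_diag he hε h0 (hn ▸ hy)
    obtain ⟨ψ, h6⟩ := h4 g _ _ g1 g2 c
    refine ⟨ψ, fun u hu => ?_⟩
    obtain ⟨d, hd⟩ := g3 u hu
    have := h6 u hu
    rwa [hd, smul_smul, show (y * l)⁻¹ * y = l⁻¹ by field_simp, smul_add, smul_smul,
      h1 _ _ _ (s _ hu) (s _ h0), h2, add_zero, show y * k * (y * l)⁻¹ = k * l⁻¹ by field_simp] at this
  by_cases hy : ∃ y : F, y ≠ 0 ∧ y ^ 3 ≠ 1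
  · obtain ⟨y, y0, y1⟩ := hy
    obtain ⟨ψ, h6⟩ := h5 (y ^ 2) (y ^ 3)⁻¹ (y ^ 3)⁻¹ (by field_simp) c
    rw [mul_inv_cancel₀ (by simpa using y0), inv_inv, one_mul] at h6
    have n0 : y ^ 3 + 1 ≠ 0 := fun e => y1 (CharTwo.add_eq_zero.1 e)
    have h7 : ∀ a : F, κ c (a • u) = a * ((y ^ 3 + 1)⁻¹ * ψ ⬝ᵥ u) := fun a => by
      have h8 := s (a * (y ^ 3 + 1)⁻¹) hu
      have := h1 c _ _ (s (y ^ 3) h8) h8
      rw [h6 _ h8, ← one_smul F (_ • u), smul_smul (y ^ 3), ← add_smul, mul_one, smul_smul, one_smul,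
        show (y ^ 3 + 1) * (a * (y ^ 3 + 1)⁻¹) = a by field_simp] at this
      rw [this, dotProduct_smul, smul_eq_mul]
      linear_combination CharTwo.add_self_eq_zero (κ c ((a * (y ^ 3 + 1)⁻¹) • u))
    rw [h7, ← one_smul F u, h7, one_mul, one_smul]
  push Not at hy
  obtain ⟨ω, ω0, ω1⟩ := exists_ne01 (h.hq.resolve_right (by omega))
  have ω3 := hy ω ω0
  have two : (2 : F) = 0 := CharTwo.two_eq_zero
  have ω2 : ω * ω = ω + 1 := mul_left_cancel₀ (sub_ne_zero.2 ω1) (by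
    linear_combination ω3 - (ω ^ 2 - 1) * two)
  have ωi : ω⁻¹ = ω * ω := inv_eq_of_mul_eq_one_right (by linear_combination ω3)
  let D : F → (ι → F) → F := fun c u => κ c (ω • u) + ω * κ c u
  have d1 : ∀ c u, ε ⬝ᵥ u = 0 → D c (ω • u) = ω * ω * D c u := fun c u hu => by
    simp only [D]
    rw [smul_smul, ω2, add_smul, one_smul, h1 c _ _ (s _ hu) hu]
    linear_combination (-κ c u) * ω2 - ω * κ c u * two
  have d2 : ∀ c, D (ω * c) u = D c u := fun c => by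
    obtain ⟨ψ, h6⟩ := h5 1 (ω * ω) ω (by linear_combination ω3) c
    rw [show ω * ω * ω⁻¹ = ω by field_simp, ωi] at h6
    have h7 : D (ω * c) (ω • ω • u) = ω * D c u := by
      simp only [D]
      rw [smul_smul ω ω (ω • u), smul_smul ω ω u, h6 _ (s _ hu), h6 _ hu, dotProduct_smul, smul_eq_mul]
      linear_combination ω * ψ ⬝ᵥ u * two
    rw [d1 _ _ (s _ hu), d1 _ _ hu] at h7
    exact mul_left_cancel₀ ω0 (by linear_combination h7 - ω * D (ω * c) u * ω3)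
  have d3 : ∀ u, ε ⬝ᵥ u = 0 → D (ω * c + c) u = D (ω * c) u + D c u := fun u hu => by
    obtain ⟨ψ, h6⟩ := h3 (ω * c) c
    simp only [D]
    rw [h6 _ (s _ hu), h6 _ hu, dotProduct_smul, smul_eq_mul]
    linear_combination ω * ψ ⬝ᵥ u * two
  have d4 : D c u = 0 := by
    have := d3 u hu
    rwa [show ω * c + c = ω * (ω * c) by linear_combination (-c) * ω2, d2, left_eq_add] at this
  have d5 := d1 c u hu
  rw [d4, mul_zero] at d5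
  replace d4 := CharTwo.add_eq_zero.1 d4
  by_cases a0 : a = 0
  · simpa [a0] using h2 c 0
  have : (a - 1) * (a - ω) * (a - ω * ω) = 0 := by
    linear_combination hy a a0 + (a - 1) * ω3 + (a - a ^ 2) * ω2 + (a - a ^ 2) * (ω + 1) * two
  simp only [mul_eq_zero, sub_eq_zero] at this
  rcases this with (rfl | rfl) | rfl
  · simp
  · exact d4
  · rw [← smul_smul, CharTwo.add_eq_zero.1 d5, d4, mul_assoc]

theorem Wc_conj {V : Subgroup G} {x : G} (hx : x ∈ 𝐍[V]) (xt : t * x = x * t) (hw : w ∈ Wc V t) :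
    x * w * x⁻¹ ∈ Wc V t := by
  have e : t = x * t * x⁻¹ := eq_mul_inv_of_mul_eq xt
  refine ⟨by rw [conj_mul, hw.1]; simp, fun v hv => ?_, ?_, fun c => hw.2.2.2 ?_⟩
  · rw [show v = x * (x⁻¹ * v * x) * x⁻¹ by group, conj_mul, conj_mul,
      hw.2.1 _ (inv_conj_mem_of_mem_normalizer hx hv)]
  · rw [e, conj_mul, conj_mul, conj_mul]
    exact conj_mem_of_mem_normalizer hx hw.2.2.1
  · rw [e, conj_mul] at c
    simpa [mul_assoc] using inv_conj_mem_of_mem_normalizer hx c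

theorem cj_dot (hg : g.1 *ᵥ e = a • e) (hφ : φ ⬝ᵥ e = 0) : (a • φ ᵥ* (g⁻¹).1) ⬝ᵥ e = 0 := by
  rw [smul_dotProduct, ← dotProduct_smul, ← hg, dot_conj, hφ]

theorem cjv (hg : g.1 *ᵥ e = a • e) (he : e ≠ 0) (hφ : φ ⬝ᵥ e = 0) :
    r g * r (tv e φ) * (r g)⁻¹ = r (tv e (a • φ ᵥ* (g⁻¹).1)) := by
  rw [← map_inv, ← map_mul, ← map_mul, tv_conj, hg, tv_smul]
  simpa [ne_zero_of_mulVec he hg] using cj_dot hg hφ

theorem fix_e (h0 : ε ⬝ᵥ e = 0) (hu : ε ⬝ᵥ u = 0) : (tv u ε).1 *ᵥ e = (1 : F) • e := by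
  simp [tv_mulVec hu, h0]

theorem cjs (he : e ≠ 0) (h0 : ε ⬝ᵥ e = 0) (hu : ε ⬝ᵥ u = 0) (hφ : φ ⬝ᵥ e = 0) :
    r (tv u ε) * r (tv e φ) * (r (tv u ε))⁻¹ = r (tv e ((φ ⬝ᵥ u) • ε)) * r (tv e φ) := by
  rw [cjv (fix_e h0 hu) he hφ, tv_inv, vecMul_tv hu, one_smul, add_comm, tv_add (by simp [h0]) hφ,
    map_mul]

theorem inj (h : Rp r) (he : e ≠ 0) (hφ : φ ⬝ᵥ e = 0) (hψ : ψ ⬝ᵥ e = 0)
    (c : r (tv e φ) = r (tv e ψ)) : φ = ψ := tv_inj he hφ hψ (A.eq_of h (tv_sq _ _) (tv_sq _ _) c)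

variable (r t e) in
/-- `w ∈ W` translates `t` by `tv e ψ` -/
structure R (w : G) (ψ : ι → F) : Prop where
  mem : w ∈ Wg (Vg r e) t
  dot : ψ ⬝ᵥ e = 0
  eq : w * t * w * t = r (tv e ψ)

variable (h : Ds r t) (he : e ≠ 0)
include h he

theorem wc (hw : w ∈ Wg (Vg r e) t) : w ∈ Wc (Vg r e) t := ((h.dbl e he).mem w).1 hw

theorem sq (hw : w ∈ Wg (Vg r e) t) : w * w = 1 := (wc h he hw).1

theorem com (hw : w ∈ Wg (Vg r e) t) (hw' : w' ∈ Wg (Vg r e) t) : w * w' = w' * w :=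
  (h.dbl e he).com w hw w' hw'

theorem exR (hw : w ∈ Wg (Vg r e) t) : ∃ ψ, R r t e w ψ :=
  let ⟨ψ, a, b⟩ := mem_Vg.1 (wc h he hw).2.2.1; ⟨ψ, hw, a, b.symm⟩

theorem surR (hψ : ψ ⬝ᵥ e = 0) : ∃ w, R r t e w ψ :=
  let ⟨w, a, b⟩ := (h.dbl e he).sur _ (mem_Vg.2 ⟨ψ, hψ, rfl⟩); ⟨w, a, hψ, b⟩

omit he in
theorem RV (hφ : φ ⬝ᵥ e = 0) : R r t e (r (tv e φ)) 0 := by
  have m : r (tv e φ) ∈ Vg r e := mem_Vg.2 ⟨φ, hφ, rfl⟩
  have c : r (tv e φ) * t * r (tv e φ) * t = 1 := by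
    rw [mul_assoc _ t, h.tc, ← mul_assoc, el_Vg e _ m, one_mul, h.tt]
  refine ⟨subset_closure ⟨el_Vg e _ m, fun v hv => (el_Vg e).comm m hv, c ▸ one_mem _, fun c => ?_⟩,
    by simp, by rw [c, tv_zero, map_one]⟩
  obtain ⟨x, -, hx⟩ := (mul_mem_cancel_left m).1 c
  exact h.notMem ⟨x, hx⟩

theorem R.mul (a : R r t e w ψ) (b : R r t e w' ψ') : R r t e (w * w') (ψ + ψ') := by
  refine ⟨mul_mem a.mem b.mem, by simp [a.dot, b.dot], ?_⟩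
  have e1 : w' * t * w' = r (tv e ψ') * t := by rw [← b.eq, mul_assoc _ t t, h.tt, mul_one]
  rw [add_comm, tv_add b.dot a.dot, map_mul, ← a.eq, mul_assoc _ (w * w'), com h he a.mem b.mem,
    show w' * w * t * (w' * w * t) = w' * w * w'⁻¹ * (w' * t * w') * w * t by group, e1,
    ← com h he a.mem b.mem, mul_inv_cancel_right, ← mul_assoc w, com h he a.mem (RV h b.dot).mem]
  group

theorem R.ker (a : R r t e w 0) : ∃ φ, φ ⬝ᵥ e = 0 ∧ r (tv e φ) = w := by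
  have c := wc h he a.mem
  have e1 := a.eq
  rw [tv_zero, map_one, mul_assoc] at e1
  refine mem_Vg.1 ((h.cent_V_sq ?_ c.1 he c.2.1).resolve_right c.2.2.2)
  rw [eq_inv_of_mul_eq_one_left e1, _root_.mul_inv_rev, inv_eq_of_mul_eq_one_left c.1,
    inv_eq_of_mul_eq_one_left h.tt]

theorem R.div (a : R r t e w ψ) (b : R r t e w' ψ) : ∃ φ, φ ⬝ᵥ e = 0 ∧ w = r (tv e φ) * w' := by
  obtain ⟨φ, c, d⟩ := (vadd_self ψ ▸ a.mul h he b).ker h he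
  exact ⟨φ, c, by rw [d, mul_assoc, sq h he b.mem, mul_one]⟩

theorem R.cj (hg : g.1 *ᵥ e = a • e) (c : R r t e w ψ) :
    R r t e (r g * w * (r g)⁻¹) (a • ψ ᵥ* (g⁻¹).1) := by
  refine ⟨subset_closure (Wc_conj (mem_normalizer_of_cj_le ?_) (h.tc g) (wc h he c.mem)),
    cj_dot hg c.dot, ?_⟩
  · rintro _ ⟨v, hv, rfl⟩
    obtain ⟨φ, h1, rfl⟩ := mem_Vg.1 hv
    exact mem_Vg.2 ⟨_, cj_dot hg h1, (cjv hg he h1).symm⟩
  · rw [← cjv hg he c.dot, ← c.eq]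
    nth_rewrite 1 2 [eq_mul_inv_of_mul_eq (h.tc g)]
    group

theorem R.cs (h0 : ε ⬝ᵥ e = 0) (hu : ε ⬝ᵥ u = 0) (c : R r t e w ψ) :
    R r t e (r (tv u ε) * w * (r (tv u ε))⁻¹ * w) ((ψ ⬝ᵥ u) • ε) := by
  have := (c.cj h he (fix_e h0 hu)).mul h he c
  rwa [tv_inv, vecMul_tv hu, one_smul, add_right_comm, vadd_self, zero_add] at this

theorem exK (h0 : ε ⬝ᵥ e = 0) (hu : ε ⬝ᵥ u = 0) (c : R r t e w (a • ε)) :
    ∃ k : F, r (tv u ε) * w * (r (tv u ε))⁻¹ = r (tv e (k • ε)) * w := by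
  by_cases h1 : ∃ d : F, u = d • e
  · obtain ⟨d, rfl⟩ := h1
    refine ⟨0, ?_⟩
    rw [tv_smul _ h0, ← com h he c.mem (RV h (by simp [h0])).mem]
    simp [tv_zero]
  obtain ⟨θ, θ1, θ2⟩ := exists_dot1 (not_exists.1 h1)
  obtain ⟨y, hy⟩ := surR h he (ψ := a • θ) (by simp [θ2])
  have h2 := hy.cs h he h0 hu
  rw [smul_dotProduct, θ1, smul_eq_mul, mul_one] at h2
  obtain ⟨φ, φ0, rfl⟩ := c.div h he h2
  refine ⟨φ ⬝ᵥ u, ?_⟩
  rw [← conj_mul, cjs he h0 hu φ0, mul_assoc, ← conj_mul,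
    ← com h he hy.mem (hy.cj h he (fix_e h0 hu)).mem]
  congr 3
  rw [← map_inv, tv_inv, ← mul_assoc, ← mul_assoc, ← map_mul, tv_sq, map_one, one_mul, mul_assoc,
    ← map_mul, tv_sq, map_one, mul_one]

end Hat

open Hat in
theorem Ds.cov (h : Ds r t) {e ε : ι → F} (he : e ≠ 0) (hε : ε ≠ 0) (h0 : ε ⬝ᵥ e = 0) (c : F) :
    ∃ x ∈ Wg (Vg r e) t ⊓ Wg (Vg (StdL.du r) ε) t, x * t * x * t = r (tv e (c • ε)) := by
  have s0 : ∀ a : F, (a • ε) ⬝ᵥ e = 0 := fun a => by simp [h0]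
  choose w hw using fun c => surR h he (s0 c)
  have ex : ∀ c u, ∃ k : F, ε ⬝ᵥ u = 0 →
      r (tv u ε) * w c * (r (tv u ε))⁻¹ = r (tv e (k • ε)) * w c := fun c u => by
    by_cases hu : ε ⬝ᵥ u = 0
    · exact (exK h he h0 hu (hw c)).imp fun _ a _ => a
    · exact ⟨0, fun a => absurd a hu⟩
  choose κ hκ using ex
  have Z : ∀ a b : F, r (tv e ((a + b) • ε)) = r (tv e (a • ε)) * r (tv e (b • ε)) := fun a b => by
    rw [add_smul, tv_add (s0 a) (s0 b), map_mul]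
  have un : ∀ {c u} {k : F}, ε ⬝ᵥ u = 0 →
      r (tv u ε) * w c * (r (tv u ε))⁻¹ = r (tv e (k • ε)) * w c → κ c u = k := fun hu e1 =>
    smul_left_injective F hε (inj h.toRp he (s0 _) (s0 _)
      (mul_right_cancel ((hκ _ _ hu).symm.trans e1)))
  have cv : ∀ {c u φ}, ε ⬝ᵥ u = 0 → φ ⬝ᵥ e = 0 →
      r (tv u ε) * (r (tv e φ) * w c) * (r (tv u ε))⁻¹ =
        r (tv e ((κ c u + φ ⬝ᵥ u) • ε)) * (r (tv e φ) * w c) := fun {c u φ} hu φ0 => by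
    rw [← conj_mul, cjs he h0 hu φ0, hκ _ _ hu, add_comm, Z, mul_assoc, mul_assoc,
      ← mul_assoc (r (tv e φ)), com h he (RV h φ0).mem (RV h (s0 _)).mem, mul_assoc]
  have ind : ∀ {c x}, R r t e x (c • ε) → ∃ ψ, ∀ u (k : F), ε ⬝ᵥ u = 0 →
      r (tv u ε) * x * (r (tv u ε))⁻¹ = r (tv e (k • ε)) * x → κ c u = k + ψ ⬝ᵥ u := fun hx => by
    obtain ⟨φ, φ0, rfl⟩ := hx.div h he (hw _)
    refine ⟨φ, fun u k hu e1 => ?_⟩
    rw [← smul_left_injective F hε (inj h.toRp he (s0 _) (s0 _)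
      (mul_right_cancel ((cv hu φ0).symm.trans e1))), add_assoc, CharTwo.add_self_eq_zero, add_zero]
  have h1 : ∀ c u v, ε ⬝ᵥ u = 0 → ε ⬝ᵥ v = 0 → κ c (u + v) = κ c u + κ c v := fun c u v hu hv =>
    un (by simp [hu, hv]) (by
      rw [add_tv hu hv, map_mul, show ∀ a b x : G, a * b * x * (a * b)⁻¹ = a * (b * x * b⁻¹) * a⁻¹
        from fun a b x => by group, hκ _ _ hv, cv hu (s0 _), Z, Z]
      simp [hu, tv_zero, mul_assoc])
  have h2 : ∀ c (a : F), κ c (a • e) = 0 := fun c a => un (by simp [h0]) (by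
    rw [tv_smul _ h0, ← com h he (hw c).mem (RV h (s0 a)).mem]
    simp [tv_zero])
  have h3 := fun a u => lin (u := u) h.toRp he hε h0 h1 h2 (fun c c' => by
    obtain ⟨ψ, h3⟩ := ind (add_smul c c' ε ▸ (hw c).mul h he (hw c'))
    refine ⟨ψ, fun u hu => h3 u _ hu ?_⟩
    rw [← conj_mul, hκ _ _ hu, hκ _ _ hu, Z, mul_assoc, mul_assoc, ← mul_assoc (w c),
      com h he (hw c).mem (RV h (s0 _)).mem, mul_assoc]) (fun g a b g1 g2 c => by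
    have b0 : b ≠ 0 := fun c => hε (by simpa [g2, c] using (vecMul_vecMul_inv g ε).symm)
    have g3 := vecMul_inv_smul b0 g2
    have g4 : ∀ k : F, a • (k • ε) ᵥ* (g⁻¹).1 = (a * b⁻¹ * k) • ε := fun k => by
      rw [smul_vecMul, g3]; module
    obtain ⟨ψ, h3⟩ := ind (g4 c ▸ (hw c).cj h he g1)
    refine ⟨b⁻¹ • ψ ᵥ* g.1, fun u hu => ?_⟩
    have g5 : ε ⬝ᵥ g.1 *ᵥ u = 0 := by simp [← vecMul_dot, g2, hu]
    rw [h3 _ (a * b⁻¹ * κ c u) (by simp [g5]), smul_dotProduct, dotProduct_smul, vecMul_dot]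
    rw [tv_smul _ g5, ← g3, ← tv_conj, ← g4, ← cjv g1 he (s0 _), conj_mul, ← hκ _ _ hu]
    simp only [map_mul, map_inv]
    group) c a
  obtain ⟨y, hy⟩ := exists_dot0 hε
  rw [dotProduct_comm] at hy
  have p0 : ∀ v, ε ⬝ᵥ (v + (ε ⬝ᵥ v) • y) = 0 := fun v => by simp [hy, CharTwo.add_self_eq_zero]
  obtain ⟨φ, hφ⟩ := (dotProductEquiv F ι).surjective
    { toFun := fun v => κ c (v + (ε ⬝ᵥ v) • y)
      map_add' := fun u v => by
        rw [← h1 _ _ _ (p0 u) (p0 v), dotProduct_add, add_smul, add_add_add_comm]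
      map_smul' := fun a v => by
        rw [RingHom.id_apply, smul_eq_mul, ← h3 a _ (p0 v), smul_add, smul_smul, dotProduct_smul,
          smul_eq_mul] }
  have h4 : ∀ u, ε ⬝ᵥ u = 0 → φ ⬝ᵥ u = κ c u := fun u hu => by
    simpa [hu] using LinearMap.congr_fun hφ u
  have φ0 : φ ⬝ᵥ e = 0 := by simpa [h4 e h0] using h2 c 1
  have hx := (RV h φ0).mul h he (hw c)
  rw [zero_add] at hx
  have h5 : ∀ v ∈ Vg (StdL.du r) ε, r (tv e φ) * w c * v = v * (r (tv e φ) * w c) := fun v hv => by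
    obtain ⟨u, hu, rfl⟩ := mem_Vg'.1 hv
    rw [eq_comm, ← mul_inv_eq_iff_eq_mul, cv hu φ0, h4 u hu, CharTwo.add_self_eq_zero]
    simp [tv_zero]
  refine ⟨_, ⟨hx.mem, subset_closure ⟨sq h he hx.mem, h5, mem_Vg'.2 ⟨c • e, by simp [h0], by
    rw [hx.eq, tv_smul _ h0]⟩, fun m => ?_⟩⟩, hx.eq⟩
  obtain ⟨u, hu, e1⟩ := mem_Vg'.1 m
  refine (wc h he hx.mem).2.2.2 ?_
  obtain ⟨a, rfl⟩ := smul_of_dot (e := e) (u := u) fun θ hθ => by
    have e2 := cjs (r := r) he h0 hu hθ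
    rw [e1, mul_assoc _ t, h.tc, ← mul_assoc, com h he hx.mem (RV h hθ).mem, mul_assoc (r _),
      mul_inv_cancel_right, eq_comm, mul_eq_right, ← map_one r, ← tv_zero e] at e2
    simpa [hε] using inj h.toRp he (s0 _) (by simp) e2
  exact mem_Vg.2 ⟨_, s0 a, by rw [← tv_smul _ h0, e1]⟩

end Cfsg.Agent.StdL
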