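import Cfsg.Agent.StdL.HatA

/-! The doubled groups of an incident point and hyperplane normalise each other. -/

set_option autoImplicit false
set_option linter.unusedSectionVars false

namespace Cfsg.Agent.StdL

open Matrix Subgroup Cfsg.Agent.LnT Cfsg.Agent.PLocal.Amb
open scoped commutatorElement

variable {F ι G : Type*} [Field F] [Fintype ι] [DecidableEq ι] [Group G]

namespace HB

variable {V : Subgroup G} {t g w x : G}

theorem cc (h : g * g = 1) (y : G) : g * (g * y) = y := by rw [← mul_assoc, h, one_mul]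

theorem sw (h : g * w = w * g) (y : G) : g * (w * y) = w * (g * y) := by
  rw [← mul_assoc, h, mul_assoc]

theorem Wc_conj (gg : g * g = 1) (gt : g * t = t * g) (gV : ∀ v ∈ V, g * v * g ∈ V)
    (hw : w ∈ Wc V t) : g * w * g ∈ Wc V t := by
  obtain ⟨h1, h2, h3, h4⟩ := hw
  refine ⟨by simp [mul_assoc, cc gg, cc h1, gg], fun v hv => ?_, ?_, fun c => h4 ?_⟩
  · simpa [mul_assoc, cc gg, gg] using congrArg (fun y => g * y * g) (h2 _ (gV v hv))
  · simpa only [mul_assoc, sw gt, cc gg, gt] using gV _ h3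
  · simpa [mul_assoc, cc gg, gg, gt] using gV _ c

theorem th_mul (h : Dbl V t) (tt : t * t = 1) (hw : w ∈ Wg V t) (hx : x ∈ Wg V t) :
    w * x * t * (w * x) * t = x * t * x * t * (w * t * w * t) := by
  rw [← mul_assoc _ _ t, ← mul_assoc _ _ w, ← mul_assoc _ _ t,
    ← ((h.mem w).1 hw).2.1 _ ((h.mem x).1 hx).2.2.1, h.com w hw x hx, ← mul_assoc, h.com x hx w hw]
  simp [mul_assoc, cc tt]

theorem D_mul (gg : g * g = 1) (h : w * (g * x * g) = g * x * g * w) :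
    g * (w * x) * g * (w * x) = g * w * g * w * (g * x * g * x) := by
  rw [mul_assoc _ w, ← mul_assoc w, h]
  simp only [mul_assoc, cc gg]

theorem D_comm (gg : g * g = 1) (xx : x * x = 1) (h : g * x = x * g)
    (c : g * w * g * (x * w * x) = x * w * x * (g * w * g)) :
    g * (x * w * x * w) * g * (x * w * x * w) = x * (g * w * g * w) * x * (g * w * g * w) := by
  simpa only [mul_assoc, cc gg, cc xx, sw h] using congrArg (fun y => x * g * w * x * g * y * w) c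

variable [CharP F 2] {r : SpecialLinearGroup ι F →* G} {e ε a f φ : ι → F}

theorem rsq (a f : ι → F) : r (tv a f) * r (tv a f) = 1 := by rw [← map_mul, tv_sq, map_one]

theorem cjV (h : f ⬝ᵥ a = 0) (h1 : f ⬝ᵥ e = 0) (φ : ι → F) :
    r (tv a f) * r (tv e φ) * r (tv a f) = r (tv e (φ + (φ ⬝ᵥ a) • f)) := by
  have := tv_conj (tv a f) e φ
  rw [tv_inv, tv_mulVec h, vecMul_tv h, h1, zero_smul, add_zero] at this
  rw [← map_mul, ← map_mul, this]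

theorem cmV (h : f ⬝ᵥ a = 0) (h1 : f ⬝ᵥ e = 0) (h2 : φ ⬝ᵥ e = 0) :
    r (tv a f) * r (tv e φ) * r (tv a f) * r (tv e φ) = r (tv e ((φ ⬝ᵥ a) • f)) := by
  rw [cjV h h1, ← map_mul, ← tv_add (by simp [h1, h2]) h2, add_comm φ, add_assoc, vadd_self, add_zero]

theorem nV (h : f ⬝ᵥ a = 0) (h1 : f ⬝ᵥ e = 0) : ∀ v ∈ Vg r e, r (tv a f) * v * r (tv a f) ∈ Vg r e := by
  intro v hv
  obtain ⟨φ, h2, rfl⟩ := mem_Vg.1 hv
  exact mem_Vg.2 ⟨_, by simp [h1, h2], (cjV h h1 φ).symm⟩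

theorem zV (h0 : ε ⬝ᵥ e = 0) (c : F) : r (tv e (c • ε)) ∈ Vg r e := mem_Vg.2 ⟨_, by simp [h0], rfl⟩

theorem zV' (h0 : ε ⬝ᵥ e = 0) (c : F) : r (tv e (c • ε)) ∈ Vg (du r) ε :=
  mem_Vg'.2 ⟨c • e, by simp [h0], by rw [tv_smul _ h0]⟩

variable [Finite F] (h : Ds r t) (he : e ≠ 0)
include h he

theorem mW : w ∈ Wg (Vg r e) t ↔ w ∈ Wc (Vg r e) t := (h.dbl e he).mem w

theorem sq (hw : w ∈ Wg (Vg r e) t) : w * w = 1 := ((mW h he).1 hw).1

omit he in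
theorem tV (hw : w ∈ Vg r e) : w * t = t * w := by
  obtain ⟨x, -, rfl⟩ := hw
  exact (h.tc x).symm

omit he in
theorem VW (hw : w ∈ Vg r e) : w ∈ Wg (Vg r e) t := subset_closure ⟨el_Vg e w hw,
  fun _ hv => (el_Vg e).comm hw hv, by
    rw [tV h hw, mul_assoc t, el_Vg e w hw, mul_one, h.tt]; exact one_mem _, fun c =>
  h.notMem (map_le_range _ _ ((mul_mem_cancel_left hw).1 c))⟩

theorem ker (hw : w ∈ Wg (Vg r e) t) (c : w * t = t * w) : w ∈ Vg r e :=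
  (h.cent_V_sq c (sq h he hw) he ((mW h he).1 hw).2.1).resolve_right ((mW h he).1 hw).2.2.2

theorem ker' (hw : w ∈ Wg (Vg r e) t) (hx : x ∈ Wg (Vg r e) t) (c : w * t * w * t = x * t * x * t) :
    x * w ∈ Vg r e := ker h he (mul_mem hx hw) (by
  simpa [mul_assoc, cc (sq h he hx), sq h he hw] using
    congrArg (fun y => x * y * w) (mul_right_cancel c))

theorem nW (h1 : f ⬝ᵥ a = 0) (h2 : f ⬝ᵥ e = 0) (hw : w ∈ Wg (Vg r e) t) :
    r (tv a f) * w * r (tv a f) ∈ Wg (Vg r e) t :=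
  subset_closure (Wc_conj (rsq a f) (h.tc _).symm (nV h1 h2) ((mW h he).1 hw))

theorem tW (hw : w ∈ Wg (Vg r e) t) : t * w * t ∈ Wg (Vg r e) t := by
  simpa [mul_assoc, cc (sq h he hw)] using mul_mem hw (VW h ((mW h he).1 hw).2.2.1)

omit he in
theorem th_conj (a f : ι → F) (w : G) :
    r (tv a f) * w * r (tv a f) * t * (r (tv a f) * w * r (tv a f)) * t =
      r (tv a f) * (w * t * w * t) * r (tv a f) := by
  simp only [mul_assoc, ← h.tc, cc (rsq a f)]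

variable [Finite G] (hε : ε ≠ 0) (h0 : ε ⬝ᵥ e = 0)
include hε h0

omit he hε in
theorem zX (c : F) : r (tv e (c • ε)) ∈ Wg (Vg r e) t ⊓ Wg (Vg (du r) ε) t :=
  ⟨VW h (zV h0 c), VW h.du (zV' h0 c)⟩

theorem dec (ha : ε ⬝ᵥ a = 0) (hw : w ∈ Wg (Vg r e) t) : ∃ x ∈ Wg (Vg r e) t ⊓ Wg (Vg (du r) ε) t,
    ∃ φ, φ ⬝ᵥ e = 0 ∧ r (tv a ε) * w * r (tv a ε) * w = x * r (tv e φ) ∧ ∀ u, ε ⬝ᵥ u = 0 →
      r (tv u ε) * (x * r (tv e φ)) * r (tv u ε) * (x * r (tv e φ)) = r (tv e ((φ ⬝ᵥ u) • ε)) := by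
  obtain ⟨ψ, h1, h2⟩ := mem_Vg.1 ((mW h he).1 hw).2.2.1
  obtain ⟨x, hx, h3⟩ := h.cov he hε h0 (ψ ⬝ᵥ a)
  have h4 := nW h he ha h0 hw
  obtain ⟨φ, h5, h6⟩ := mem_Vg.1 (ker' h he (mul_mem h4 hw) hx.1 (by
    rw [th_mul (h.dbl e he) h.tt h4 hw, th_conj h, h3, ← h2, ← cmV ha h0 h1,
      (el_Vg e).comm (nV ha h0 _ (mem_Vg.2 ⟨ψ, h1, rfl⟩)) (mem_Vg.2 ⟨ψ, h1, rfl⟩)]))
  refine ⟨x, hx, φ, h5, by rw [h6, cc (sq h he hx.1)], fun u hu => ?_⟩
  have h7 := ((mW h.du hε).1 hx.2).2.1 _ (mem_Vg'.2 ⟨u, hu, rfl⟩)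
  have h8 := ((mW h he).1 hx.1).2.1 _ (mem_Vg.2 ⟨φ, h5, rfl⟩)
  rw [← cmV hu h0 h5]
  simp only [mul_assoc, ← sw h7, ← sw h8, cc (sq h he hx.1)]

theorem zero {c : F} (hc : r (tv e (c • ε)) = 1) : c = 0 := by
  by_contra h1
  exact h.tv_ne_one (by simp [h0]) he (smul_ne_zero h1 hε) hc

theorem perp (ha : ε ⬝ᵥ a = 0) (hf : f ⬝ᵥ a = 0) (hw : w ∈ Wg (Vg r e) t) (h1 : f ⬝ᵥ e = 0)
    (h2 : r (tv e f) = w * t * w * t) :
    r (tv a ε) * w * r (tv a ε) * w ∈ Wg (Vg r e) t ⊓ Wg (Vg (du r) ε) t := by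
  by_cases h3 : ∃ c : F, a = c • e
  · obtain ⟨c, rfl⟩ := h3
    rw [tv_smul _ h0, ← ((mW h he).1 hw).2.1 _ (zV h0 c), mul_assoc w, rsq, mul_one, sq h he hw]
    exact one_mem _
  obtain ⟨ψ, h4, h5⟩ := exists_dot1 (not_exists.1 h3)
  obtain ⟨y, hy, h6⟩ := (h.dbl e he).sur _ (mem_Vg.2 ⟨ψ, h5, rfl⟩)
  obtain ⟨x, hx, φ, h7, h8, h9⟩ := dec h he hε h0 ha hy
  have k1 := nW h he hf h1 hy
  have k2 : φ ⬝ᵥ a = 0 := zero h he hε h0 (by
    rw [← h9 a ha, ← h8]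
    simp only [mul_assoc, cc (rsq a ε), cc (sq h he hy), sq h he hy])
  have k3 := mul_mem hy k1
  obtain ⟨χ, k4, k5⟩ := mem_Vg.1 (ker' h he hw k3 (by
    rw [th_mul (h.dbl e he) h.tt hy k1, th_conj h, h6, cmV hf h1 h5, h4, one_smul, h2]))
  have k6 := VW h (mem_Vg.2 ⟨χ, k4, rfl⟩)
  have k7 : r (tv a f) * r (tv a ε) = r (tv a ε) * r (tv a f) := by
    rw [← map_mul, ← map_mul, tv_comm_tv hf ha hf ha]
  have k8 : r (tv a f) * x * r (tv a f) ∈ Wg (Vg (du r) ε) t := by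
    simpa only [du_tv] using nW (a := f) (f := a) h.du hε (dotProduct_comm f a ▸ hf)
      (dotProduct_comm ε a ▸ ha) hx.2
  have c := (h.dbl e he).com
  have k9 := cjV (r := r) hf h1 φ
  rw [k2, zero_smul, add_zero] at k9
  have k0 : r (tv a ε) * (r (tv a f) * y * r (tv a f)) * r (tv a ε) * (r (tv a f) * y * r (tv a f)) =
      r (tv e φ) * (r (tv a f) * x * r (tv a f)) := by
    rw [c _ (VW h (mem_Vg.2 ⟨φ, h7, rfl⟩)) _ (nW h he hf h1 hx.1), ← k9]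
    simpa only [mul_assoc, cc (rsq a f), sw k7] using
      congrArg (fun y => r (tv a f) * y * r (tv a f)) h8
  rw [← cc (sq h he k3) w, ← k5, D_mul (rsq a ε) (c _ k3 _ (nW h he ha h0 k6)), cmV ha h0 k4,
    D_mul (rsq a ε) (c _ hy _ (nW h he ha h0 k1)), h8, k0, mul_assoc x, cc (rsq e φ)]
  exact mul_mem (mul_mem hx ⟨nW h he hf h1 hx.1, k8⟩) (zX h h0 _)

theorem cmE (hw : w ∈ Wg (Vg r e) t) (hg : g ∈ Vg (du r) ε) :
    g * w * g * w ∈ Wg (Vg r e) t ⊓ Wg (Vg (du r) ε) t := by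
  obtain ⟨u, hu, rfl⟩ := mem_Vg'.1 hg
  obtain ⟨f, h1, h2⟩ := mem_Vg.1 ((mW h he).1 hw).2.2.1
  by_cases h3 : f ⬝ᵥ u = 0
  · exact perp h he hε h0 hu h3 hw h1 h2
  obtain ⟨x, hx, φ, h4, h5, h6⟩ := dec h he hε h0 hu hw
  have k : ∀ a, ε ⬝ᵥ a = 0 → a = u ∨ f ⬝ᵥ a = 0 → φ ⬝ᵥ a = 0 := fun a ha c => zero h he hε h0 (by
    rw [← h6 a ha, ← h5]
    rcases c with rfl | c
    · simp only [mul_assoc, cc (rsq a ε), cc (sq h he hw), sq h he hw]
    have k1 := perp h he hε h0 ha c hw h1 h2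
    have k2 := ((mW h.du hε).1 k1.2).2.1 _ hg
    have k3 : r (tv a ε) * r (tv u ε) = r (tv u ε) * r (tv a ε) :=
      (el_Vg ε).comm (mem_Vg'.2 ⟨a, ha, rfl⟩) hg
    rw [D_comm (rsq a ε) (rsq u ε) k3 ((h.dbl e he).com _ (nW h he ha h0 hw) _ (nW h he hu h0 hw)),
      ← k2, mul_assoc _ _ (r (tv u ε)), rsq, mul_one, sq h he k1.1])
  obtain ⟨c, rfl⟩ := smul_of_dot (e := ε) (u := φ) fun a ha => by
    rw [dotProduct_comm] at ha ⊢
    have := k (a - (f ⬝ᵥ a / f ⬝ᵥ u) • u) (by simp [ha, hu]) (Or.inr (by simp [h3]))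
    simpa [k u hu (Or.inl rfl)] using this
  rw [h5]
  exact mul_mem hx (zX h h0 c)

theorem nrm (hx : x ∈ Wg (Vg (du r) ε) t) (hw : w ∈ Wg (Vg r e) t) :
    x * w * x ∈ Wg (Vg r e) t := by
  have xx := sq h.du hε hx
  have h0' : e ⬝ᵥ ε = 0 := dotProduct_comm ε e ▸ h0
  have k1 : ∀ v ∈ Vg r e, v * x * v * x ∈ Wg (Vg r e) t ⊓ Wg (Vg (du r) ε) t := fun v hv => by
    have := cmE h.du hε he h0' hx (g := v) (by rwa [du_du])
    rw [du_du] at this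
    exact this.symm
  have k2 : ∀ v ∈ Vg r e, x * v * x ∈ Wg (Vg r e) t := fun v hv => by
    simpa [mul_assoc, cc (el_Vg e v hv)] using mul_mem (VW h hv) (k1 v hv).1
  obtain ⟨u, hu, h1⟩ := mem_Vg'.1 ((mW h.du hε).1 hx).2.2.1
  have h2 : x * t * x = r (tv u ε) * t := by rw [h1, mul_assoc _ t t, h.tt, mul_one]
  have c := (h.dbl e he).com
  have k3 : ∀ y ∈ Wg (Vg r e) t, y * (r (tv u ε) * t) = r (tv u ε) * t * y →
      x * y * x ∈ Vg r e := fun y hy c1 => by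
    have a1 := inv_mem (mem_inf.1 (cmE h he hε h0 hy (mem_Vg'.2 ⟨u, hu, rfl⟩))).2
    obtain ⟨φ, b1, b2⟩ := mem_Vg.1 ((mW h he).1 hy).2.2.1
    rw [show (r (tv u ε) * y * r (tv u ε) * y)⁻¹ = y * t * y * t from inv_eq_of_mul_eq_one_right (by
      rw [← mul_assoc] at c1
      simpa [mul_assoc, cc (sq h he hy), cc (rsq u ε), cc h.tt, h.tt] using
        congrArg (fun s => r (tv u ε) * s * y * t) c1), ← b2] at a1
    obtain ⟨d, rfl⟩ := smul_of_dot (e := ε) (u := φ) fun a ha => by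
      rw [dotProduct_comm] at ha ⊢
      refine zero h he hε h0 ?_
      rw [← cmV ha h0 b1, ← ((mW h.du hε).1 a1).2.1 _ (mem_Vg'.2 ⟨a, ha, rfl⟩), mul_assoc (r (tv e φ)),
        rsq, mul_one, rsq]
    obtain ⟨x0, b3, b4⟩ := h.cov he hε h0 d
    have b5 := ker' h he hy b3.1 (b2.symm.trans b4.symm)
    have b6 := mul_mem b3 (k1 _ b5)
    generalize hv : x0 * y = v at b5 b6
    rw [show x0 * (v * x * v * x) = y * (x * v * x) by
      rw [mul_assoc v, mul_assoc v, ← mul_assoc x0, mul_left_inj, ← hv, cc (sq h he b3.1)]] at b6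
    have b7 : y * (x * v * x) * t = t * (y * (x * v * x)) := by
      have c2 := ((mW h.du hε).1 b6.2).2.1 _ (mem_Vg'.2 ⟨u, hu, rfl⟩)
      refine mul_left_cancel (a := r (tv u ε)) ?_
      rw [← mul_assoc, ← c2, mul_assoc _ _ t, ← mul_assoc _ t, ← mul_assoc _ y, ← c1, ← h2]
      simp only [mul_assoc, cc xx, mul_right_inj]
      simpa only [mul_assoc] using congrArg (· * x) (tV h b5)
    have b8 := ((mW h.du hε).1 hx).2.1 _ (ker h.du hε b6.2 b7)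
    convert mul_mem (ker h he b6.1 b7) (inv_mem b5) using 1
    rw [eq_mul_inv_iff_mul_eq]
    simpa [mul_assoc, xx] using congrArg (· * x) b8
  refine subset_closure ⟨by simp [mul_assoc, cc xx, cc (sq h he hw), xx], fun v hv => ?_, ?_,
    fun a => ?_⟩
  · simpa [mul_assoc, cc xx, xx] using congrArg (fun y => x * y * x) (c _ hw _ (k2 v hv))
  · have a1 := mul_mem hw (nW h he hu h0 (tW h he hw))
    have := k3 _ a1 (by
      conv_lhs => rw [← inv_eq_of_mul_eq_one_left (sq h he a1)]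
      simp [mul_assoc, inv_eq_of_mul_eq_one_left (sq h he hw), inv_eq_of_mul_eq_one_left h.tt,
        inv_eq_of_mul_eq_one_left (rsq (r := r) u ε), ← h.tc, ← sw (h.tc _)])
    rw [← mul_assoc (r _), ← mul_assoc (r _), ← h2, mul_assoc _ t, h.tc, ← h2] at this
    simpa only [mul_assoc, xx, mul_one] using this
  · have a1 := mul_mem hw (k2 _ a)
    have a2 : w * (x * (x * w * x * t) * x) = r (tv u ε) * t := by
      rw [← h2]; simp only [mul_assoc, cc xx, cc (sq h he hw)]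
    rw [a2] at a1
    exact h.notMem ((mul_mem_cancel_left (MonoidHom.mem_range.2 ⟨_, rfl⟩)).1 (map_le_range _ _ (ker h he a1 (by
      rw [mul_assoc, h.tt, ← mul_assoc, h.tc, mul_assoc, h.tt]))))

end HB

open HB in
theorem Ds.hs [CharP F 2] [Finite F] [Finite G] {r : SpecialLinearGroup ι F →* G} {t : G}
    (h : Ds r t) : Hs r t := ⟨h, fun _ _ he hε h0 => h.cov he hε h0, fun e ε he hε h0 a ha b hb => by
  have := nrm h.du hε he (dotProduct_comm ε e ▸ h0) (x := a) (by rwa [du_du]) hb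
  exact mem_inf.2 ⟨by simpa only [mul_assoc] using mul_mem ha (nrm h he hε h0 hb ha),
    mul_mem this hb⟩⟩

end Cfsg.Agent.StdL
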