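import Cfsg.Agent.StdL.Defs
import Cfsg.Agent.K.SL23

/-! Frames adapted to an involution `g = 1 + P Q` of `SL ι F` in characteristic two. -/

set_option autoImplicit false
set_option linter.unusedSectionVars false

namespace Cfsg.Agent.StdL

open Matrix Subgroup Cfsg.Agent.LnT Cfsg.Agent.PLocal.Amb

variable {F ι κ : Type*} [Field F] [Fintype ι] [DecidableEq ι] [Fintype κ] [DecidableEq κ]

theorem od_conj {G : Type*} [Group G] {H : Subgroup G} {g x : G} (hg : g ∈ H) (hx : x ∈ Od H) :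
    g * x * g⁻¹ ∈ Od H := by
  induction hx using closure_induction with
  | mem x hx => exact mem_Od (mul_mem (mul_mem hg hx.1) (inv_mem hg)) (by
      rw [show g * x * g⁻¹ = MulAut.conj g x from rfl, MulEquiv.orderOf_eq]; exact hx.2)
  | one => simp
  | mul a b _ _ ha hb => rw [← conj_mul]; exact mul_mem ha hb
  | inv a _ ha => rw [← conj_inv]; exact inv_mem ha

theorem od_cm {G : Type*} [Group G] {H : Subgroup G} {g x : G} (hg : g ∈ H) (hx : x ∈ Od H) :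
    x * g * x⁻¹ * g⁻¹ ∈ Od H := by
  simpa [mul_assoc] using mul_mem hx (od_conj hg (inv_mem hx))

theorem od_perf {G M : Type*} [Group G] [Group M] [Finite M] (h : commutator M = ⊤) (f : M →* G)
    {H : Subgroup G} (hf : ∀ x, f x ∈ H) (x : M) : f x ∈ Od H := by
  have n : ((Od H).comap f).Normal := ⟨fun a ha b => by
    rw [mem_comap, map_mul, map_mul, map_inv]; exact od_conj (hf b) ha⟩
  have := Fact.mk Nat.prime_two
  have p : IsPGroup 2 (M ⧸ (Od H).comap f) := fun y => by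
    obtain ⟨y, rfl⟩ := QuotientGroup.mk_surjective y
    obtain ⟨k, m, o, e⟩ := Nat.exists_eq_two_pow_mul_odd (orderOf_pos y).ne'
    refine ⟨k, (QuotientGroup.eq_one_iff (y ^ 2 ^ k)).2 (mem_Od (hf _) (o.of_dvd_nat ?_))⟩
    exact orderOf_dvd_of_pow_eq_one (by rw [← map_pow, ← pow_mul, ← e, pow_orderOf_eq_one, map_one])
  have := p.isNilpotent
  by_contra hx
  have : Nontrivial (M ⧸ (Od H).comap f) := ⟨x, 1, fun e => hx ((QuotientGroup.eq_one_iff x).1 e)⟩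
  refine (Group.IsSolvable.commutator_lt_top_of_nontrivial (M ⧸ (Od H).comap f)).ne ?_
  rw [← MonoidHom.range_eq_top.2 (QuotientGroup.mk'_surjective ((Od H).comap f)), MonoidHom.range_eq_map, ← h,
    map_commutator_eq, MonoidHom.range_eq_top.2 (QuotientGroup.mk'_surjective _)]
  rfl

/-- `g = 1 + P Q` with dual frames -/
structure Fr (g : SpecialLinearGroup ι F) (P X : Matrix ι κ F) (Q Ψ : Matrix κ ι F) : Prop where
  N : dl g = P * Q
  QP : Q * P = 0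
  QX : Q * X = 1
  ΨP : Ψ * P = 1
  ΨX : Ψ * X = 0

theorem exists_fr [CharP F 2] {g : SpecialLinearGroup ι F} (g2 : g * g = 1) :
    ∃ (P X : Matrix ι (Fin (rk g)) F) (Q Ψ : Matrix (Fin (rk g)) ι F), Fr g P X Q Ψ := by
  unfold rk
  obtain ⟨V, U, e, ⟨V, rfl⟩, ⟨U, rfl⟩, h⟩ := (dl g).exists_rank_normal_form
  let I : Matrix ι (Fin (dl g).rank) F := (fromRows 1 0).submatrix e id
  let J : Matrix (Fin (dl g).rank) ι F := (fromCols 1 0).submatrix id e
  have IJ : I * J = (fromBlocks 1 0 0 0).submatrix e e := by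
    rw [← submatrix_mul _ _ _ _ _ Function.bijective_id, fromRows_mul_fromCols]; simp
  have JI : J * I = 1 := by
    rw [← submatrix_mul _ _ _ _ _ e.bijective, fromCols_mul_fromRows]; simp
  have N : dl g = (V⁻¹).1 * I * (J * (U⁻¹).1) := by
    rw [Matrix.mul_assoc, ← Matrix.mul_assoc I, IJ, ← h]; simp [Matrix.mul_assoc]
  have a : J * V.1 * ((V⁻¹).1 * I) = 1 := by
    rw [Matrix.mul_assoc, ← Matrix.mul_assoc V.1, V.mul_inv, Matrix.one_mul, JI]
  have b : J * (U⁻¹).1 * (U.1 * I) = 1 := by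
    rw [Matrix.mul_assoc, ← Matrix.mul_assoc _ U.1, U.inv_mul, Matrix.one_mul, JI]
  generalize (V⁻¹).1 * I = P, J * (U⁻¹).1 = Q, J * V.1 = Ψ, U.1 * I = X at *
  have c : Q * P = 0 := by
    have : P * Q * (P * Q) = 0 := N ▸ mext fun x => by rw [← mulVec_mulVec, dl_dl g2, zero_mulVec]
    calc Q * P = Ψ * P * (Q * P) * (Q * X) := by rw [a, b, Matrix.one_mul, Matrix.mul_one]
      _ = Ψ * (P * Q * (P * Q)) * X := by simp only [Matrix.mul_assoc]
      _ = 0 := by rw [this, Matrix.mul_zero, Matrix.zero_mul]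
  exact ⟨P, X, Q, Ψ - Ψ * X * Q, N, c, b, by rw [Matrix.sub_mul, Matrix.mul_assoc, c, a]; simp,
    by rw [Matrix.sub_mul, Matrix.mul_assoc, b]; simp⟩

namespace Fr

variable {g : SpecialLinearGroup ι F} {P X : Matrix ι κ F} {Q Ψ : Matrix κ ι F} (h : Fr g P X Q Ψ)
include h

theorem val : g.1 = 1 + P * Q := by rw [← h.N, dl, add_sub_cancel]

theorem QP' {μ : Type*} (Z : Matrix κ μ F) : Q * (P * Z) = 0 := by
  rw [← Matrix.mul_assoc, h.QP, Matrix.zero_mul]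
theorem QX' {μ : Type*} (Z : Matrix κ μ F) : Q * (X * Z) = Z := by
  rw [← Matrix.mul_assoc, h.QX, Matrix.one_mul]
theorem ΨP' {μ : Type*} (Z : Matrix κ μ F) : Ψ * (P * Z) = Z := by
  rw [← Matrix.mul_assoc, h.ΨP, Matrix.one_mul]
theorem ΨX' {μ : Type*} (Z : Matrix κ μ F) : Ψ * (X * Z) = 0 := by
  rw [← Matrix.mul_assoc, h.ΨX, Matrix.zero_mul]

theorem vQP (a : κ → F) : Q *ᵥ P *ᵥ a = 0 := by rw [mulVec_mulVec, h.QP, zero_mulVec]
theorem vQX (a : κ → F) : Q *ᵥ X *ᵥ a = a := by rw [mulVec_mulVec, h.QX, one_mulVec]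
theorem vΨP (a : κ → F) : Ψ *ᵥ P *ᵥ a = a := by rw [mulVec_mulVec, h.ΨP, one_mulVec]
theorem vΨX (a : κ → F) : Ψ *ᵥ X *ᵥ a = 0 := by rw [mulVec_mulVec, h.ΨX, zero_mulVec]
theorem wQP (a : κ → F) : (a ᵥ* Q) ᵥ* P = 0 := by rw [vecMul_vecMul, h.QP, vecMul_zero]
theorem wQX (a : κ → F) : (a ᵥ* Q) ᵥ* X = a := by rw [vecMul_vecMul, h.QX, vecMul_one]
theorem wΨP (a : κ → F) : (a ᵥ* Ψ) ᵥ* P = a := by rw [vecMul_vecMul, h.ΨP, vecMul_one]

theorem kerN {u : ι → F} : dl g *ᵥ u = 0 ↔ Q *ᵥ u = 0 :=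
  ⟨fun e => by rw [← h.vΨP (Q *ᵥ u), mulVec_mulVec u P, ← h.N, e, mulVec_zero],
    fun e => by rw [h.N, ← mulVec_mulVec, e, mulVec_zero]⟩

theorem kerN' {φ : ι → F} : φ ᵥ* dl g = 0 ↔ φ ᵥ* P = 0 :=
  ⟨fun e => by rw [← h.wQX (φ ᵥ* P), vecMul_vecMul φ P, ← h.N, e, zero_vecMul],
    fun e => by rw [h.N, ← vecMul_vecMul, e, zero_vecMul]⟩

theorem dot {φ : ι → F} (e : φ ᵥ* P = 0) (a : κ → F) : φ ⬝ᵥ P *ᵥ a = 0 := by
  rw [dotProduct_mulVec, e, zero_dotProduct]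

theorem dot' {u : ι → F} (e : Q *ᵥ u = 0) (b : κ → F) : (b ᵥ* Q) ⬝ᵥ u = 0 := by
  rw [← dotProduct_mulVec, e, dotProduct_zero]

theorem tvC {u φ : ι → F} (h0 : φ ⬝ᵥ u = 0) (h1 : Q *ᵥ u = 0) (h2 : φ ᵥ* P = 0) :
    tv u φ ∈ centralizer {g} := mem_centralizer_singleton_iff.2
  (comm_tv h0 (dl_eq_zero.1 (h.kerN.2 h1)) (dl_eq_zero'.1 (h.kerN'.2 h2))).symm

theorem tr [CharP F 2] (g2 : g * g = 1) : Fr (tr g) Qᵀ Ψᵀ Pᵀ Xᵀ :=
  ⟨by
    rw [← transpose_mul, ← h.N]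
    exact mext fun x => by
      rw [dl, sub_mulVec, tr_mulVec, inv_eq_of_mul_eq_one_right g2, mulVec_transpose, dl, vecMul_sub]; simp,
  by rw [← transpose_mul, h.QP, transpose_zero], by rw [← transpose_mul, h.ΨP, transpose_one],
  by rw [← transpose_mul, h.QX, transpose_one], by rw [← transpose_mul, h.ΨX, transpose_zero]⟩

/-- the lift of `SL (im N)` -/
theorem exists_lam : ∃ Λ : SpecialLinearGroup κ F →* SpecialLinearGroup ι F, (∀ A, Λ A ∈ centralizer {g}) ∧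
    (∀ A, (Λ A).1 * P = P * A.1) ∧ (∀ A, Q * (Λ A).1 = A.1 * Q) ∧
    ∀ A φ, φ ᵥ* P = 0 → φ ᵥ* X = 0 → φ ᵥ* (Λ A).1 = φ := by
  have d : ∀ A : SpecialLinearGroup κ F, (1 + P * (dl A * Ψ) + X * (dl A * Q)).det = 1 := fun A => by
    have e : 1 + dl A = A.1 := by rw [dl, add_sub_cancel]
    rw [show 1 + P * (dl A * Ψ) + X * (dl A * Q) = (1 + P * (dl A * Ψ)) * (1 + X * (dl A * Q)) by
      simp [Matrix.add_mul, Matrix.mul_add, Matrix.mul_assoc, h.ΨX'], det_mul, det_one_add_mul_comm,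
      det_one_add_mul_comm X, Matrix.mul_assoc, Matrix.mul_assoc, h.ΨP, h.QX, Matrix.mul_one, e, A.2, mul_one]
  refine ⟨MonoidHom.mk' (fun A => ⟨_, d A⟩) fun A B => Subtype.ext ?_, fun A =>
    mem_centralizer_singleton_iff.2 (Subtype.ext ?_), fun A => ?_, fun A => ?_, fun A φ a b => ?_⟩
  · have : dl (A * B) = dl A + dl B + dl A * dl B := by
      simp only [dl, Matrix.SpecialLinearGroup.coe_mul]; noncomm_ring
    change 1 + P * (_ * Ψ) + X * (_ * Q) = (1 + P * (_ * Ψ) + X * (_ * Q)) * (1 + P * (_ * Ψ) + X * (_ * Q))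
    simp only [this, Matrix.add_mul, Matrix.mul_add, Matrix.mul_assoc, h.ΨX', h.ΨP',
      h.QP', h.QX', Matrix.one_mul, Matrix.mul_one, Matrix.mul_zero]
    abel
  · change (1 + P * (_ * Ψ) + X * (_ * Q)) * g.1 = g.1 * (1 + P * (_ * Ψ) + X * (_ * Q))
    simp only [h.val, Matrix.add_mul, Matrix.mul_add,
      Matrix.mul_assoc, h.ΨX', h.ΨP', h.QP', h.QX', Matrix.one_mul, Matrix.mul_one, Matrix.mul_zero]
    abel
  · change (1 + P * (_ * Ψ) + X * (_ * Q)) * P = _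
    simp [Matrix.add_mul, Matrix.mul_assoc, h.ΨP, h.QP, dl, Matrix.mul_sub]
  · change Q * (1 + P * (_ * Ψ) + X * (_ * Q)) = _
    simp [Matrix.mul_add, h.QP', h.QX', dl, Matrix.sub_mul]
  · change φ ᵥ* (1 + P * (_ * Ψ) + X * (_ * Q)) = _
    simp [vecMul_add, ← vecMul_vecMul, a, b]

/-- the elements `1 + P B Q` -/
def mB (B : Matrix κ κ F) : SpecialLinearGroup ι F :=
  ⟨1 + P * (B * Q), by rw [det_one_add_mul_comm, Matrix.mul_assoc, h.QP]; simp⟩

theorem mB_val (B : Matrix κ κ F) : (h.mB B).1 = 1 + P * (B * Q) := rfl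

theorem mB_add (B C : Matrix κ κ F) : h.mB (B + C) = h.mB B * h.mB C := Subtype.ext (by
  simp only [Matrix.SpecialLinearGroup.coe_mul, mB_val, Matrix.add_mul, Matrix.mul_add, Matrix.mul_assoc, h.QP',
    Matrix.one_mul, Matrix.mul_one, Matrix.mul_zero]
  abel)

theorem mB_zero : h.mB 0 = 1 := Subtype.ext (by simp [mB_val])

theorem mB_one : h.mB 1 = g := Subtype.ext (by simp [mB_val, h.val])

theorem mB_inj : Function.Injective h.mB := fun B C e => by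
  have := congrArg (fun Z => Ψ * Z * X) (add_left_cancel (congrArg Subtype.val e))
  simpa [h.ΨP', Matrix.mul_assoc, h.QX] using this

theorem mB_tv (a b : κ → F) : h.mB (vecMulVec a b) = tv (P *ᵥ a) (b ᵥ* Q) := Subtype.ext (by
  rw [tv_val (h.dot (h.wQP b) a), mB_val, vecMulVec_mul, mul_vecMulVec])

theorem mB_conj {a : SpecialLinearGroup ι F} {A A' : Matrix κ κ F} (h1 : a.1 * P = P * A)
    (h2 : Q * (a⁻¹).1 = A' * Q) (B : Matrix κ κ F) : a * h.mB B * a⁻¹ = h.mB (A * B * A') := Subtype.ext (by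
  have : a.1 * (a⁻¹).1 = 1 := congrArg Subtype.val (mul_inv_cancel a)
  rw [Matrix.SpecialLinearGroup.coe_mul, Matrix.SpecialLinearGroup.coe_mul, mB_val, mB_val, Matrix.mul_add, Matrix.add_mul,
    Matrix.mul_one, this, ← Matrix.mul_assoc a.1, h1]
  simp only [Matrix.mul_assoc, h2])

theorem card_eq : rk g = Fintype.card κ := by
  refine le_antisymm (by rw [rk, h.N]; exact (rank_mul_le_left _ _).trans (rank_le_card_width _)) ?_
  calc _ = (Ψ * (dl g * X)).rank := by rw [h.N, Matrix.mul_assoc, h.QX, Matrix.mul_one, h.ΨP, rank_one]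
    _ ≤ _ := (rank_mul_le_right _ _).trans (rank_mul_le_left _ _)

omit h in
theorem rk_eq {k : SpecialLinearGroup ι F} {P' R : Matrix ι κ F} {Q' L : Matrix κ ι F} (e : dl k = P' * Q')
    (d : (L * P' * (Q' * R)).det ≠ 0) : rk k = Fintype.card κ := by
  refine le_antisymm (by rw [rk, e]; exact (rank_mul_le_left _ _).trans (rank_le_card_width _)) ?_
  calc _ = (L * (dl k * R)).rank := by
        rw [e, Matrix.mul_assoc P', ← Matrix.mul_assoc, rank_of_isUnit _ ((isUnit_iff_isUnit_det _).2 (Ne.isUnit d))]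
    _ ≤ _ := (rank_mul_le_right _ _).trans (rank_mul_le_left _ _)

end Fr

end Cfsg.Agent.StdL
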