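import Cfsg.Agent.StdL.Bas
import Cfsg.Agent.StdL.InFr
import Cfsg.Agent.KSG.SimMatrix

/-! Pure matrices. `g = 1 + N`, `N² = 0`, `ρ = rk g ≥ 2`, `C = C(g)`.
`tv u φ ∈ C` if `N u = 0`, `φ N = 0`. Elements of `GL(im N)` lift to `C`: choose `x i` with `a i = N x i`
a basis of `im N` and a complement `Y` of `im N` in `ker N`; `A ∈ SL_ρ` acts as `A` on the `a i` and on the
`x i`, trivially on `Y`; for `A = 1 + c E i j` this is the product `lv i j c` of two commuting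
transvections `tv (a i) (c α j) * tv (x i) (c ψ j)` (dual basis `α, ψ, η`).
CLAIM (`rad_od`): `tv u φ ∈ Od C` whenever `φ u = 0`, `N u = 0`, `φ N = 0`, (`u ∈ im N` or `φ ∈ ann (ker N)`)
and, in case both `u = N x` and `φ = ψ N`, also `ψ u = 0` (nilpotent matrix) or (`q = 2`, `ρ = 2`).
Proof: `q ≥ 4`: commutator with an odd diagonal element (`A = diag(λ, λ⁻¹)` placed suitably);
`q = 2`, `ρ ≥ 3`: `lv i j 1 = ⁅lv i k 1, lv k j 1⁆` and `lv i j 1 * lv j i 1` has order `3`, so all `lv`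
are congruent mod `Od C` and commutators of congruent elements of the `2`-group `C / Od C`... give
`lv ∈ Od C`; then `tv (u + A u) φ = ⁅A, tv u φ⁆`. `q = 2`, `ρ = 2`, `m ≥ 5`: `h = lv 1 2 * lv 2 1` of
order `3` is fixed point free on `im N`: `⁅h, tv a η⁆`, `⁅h, tv y ψ⁆` give all `tv a η` (`η ∈ ann im N`
mod `ann ker N`), `tv y ψ`, and `tv a ψ = ⁅tv a η, tv y ψ⁆` with `η y = 1`.
`inA`: for `e = N x₀`: the `tv e (ψ N)` with `ψ e = 0` form a group of order `q ^ (ρ - 1) ≥ 4` unless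
`q = ρ = 2`; then all `tv e φ`, `φ N = 0`: order `2 ^ (m - 2) ≥ 8`. -/

set_option autoImplicit false
set_option linter.unusedSectionVars false

namespace Cfsg.Agent.StdL

open Matrix Subgroup Cfsg.Agent.LnT Cfsg.Agent.PLocal.Amb
open scoped commutatorElement

variable {F ι : Type*} [Field F] [Fintype ι] [DecidableEq ι] [CharP F 2] [Finite F]

theorem four_le_card (h : Nat.card F ≠ 2) : 4 ≤ Nat.card F := by
  have := Fintype.ofFinite F
  obtain ⟨n, -, e⟩ := FiniteField.card F 2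
  rw [Nat.card_eq_fintype_card, e] at h ⊢
  exact Nat.pow_le_pow_right (n := 2) (i := 2) (by decide) (by
    have := n.pos
    by_contra r
    exact h (by rw [show (n : ℕ) = 1 by omega, pow_one]))

theorem perf_fin {n : ℕ} (h : 2 ≤ n) (h' : ¬ (Nat.card F = 2 ∧ n = 2)) :
    commutator (SpecialLinearGroup (Fin n) F) = ⊤ :=
  (K.qs_SL (F := F) (n := n) (by
    by_cases e : n = 2
    exacts [Or.inr ⟨e, four_le_card fun r => h' ⟨r, e⟩⟩, Or.inl (by omega)])).1.commutator_eq_top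

theorem exists_indep {κ : Type*} [Fintype κ] [DecidableEq κ] (two : 2 ≤ Fintype.card κ) (a : κ → F) :
    ∃ a' : κ → F, ∀ c : F, a' ≠ c • a := by
  obtain ⟨u, -, h⟩ := exists_ker_notMem (F := F) (a := 0) (b := 1) two ![] ![a]
  exact ⟨u, fun c e => h (e ▸ Submodule.smul_mem _ c (Submodule.subset_span ⟨0, rfl⟩))⟩

theorem exists_perp {κ : Type*} [Fintype κ] [DecidableEq κ] (two : 2 ≤ Fintype.card κ) (a : κ → F) :
    ∃ b : κ → F, b ≠ 0 ∧ b ⬝ᵥ a = 0 := by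
  obtain ⟨u, h1, h⟩ := exists_ker_notMem (F := F) (a := 1) (b := 0) two ![a] ![]
  exact ⟨u, fun e => h (e ▸ zero_mem _), by rw [dotProduct_comm]; exact h1 0⟩

namespace Fr

variable {κ : Type*} [Fintype κ] [DecidableEq κ] {g : SpecialLinearGroup ι F} {P X : Matrix ι κ F}
  {Q Ψ : Matrix κ ι F} (h : Fr g P X Q Ψ)
include h

theorem cmm {k : SpecialLinearGroup ι F} (hk : k ∈ Od (centralizer {g})) {A : Matrix κ κ F}
    (e : k.1 * P = P * A) {φ : ι → F} (p : φ ᵥ* P = 0) (e' : φ ᵥ* (k⁻¹).1 = φ) {a a' : κ → F}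
    (ha : A *ᵥ a' = a' + a) : tv (P *ᵥ a) φ ∈ Od (centralizer {g}) := by
  have := od_cm (h.tvC (h.dot p a') (h.vQP a') p) hk
  rwa [tv_conj, e', tv_inv, mulVec_mulVec, e, ← mulVec_mulVec, ← add_tv (h.dot p _) (h.dot p _), ← mulVec_add, ha,
    add_right_comm, vadd_self, zero_add] at this

theorem k1 (two : 2 ≤ Fintype.card κ) (a : κ → F) {φ : ι → F} (p : φ ᵥ* P = 0) (x : φ ᵥ* X = 0) :
    tv (P *ᵥ a) φ ∈ Od (centralizer {g}) := by
  by_cases a0 : a = 0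
  · rw [a0, mulVec_zero, zero_tv]; exact one_mem _
  obtain ⟨Λ, l1, l2, -, l4⟩ := h.exists_lam
  obtain ⟨a', ha⟩ := exists_indep two a
  obtain ⟨β, b1, b2⟩ := exists_dot1 ha
  obtain ⟨α, a1, a2⟩ := exists_dot1 (indep_symm a0 ha)
  have e : tv a β * tv a' α * (tv a β)⁻¹ = tv a' α * tv a β * (tv a' α)⁻¹ := by
    rw [tv_conj, tv_conj, tv_inv, tv_inv, tv_mulVec b2, tv_mulVec a2, vecMul_tv b2, vecMul_tv a2, a1, b1]
    simp [add_comm]
  have e3 : (tv a β * tv a' α) ^ 3 = 1 := by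
    rw [show (tv a β * tv a' α) ^ 3 = tv a β * tv a' α * tv a β * (tv a' α * tv a β * tv a' α) by
      simp only [pow_succ, pow_zero, one_mul, mul_assoc]]
    conv_lhs => rw [← tv_inv a β, ← tv_inv a' α]
    simp only [tv_inv] at e ⊢
    rw [e, show tv a' α * tv a β * tv a' α * (tv a' α * tv a β * tv a' α) =
      tv a' α * (tv a β * (tv a' α * tv a' α) * tv a β) * tv a' α by group, tv_sq, mul_one, tv_sq, mul_one, tv_sq]
  exact h.cmm (mem_Od (l1 _) (Odd.of_dvd_nat (by decide) (orderOf_dvd_of_pow_eq_one (n := 3)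
    (by rw [← map_pow, e3, map_one])))) (l2 _) p (by rw [← map_inv, l4 _ _ p x]) (a' := a')
    (by rw [mul_mulVec', tv_mulVec a2, a2, zero_smul, add_zero, tv_mulVec b2, b1, one_smul])

theorem k2 (two : 2 ≤ Fintype.card κ) (hp : commutator (SpecialLinearGroup κ F) = ⊤) {a b : κ → F}
    (e : b ⬝ᵥ a = 0) : tv (P *ᵥ a) (b ᵥ* Q) ∈ Od (centralizer {g}) := by
  obtain ⟨Λ, l1, l2, l3, -⟩ := h.exists_lam
  obtain ⟨a', ha⟩ := exists_indep two a
  obtain ⟨β, b1, b2⟩ := exists_dot1 ha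
  exact h.cmm (od_perf hp Λ l1 (tv a β)) (l2 _) (h.wQP b) (by
    rw [← map_inv, vecMul_vecMul, l3, ← vecMul_vecMul, tv_inv, vecMul_tv b2, e, zero_smul, add_zero]) (a' := a')
    (by rw [tv_mulVec b2, b1, one_smul])

theorem k3 (two : 2 ≤ Fintype.card κ) (a b : κ → F) {φ : ι → F} (p : φ ᵥ* P = 0) (x : φ ᵥ* X = 0)
    (h0 : φ ≠ 0) : tv (P *ᵥ a) (φ + b ᵥ* Q) ∈ Od (centralizer {g}) := by
  obtain ⟨z, hz⟩ := exists_dot0 h0
  have y1 : Q *ᵥ (z - X *ᵥ Q *ᵥ z) = 0 := by rw [mulVec_sub, h.vQX, sub_self]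
  have y2 : φ ⬝ᵥ (z - X *ᵥ Q *ᵥ z) = 1 := by
    rw [dotProduct_sub, dotProduct_mulVec, x, zero_dotProduct, sub_zero, dotProduct_comm, hz]
  have := od_conj (h.tvC (h.dot' y1 b) y1 (h.wQP b)) (h.k1 two a p x)
  rwa [tv_conj, tv_inv, tv_mulVec (h.dot' y1 b), vecMul_tv (h.dot' y1 b), y2, h.dot (h.wQP b), zero_smul, add_zero,
    one_smul] at this

theorem rad1 (two : 2 ≤ Fintype.card κ) (a : κ → F) {φ : ι → F} (p : φ ᵥ* P = 0)
    (h4 : 2 * Fintype.card κ < Fintype.card ι ∨ commutator (SpecialLinearGroup κ F) = ⊤ ∧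
      ∀ b, b ᵥ* Q = φ → b ⬝ᵥ a = 0) : tv (P *ᵥ a) φ ∈ Od (centralizer {g}) := by
  by_cases e : φ + (φ ᵥ* X) ᵥ* Q = 0
  · rw [vadd_eq_zero] at e
    rcases h4 with h4 | h4
    · obtain ⟨η, h1, h2⟩ := exists_ker_notMem (F := F) (a := Fintype.card (κ ⊕ κ)) (b := 0)
        (by rw [Fintype.card_sum]; omega) (fun i => (fromCols P X)ᵀ ((Fintype.equivFin _).symm i)) ![]
      have k : η ᵥ* fromCols P X = 0 := funext fun j => by
        have := h1 (Fintype.equivFin _ j)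
        rw [Equiv.symm_apply_apply, dotProduct_comm] at this
        exact this
      rw [vecMul_fromCols] at k
      have p' : η ᵥ* P = 0 := funext fun j => congrFun k (.inl j)
      have x' : η ᵥ* X = 0 := funext fun j => congrFun k (.inr j)
      have := mul_mem (h.k1 two a p' x') (h.k3 two a (φ ᵥ* X) p' x' fun r => h2 (r ▸ zero_mem _))
      rwa [← e, ← tv_add (h.dot p' a) (h.dot (by rw [add_vecMul, p, p', add_zero]) a), ← add_assoc, vadd_self,
        zero_add] at this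
    · rw [e]; exact h.k2 two h4.1 (h4.2 _ e.symm)
  · have := h.k3 two a (φ ᵥ* X) (by rw [add_vecMul, p, h.wQP, add_zero]) (by rw [add_vecMul, h.wQX, vadd_self]) e
    rwa [add_assoc, vadd_self, add_zero] at this

end Fr

theorem rad_od (hq : 2 < Nat.card F ∨ 5 ≤ Fintype.card ι) {g : SpecialLinearGroup ι F}
    (g2 : g * g = 1) (hr : 2 ≤ rk g) {u φ : ι → F} (h0 : φ ⬝ᵥ u = 0) (h1 : dl g *ᵥ u = 0)
    (h2 : φ ᵥ* dl g = 0) (h3 : (∃ x, dl g *ᵥ x = u) ∨ ∃ ψ, ψ ᵥ* dl g = φ)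
    (h4 : (Nat.card F = 2 ∧ rk g = 2) ∨ ∀ x ψ, dl g *ᵥ x = u → ψ ᵥ* dl g = φ → ψ ⬝ᵥ u = 0) :
    tv u φ ∈ Od (centralizer {g}) := by
  obtain ⟨P, X, Q, Ψ, h⟩ := exists_fr g2
  have two : 2 ≤ Fintype.card (Fin (rk g)) := by rwa [Fintype.card_fin]
  have k : 2 * Fintype.card (Fin (rk g)) < Fintype.card ι ∨
      commutator (SpecialLinearGroup (Fin (rk g)) F) = ⊤ ∧
        ∀ a b, P *ᵥ a = u → b ᵥ* Q = φ → b ⬝ᵥ a = 0 := by
    by_cases e : Nat.card F = 2 ∧ rk g = 2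
    · exact Or.inl (by rw [Fintype.card_fin]; omega)
    refine Or.inr ⟨perf_fin hr e, fun a b e1 e2 => ?_⟩
    have := h4.resolve_left e (X *ᵥ a) (b ᵥ* Ψ) (by rw [h.N, ← mulVec_mulVec, h.vQX, e1])
      (by rw [h.N, ← vecMul_vecMul, h.wΨP, e2])
    rwa [← e1, ← dotProduct_mulVec, h.vΨP] at this
  rcases h3 with ⟨x, rfl⟩ | ⟨ψ, rfl⟩
  · rw [h.N, ← mulVec_mulVec] at k ⊢
    exact h.rad1 two _ (h.kerN'.1 h2) (k.imp_right fun r => ⟨r.1, fun b => r.2 _ b rfl⟩)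
  · rw [h.N, ← vecMul_vecMul] at k ⊢
    have := (h.tr g2).rad1 two (ψ ᵥ* P) (φ := u) (by rw [vecMul_transpose]; exact h.kerN.1 h1)
      (k.imp_right fun r => ⟨r.1, fun a e => by
        rw [dotProduct_comm]; exact r.2 a _ (by rwa [vecMul_transpose] at e) rfl⟩)
    rw [mulVec_transpose] at this
    refine Od.map (tr : SpecialLinearGroup ι F ≃* _).toMonoidHom (H := centralizer {tr g}) ?_ ⟨_, this, tr_tv _ _⟩
    rintro _ ⟨y, hy, rfl⟩
    simpa [mem_centralizer_singleton_iff, tr_tr] using congrArg tr (mem_centralizer_singleton_iff.1 hy)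

theorem inA (hq : 2 < Nat.card F ∨ 5 ≤ Fintype.card ι) {g : SpecialLinearGroup ι F}
    (g2 : g * g = 1) (hr : 2 ≤ rk g) {e : ι → F} (he : e ≠ 0) (he' : ∃ x, dl g *ᵥ x = e) :
    4 ≤ Nat.card (Vs e ⊓ Od (centralizer {g}) : Subgroup _) ∧ (Nat.card F = 2 → rk g = 2 →
      8 ≤ Nat.card (Vs e ⊓ Od (centralizer {g}) : Subgroup _)) := by
  obtain ⟨P, X, Q, Ψ, h⟩ := exists_fr g2
  have two : 2 ≤ Fintype.card (Fin (rk g)) := by rwa [Fintype.card_fin]
  obtain ⟨x, rfl⟩ := he'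
  rw [h.N, ← mulVec_mulVec] at he ⊢
  generalize Q *ᵥ x = a at *
  have q1 : 1 < Nat.card F := Finite.one_lt_card
  have c8 : Nat.card F = 2 → rk g = 2 → 8 ≤ Nat.card (Vs (P *ᵥ a) ⊓ Od (centralizer {g}) : Subgroup _) :=
    fun e1 e2 => by
      have c := card_ker Pᵀ fun c => ⟨c ᵥ* Ψ, congrFun (h.wΨP c)⟩
      have le := Nat.card_le_card_of_injective (fun φ : {φ : ι → F // ∀ i, φ ⬝ᵥ Pᵀ i = 0} =>
        (⟨tv (P *ᵥ a) φ, ⟨φ, h.dot (funext φ.2) a, rfl⟩, h.rad1 two a (funext φ.2)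
          (Or.inl (by rw [Fintype.card_fin]; omega))⟩ : (Vs (P *ᵥ a) ⊓ Od (centralizer {g}) : Subgroup _)))
        fun φ ψ e => Subtype.ext (tv_inj he (h.dot (funext φ.2) a) (h.dot (funext ψ.2) a) (congrArg Subtype.val e))
      have := Nat.pow_le_pow_right (n := 2) (by decide) (show 5 ≤ Fintype.card ι by omega)
      generalize Nat.card {φ : ι → F // ∀ i, φ ⬝ᵥ Pᵀ i = 0} = n at *
      rw [e1, e2] at c
      omega
  refine ⟨?_, c8⟩
  by_cases e : Nat.card F = 2 ∧ rk g = 2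
  · exact le_trans (by decide) (c8 e.1 e.2)
  have c := card_ker1 (show a ≠ 0 from fun r => he (by rw [r, mulVec_zero]))
  have le := Nat.card_le_card_of_injective (fun b : {b : Fin (rk g) → F // b ⬝ᵥ a = 0} =>
    (⟨tv (P *ᵥ a) (b.1 ᵥ* Q), ⟨_, h.dot (h.wQP _) a, rfl⟩, h.k2 two (perf_fin hr e) b.2⟩ :
      (Vs (P *ᵥ a) ⊓ Od (centralizer {g}) : Subgroup _)))
    fun φ ψ e => Subtype.ext (by
      rw [← h.wQX φ.1, tv_inj he (h.dot (h.wQP _) a) (h.dot (h.wQP _) a) (congrArg Subtype.val e), h.wQX])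
  refine le_trans (Nat.le_of_mul_le_mul_right (c ▸ ?_ : 4 * Nat.card F ≤ _) (by omega)) le
  rw [Fintype.card_fin]
  by_cases e1 : Nat.card F = 2
  · rw [e1]; exact Nat.pow_le_pow_right (n := 2) (i := 3) (by decide) (by omega)
  · exact (Nat.mul_le_mul_right _ (four_le_card e1)).trans (sq (Nat.card F) ▸ Nat.pow_le_pow_right (by omega) hr)

/-- involutions of the same rank are conjugate in `SL` (char `2`: adjust the determinant by a square) -/
theorem isConj_of_rk {g h : SpecialLinearGroup ι F} (g2 : g * g = 1) (h2 : h * h = 1)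
    (e : rk g = rk h) : IsConj g h := by
  have sq : ∀ {g : SpecialLinearGroup ι F}, g * g = 1 → dl g * dl g = 0 := fun g2 =>
    mext fun x => by rw [← mulVec_mulVec, dl_dl g2, zero_mulVec]
  obtain ⟨c, hc⟩ := KSG.isConj_of_rank (A := dl g) (B := dl h) fun p hp hm k hk => by
    by_cases e0 : p.coeff 0 = 0
    · obtain rfl : p = Polynomial.X := (Polynomial.eq_of_monic_of_associated Polynomial.monic_X hm
        (Polynomial.irreducible_X.associated_of_dvd hp (Polynomial.X_dvd_iff.2 e0))).symm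
      rcases k with _ | _ | k
      · omega
      · simpa [rk] using e
      · simp [pow_succ, mul_assoc, sq g2, sq h2]
    · have u : ∀ {N : Matrix ι ι F}, N * N = 0 → (Polynomial.aeval N (p ^ k)).rank = Fintype.card ι := fun {N} hN => by
        refine rank_of_isUnit _ (map_pow (Polynomial.aeval N) p k ▸ IsUnit.pow k ?_)
        rw [← p.X_mul_divX_add, map_add, map_mul, Polynomial.aeval_X, Polynomial.aeval_C]
        have cm : Commute N (Polynomial.aeval N p.divX) := by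
          simpa using (Commute.all Polynomial.X p.divX).map (Polynomial.aeval N)
        exact (cm.isNilpotent_mul_right ⟨2, by rw [pow_two, hN]⟩).isUnit_add_right_of_commute
          ((IsUnit.mk0 _ e0).map _) (Algebra.commutes _ _).symm
      rw [u (sq g2), u (sq h2)]
  replace hc : c.1 * g.1 = h.1 * c.1 := by
    have := hc.eq
    rwa [dl, dl, mul_sub, sub_mul, mul_one, one_mul, sub_left_inj] at this
  obtain ⟨P, X, Q, Ψ, f⟩ := exists_fr g2
  rcases isEmpty_or_nonempty (Fin (rk g)) with r | ⟨⟨i⟩⟩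
  · have : g = 1 := Subtype.ext (by rw [f.val, Subsingleton.elim P 0]; simp)
    rw [this] at hc ⊢
    rw [show h = 1 from Subtype.ext (c.mul_left_inj.1 (by simpa using hc.symm))]
  obtain ⟨s, hs⟩ := FiniteField.isSquare_of_char_two (ringChar.eq F 2) (c⁻¹).1.det
  let B : Matrix (Fin (rk g)) (Fin (rk g)) F := vecMulVec (Pi.single i (s - 1)) (Pi.single i 1)
  have d : (1 + P * (B * Ψ) + X * (B * Q)).det = s * s := by
    rw [show 1 + P * (B * Ψ) + X * (B * Q) = (1 + P * (B * Ψ)) * (1 + X * (B * Q)) by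
      simp [Matrix.add_mul, Matrix.mul_add, Matrix.mul_assoc, f.ΨX'], det_mul, det_one_add_mul_comm,
      det_one_add_mul_comm X, Matrix.mul_assoc, Matrix.mul_assoc, f.ΨP, f.QX, Matrix.mul_one, det_one_add_vv]
    simp
  refine isConj_iff.2 ⟨⟨c.1 * (1 + P * (B * Ψ) + X * (B * Q)), by
    rw [det_mul, d, ← hs, ← det_mul, c.mul_inv, det_one]⟩, mul_inv_eq_iff_eq_mul.2 (Subtype.ext ?_)⟩
  change c.1 * _ * g.1 = h.1 * (c.1 * _)
  rw [← mul_assoc, ← hc, mul_assoc, mul_assoc]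
  congr 1
  simp only [f.val, Matrix.add_mul, Matrix.mul_add, Matrix.mul_assoc, f.ΨX', f.ΨP', f.QP', f.QX', Matrix.one_mul,
    Matrix.mul_one, Matrix.mul_zero]
  abel

theorem rk_eq_zero {g : SpecialLinearGroup ι F} : rk g = 0 ↔ g = 1 := by
  refine ⟨fun h => Subtype.ext (sub_eq_zero.1 (Matrix.toLin'.injective ?_)), by rintro rfl; simp [rk, dl]⟩
  rw [map_zero]
  exact LinearMap.range_eq_bot.1 (Submodule.finrank_eq_zero.1 h)

theorem isTv_of_rk {g : SpecialLinearGroup ι F} (g2 : g * g = 1) (h : rk g = 1) :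
    ∃ u φ, u ≠ 0 ∧ φ ≠ 0 ∧ φ ⬝ᵥ u = 0 ∧ g = tv u φ := by
  obtain ⟨P, X, Q, Ψ, f⟩ := exists_fr g2
  have : Unique (Fin (rk g)) := h ▸ inferInstance
  have o : (1 : Fin (rk g) → F) ≠ 0 := one_ne_zero
  refine ⟨P *ᵥ 1, 1 ᵥ* Q, fun e => o (by rw [← f.vΨP 1, e, mulVec_zero]),
    fun e => o (by rw [← f.wQX 1, e, zero_vecMul]), f.dot (f.wQP _) _, ?_⟩
  rw [← f.mB_tv, show vecMulVec (1 : Fin (rk g) → F) 1 = 1 by
    ext i j; obtain rfl := Subsingleton.elim i j; simp [vecMulVec_apply], f.mB_one]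

end Cfsg.Agent.StdL
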