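import Cfsg.Agent.StdL.Defs

/-! The groups `Rd M M' = 1 + Hom(V / M', M)`: definitions and linear algebra. -/

set_option autoImplicit false

namespace Cfsg.Agent.StdL

open Matrix Subgroup Cfsg.Agent.LnT Cfsg.Agent.PLocal.Amb

variable {F ι : Type*} [Field F] [Fintype ι] [DecidableEq ι]

/-- `1 + Hom(V / (M ⊔ M'), M)` -/
def Rd (M M' : Submodule F (ι → F)) : Subgroup (SpecialLinearGroup ι F) where
  carrier := {g | (∀ x, dl g *ᵥ x ∈ M) ∧ ∀ x ∈ M ⊔ M', dl g *ᵥ x = 0}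
  one_mem' := ⟨fun x => by simp [dl], fun x _ => by simp [dl]⟩
  mul_mem' := fun {a b} ha hb => ⟨fun x => by
      rw [dl_mul]; exact M.add_mem (M.add_mem (ha.1 x) (hb.1 x)) (ha.1 _),
    fun x hx => by rw [dl_mul, ha.2 x hx, hb.2 x hx, mulVec_zero, add_zero, add_zero]⟩
  inv_mem' := fun {a} ha => by
    have h : ∀ x, dl a⁻¹ *ᵥ x = -(dl a *ᵥ x) := fun x => by
      have h1 := dl_mul a a⁻¹ x
      have h2 := dl_mul a⁻¹ a x
      have h3 : dl a⁻¹ *ᵥ dl a *ᵥ x = 0 := by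
        rw [dl_eq_zero, ← dl_eq_zero.1 (ha.2 _ (Submodule.mem_sup_left (ha.1 x))),
          inv_mulVec_mulVec, dl_eq_zero.1 (ha.2 _ (Submodule.mem_sup_left (ha.1 x)))]
      rw [inv_mul_cancel, h3, add_zero] at h2
      have h4 : dl (1 : SpecialLinearGroup ι F) *ᵥ x = 0 := by simp [dl]
      rw [h4] at h2
      exact eq_neg_of_add_eq_zero_left h2.symm
    exact ⟨fun x => by rw [h]; exact M.neg_mem (ha.1 x), fun x hx => by rw [h, ha.2 x hx, neg_zero]⟩

/-- stabiliser of a subspace -/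
def Stb (M : Submodule F (ι → F)) (g : SpecialLinearGroup ι F) : Prop := ∀ x ∈ M, g.1 *ᵥ x ∈ M

/-- the middle part of a flag -/
structure Fl (M M' : Submodule F (ι → F)) : Prop where
  le : M ≤ M'
  rk : Module.finrank F M = Fintype.card ι / 2
  rk' : Module.finrank F M' = Fintype.card ι - Fintype.card ι / 2

variable {M M' : Submodule F (ι → F)} {T : Subgroup (SpecialLinearGroup ι F)}

theorem jr_mem (h : M ≤ M') {g : SpecialLinearGroup ι F} :
    g ∈ Rd M M' ↔ (∀ x, dl g *ᵥ x ∈ M) ∧ ∀ x ∈ M', dl g *ᵥ x = 0 := by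
  change (_ ∧ ∀ x ∈ M ⊔ M', _) ↔ _
  rw [sup_eq_right.2 h]

theorem jr_tv (h : M ≤ M') {x f : ι → F} (hx : x ∈ M) (hf : ∀ y ∈ M', f ⬝ᵥ y = 0) :
    tv x f ∈ Rd M M' :=
  (jr_mem h).2 ⟨fun y => by rw [dl_tv (hf x (h hx))]; exact M.smul_mem _ hx,
    fun y hy => by rw [dl_tv (hf x (h hx)), hf y hy, zero_smul]⟩

theorem jr_one {g : SpecialLinearGroup ι F} (h : ∀ x, dl g *ᵥ x = 0) : g = 1 :=
  slext fun x => by rw [dl_eq_zero.1 (h x)]; simp

theorem jr_det {N : Matrix ι ι F} (h : N * N = 0) : (1 + N).det = 1 := by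
  have h1 : IsNilpotent (-N) := ⟨2, by rw [sq, neg_mul_neg, h]⟩
  have h2 := (isNilpotent_charpoly_sub_pow_of_isNilpotent h1).eq_zero
  have h3 := eval_charpoly (-N) 1
  rw [sub_eq_zero.1 h2, map_one, sub_neg_eq_add] at h3
  simpa using h3.symm

theorem jr_rk_le (M : Submodule F (ι → F)) : Module.finrank F M ≤ Fintype.card ι := by
  simpa using M.finrank_le

/-- matrices with image in `X` vanishing on `Y` -/
def JrH (X Y : Submodule F (ι → F)) : Type _ :=
  {N : Matrix ι ι F // (∀ x, N *ᵥ x ∈ X) ∧ ∀ y ∈ Y, N *ᵥ y = 0}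

omit [DecidableEq ι] in
instance [Finite F] (X Y : Submodule F (ι → F)) : Finite (JrH X Y) := Subtype.finite

theorem jr_cardH (X Y : Submodule F (ι → F)) : Nat.card (JrH X Y) =
    Nat.card F ^ (Module.finrank F X * (Fintype.card ι - Module.finrank F Y)) := by
  have e : Nat.card (((ι → F) ⧸ Y) →ₗ[F] X) = Nat.card (JrH X Y) := by
    refine Nat.card_eq_of_bijective (fun f => ⟨LinearMap.toMatrix' (X.subtype ∘ₗ f ∘ₗ Y.mkQ),
      fun x => by simp, fun y hy => by simp [(Submodule.Quotient.mk_eq_zero Y).2 hy]⟩) ⟨?_, ?_⟩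
    · intro f g h
      have h1 := LinearMap.toMatrix'.injective (Subtype.ext_iff.1 h)
      refine Submodule.linearMap_qext _ (LinearMap.ext fun x => Subtype.ext ?_)
      exact LinearMap.congr_fun h1 x
    · rintro ⟨N, h1, h2⟩
      refine ⟨Y.liftQ ((toLin' N).codRestrict X fun x => by simpa using h1 x)
        fun y hy => Subtype.ext (by simpa using h2 y hy), Subtype.ext ?_⟩
      exact mext fun x => by rw [LinearMap.toMatrix'_mulVec]; rfl
  rw [← e, Module.natCard_eq_pow_finrank (K := F), Module.finrank_linearMap,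
    Submodule.finrank_quotient, mul_comm]
  simp

theorem card_Rd (h : M ≤ M') : Nat.card (Rd M M') =
    Nat.card F ^ (Module.finrank F M * (Fintype.card ι - Module.finrank F M')) := by
  rw [← jr_cardH]
  refine Nat.card_eq_of_bijective (fun g => ⟨dl g.1, (jr_mem h).1 g.2⟩) ⟨?_, ?_⟩
  · intro a b e
    exact Subtype.ext (Subtype.ext (sub_left_injective (Subtype.ext_iff.1 e)))
  · rintro ⟨N, h1, h2⟩
    have h3 : N * N = 0 := mext fun x => by rw [← mulVec_mulVec, h2 _ (h (h1 x)), zero_mulVec]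
    have h4 : dl (⟨1 + N, jr_det h3⟩ : SpecialLinearGroup ι F) = N := by simp [dl]
    exact ⟨⟨⟨1 + N, jr_det h3⟩, (jr_mem h).2 (by rw [h4]; exact ⟨h1, h2⟩)⟩, Subtype.ext h4⟩

theorem Stb.jone : Stb M 1 := fun x hx => by simpa using hx

theorem Stb.jmul {a b : SpecialLinearGroup ι F} (ha : Stb M a) (hb : Stb M b) : Stb M (a * b) :=
  fun x hx => by rw [mul_mulVec']; exact ha _ (hb x hx)

theorem jr_inv_map {a : SpecialLinearGroup ι F} (ha : ∀ x ∈ M, a.1 *ᵥ x ∈ M')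
    (hr : Module.finrank F M = Module.finrank F M') : ∀ x ∈ M', (a⁻¹).1 *ᵥ x ∈ M := fun x hx => by
  let f : M →ₗ[F] M' := (toLin' a.1).restrict (p := M) (q := M') fun y hy => ha y hy
  have hi : Function.Injective f := fun y z e => Subtype.ext (by
    have h : a.1 *ᵥ y.1 = a.1 *ᵥ z.1 := Subtype.ext_iff.1 e
    rw [← inv_mulVec_mulVec a y.1, h, inv_mulVec_mulVec])
  obtain ⟨y, hy⟩ := (LinearMap.injective_iff_surjective_of_finrank_eq_finrank hr).1 hi ⟨x, hx⟩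
  have h : a.1 *ᵥ y.1 = x := Subtype.ext_iff.1 hy
  rw [← h, inv_mulVec_mulVec]
  exact y.2

theorem Stb.jinv {a : SpecialLinearGroup ι F} (ha : Stb M a) : Stb M a⁻¹ := jr_inv_map ha rfl

theorem Stb.jsup {a : SpecialLinearGroup ι F} (h : Stb M a) (h' : Stb M' a) : Stb (M ⊔ M') a :=
  fun x hx => by
    obtain ⟨y, hy, z, hz, rfl⟩ := Submodule.mem_sup.1 hx
    rw [mulVec_add]
    exact Submodule.add_mem_sup (h y hy) (h' z hz)

theorem Stb.jdl {a : SpecialLinearGroup ι F} (h : Stb M a) {x : ι → F} (hx : x ∈ M) :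
    dl a *ᵥ x ∈ M := by
  have := M.sub_mem (h x hx) hx
  rwa [mulVec_dl, add_sub_cancel_left] at this

theorem jr_stb {a : SpecialLinearGroup ι F} (h : ∀ x ∈ M, dl a *ᵥ x ∈ M) : Stb M a :=
  fun x hx => by rw [mulVec_dl]; exact M.add_mem hx (h x hx)

/-- the stabiliser of two subspaces -/
def JrSt (M M' : Submodule F (ι → F)) : Subgroup (SpecialLinearGroup ι F) where
  carrier := {g | Stb M g ∧ Stb M' g}
  one_mem' := ⟨Stb.jone, Stb.jone⟩
  mul_mem' := fun ha hb => ⟨ha.1.jmul hb.1, ha.2.jmul hb.2⟩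
  inv_mem' := fun ha => ⟨ha.1.jinv, ha.2.jinv⟩

theorem jr_le_St (h : M ≤ M') : Rd M M' ≤ JrSt M M' := fun _ hg =>
  ⟨jr_stb fun x _ => hg.1 x, jr_stb fun x _ => h (hg.1 x)⟩

theorem jr_conj {N N' : Submodule F (ι → F)} {g a : SpecialLinearGroup ι F}
    (h : ∀ x ∈ M, g.1 *ᵥ x ∈ N) (h' : ∀ x ∈ N ⊔ N', (g⁻¹).1 *ᵥ x ∈ M ⊔ M') (ha : a ∈ Rd M M') :
    g * a * g⁻¹ ∈ Rd N N' :=
  ⟨fun x => by rw [dl_conj]; exact h _ (ha.1 _),
    fun x hx => by rw [dl_conj, ha.2 _ (h' x hx), mulVec_zero]⟩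

theorem norm_Rd {g : SpecialLinearGroup ι F} (h : Stb M g) (h' : Stb M' g) :
    g ∈ 𝐍[Rd M M'] := by
  refine mem_normalizer_iff.2 fun a => ⟨jr_conj h (h.jsup h').jinv, fun ha => ?_⟩
  have := jr_conj (g := g⁻¹) h.jinv (by rw [inv_inv]; exact h.jsup h') ha
  simpa [mul_assoc] using this

/-- building a chain of subspaces -/
theorem jr_chain {P : Submodule F (ι → F) → Prop} {n : ℕ}
    (st : ∀ W, P W → Module.finrank F W < n → ∃ v ∉ W, P (W ⊔ F ∙ v)) {W : Submodule F (ι → F)}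
    (hW : P W) {j : ℕ} (h1 : Module.finrank F W ≤ j) (h2 : j ≤ n) :
    ∃ W', W ≤ W' ∧ P W' ∧ Module.finrank F W' = j := by
  induction j, h1 using Nat.le_induction with
  | base => exact ⟨W, le_rfl, hW, rfl⟩
  | succ j _ ih =>
    obtain ⟨W', a1, a2, a3⟩ := ih (by omega)
    obtain ⟨v, hv, hP⟩ := st W' a2 (by omega)
    exact ⟨_, a1.trans le_sup_left, hP, by rw [Submodule.finrank_sup_span_singleton hv, a3]⟩

theorem jr_fl {P : Submodule F (ι → F) → Prop}
    (st : ∀ W, P W → Module.finrank F W < Fintype.card ι - Fintype.card ι / 2 →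
      ∃ v ∉ W, P (W ⊔ F ∙ v)) {W : Submodule F (ι → F)}
    (hW : P W) (h1 : Module.finrank F W ≤ Fintype.card ι / 2) :
    ∃ M M', Fl M M' ∧ W ≤ M ∧ P M ∧ P M' := by
  obtain ⟨M, a1, a2, a3⟩ := jr_chain st hW h1 (by omega)
  obtain ⟨M', b1, b2, b3⟩ := jr_chain st a2 (j := Fintype.card ι - Fintype.card ι / 2) (by omega) le_rfl
  exact ⟨M, M', ⟨b1, a3, b3⟩, a1, a2, b2⟩

theorem jr_fix [CharP F 2] [Finite F] (hT : IsPGroup 2 T) {W : Submodule F (ι → F)}
    (hW : ∀ g ∈ T, Stb W g) (hne : W ≠ ⊤) : ∃ v ∉ W, ∀ g ∈ T, dl g *ᵥ v ∈ W := by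
  letI : MulAction T ((ι → F) ⧸ W) :=
    { smul := fun g => W.mapQ W (toLin' g.1.1) fun x hx => hW g.1 g.2 x hx
      one_smul := fun x => by
        obtain ⟨x, rfl⟩ := W.mkQ_surjective x
        change W.mapQ W _ _ _ = _
        simp
      mul_smul := fun a b x => by
        obtain ⟨x, rfl⟩ := W.mkQ_surjective x
        exact congrArg W.mkQ (mul_mulVec' a.1 b.1 x) }
  have h0 : (0 : (ι → F) ⧸ W) ∈ MulAction.fixedPoints T ((ι → F) ⧸ W) := fun g =>
    map_zero (W.mapQ W (toLin' g.1.1) fun x hx => hW g.1 g.2 x hx)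
  have hd : 2 ∣ Nat.card ((ι → F) ⧸ W) := by
    rw [Module.natCard_eq_pow_finrank (K := F)]
    have h1 : Module.finrank F ((ι → F) ⧸ W) ≠ 0 := by
      have := Submodule.finrank_lt hne
      have := W.finrank_quotient_add_finrank
      omega
    refine dvd_pow ?_ h1
    letI := Fintype.ofFinite F
    obtain ⟨n, -, hn⟩ := FiniteField.card F 2
    rw [Nat.card_eq_fintype_card, hn]
    exact dvd_pow_self 2 n.ne_zero
  haveI : Finite ((ι → F) ⧸ W) := Finite.of_surjective _ W.mkQ_surjective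
  obtain ⟨b, hb, hb0⟩ := hT.exists_fixed_point_of_prime_dvd_card_of_fixed_point _ hd h0
  obtain ⟨v, rfl⟩ := W.mkQ_surjective b
  refine ⟨v, fun h => hb0 ((Submodule.Quotient.mk_eq_zero W).2 h).symm, fun g hg => ?_⟩
  have h1 : W.mkQ (g.1 *ᵥ v) = W.mkQ v := hb ⟨g, hg⟩
  have h2 := (Submodule.Quotient.eq W).1 h1
  rwa [mulVec_dl, add_sub_cancel_left] at h2

theorem exists_fl [CharP F 2] [Finite F] (hT : IsPGroup 2 T) :
    ∃ M M', Fl M M' ∧ ∀ g ∈ T, Stb M g ∧ Stb M' g := by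
  obtain ⟨M, M', f, -, h1, h2⟩ := jr_fl (P := fun W => ∀ g ∈ T, Stb W g) (W := ⊥)
    (fun W hW hr => by
      obtain ⟨v, hv, h⟩ := jr_fix hT hW (by rintro rfl; simp at hr; omega)
      refine ⟨v, hv, fun g hg => jr_stb fun x hx => Submodule.mem_sup_left ?_⟩
      obtain ⟨y, hy, z, hz, rfl⟩ := Submodule.mem_sup.1 hx
      obtain ⟨c, rfl⟩ := Submodule.mem_span_singleton.1 hz
      rw [mulVec_add, mulVec_smul]
      exact W.add_mem ((hW g hg).jdl hy) (W.smul_mem _ (h g hg)))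
    (fun g _ x hx => by rw [(Submodule.mem_bot F).1 hx, mulVec_zero]; exact Submodule.zero_mem _)
    (by simp)
  exact ⟨M, M', f, fun g hg => ⟨h1 g hg, h2 g hg⟩⟩

theorem exists_fl_mem [CharP F 2] {g : SpecialLinearGroup ι F} (g2 : g * g = 1) :
    ∃ M M', Fl M M' ∧ g ∈ Rd M M' := by
  have h1 := LinearMap.finrank_range_add_finrank_ker (toLin' (dl g))
  have h2 : LinearMap.range (toLin' (dl g)) ≤ LinearMap.ker (toLin' (dl g)) := by
    rintro _ ⟨x, rfl⟩
    simpa using dl_dl g2 x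
  have h3 := Submodule.finrank_mono h2
  rw [Module.finrank_fintype_fun_eq_card] at h1
  obtain ⟨M, M', f, a1, -, a2⟩ := jr_fl (P := fun W => W ≤ LinearMap.ker (toLin' (dl g)))
    (fun W hW hr => by
      have : ¬ LinearMap.ker (toLin' (dl g)) ≤ W := fun h => by
        have := Submodule.finrank_mono h
        omega
      obtain ⟨v, hv, hv'⟩ := SetLike.not_le_iff_exists.1 this
      exact ⟨v, hv', sup_le hW ((Submodule.span_singleton_le_iff_mem _ _).2 hv)⟩) h2 (by omega)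
  exact ⟨M, M', f, (jr_mem f.le).2 ⟨fun x => a1 ⟨x, rfl⟩, fun x hx => by simpa using a2 hx⟩⟩

theorem jr_cj {N N' : Submodule F (ι → F)} {g : SpecialLinearGroup ι F} (h : M ≤ M') (h' : N ≤ N')
    (h1 : ∀ x ∈ M, g.1 *ᵥ x ∈ N) (h2 : ∀ x ∈ M', g.1 *ᵥ x ∈ N')
    (r1 : Module.finrank F M = Module.finrank F N) (r2 : Module.finrank F M' = Module.finrank F N') :
    cj(g, Rd M M') = Rd N N' := by
  refine le_antisymm (cj_le_iff_forall.2 fun a ha => jr_conj h1 ?_ ha) fun a ha => mem_cj.2 ?_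
  · rw [sup_eq_right.2 h, sup_eq_right.2 h']; exact jr_inv_map h2 r2
  · have := jr_conj (g := g⁻¹) (N' := M') (jr_inv_map h1 r1) ?_ ha
    · rwa [inv_inv] at this
    · rw [sup_eq_right.2 h, sup_eq_right.2 h', inv_inv]; exact h2

theorem Fl.jbot (f : Fl M M') (h : M = ⊥) : Fintype.card ι ≤ 1 := by
  have := f.rk
  rw [h, finrank_bot] at this
  omega

theorem Fl.jne_bot (f : Fl M M') (h : 2 ≤ Fintype.card ι) : M ≠ ⊥ := fun e => by
  have := f.jbot e
  omega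

theorem Fl.jne_top (f : Fl M M') (h : 2 ≤ Fintype.card ι) : M' ≠ ⊤ := fun e => by
  have := f.rk'
  rw [e, finrank_top, Module.finrank_fintype_fun_eq_card] at this
  omega

theorem jr_triv (h : Fintype.card ι ≤ 1) (g : SpecialLinearGroup ι F) : g = 1 := by
  haveI := Fintype.card_le_one_iff_subsingleton.1 h
  exact Subsingleton.elim _ _

theorem Fl.trans {N N' : Submodule F (ι → F)} (h : Fl M M') (h' : Fl N N') :
    ∃ g : SpecialLinearGroup ι F, cj(g, Rd M M') = Rd N N' ∧ cj(g, Rd M M) = Rd N N := by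
  by_cases hN : N = ⊥
  · have e : ∀ A B : Subgroup (SpecialLinearGroup ι F), A = B := fun A B => Subgroup.ext fun x => by
      rw [jr_triv (h'.jbot hN) x]; simp
    exact ⟨1, e _ _, e _ _⟩
  have r1 := h.rk.trans h'.rk.symm
  have r2 := h.rk'.trans h'.rk'.symm
  let e1 : M' ≃ₗ[F] N' := LinearEquiv.ofFinrankEq _ _ r2
  have r3 : Module.finrank F ((M.comap M'.subtype).map e1.toLinearMap) =
      Module.finrank F (N.comap N'.subtype) := by
    rw [LinearEquiv.finrank_map_eq, (Submodule.comapSubtypeEquivOfLe h.le).finrank_eq,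
      (Submodule.comapSubtypeEquivOfLe h'.le).finrank_eq, r1]
  haveI := Module.Free.of_divisionRing F ((M.comap M'.subtype).map e1.toLinearMap)
  haveI := Module.Free.of_divisionRing F (N.comap N'.subtype)
  obtain ⟨e2, h2⟩ := Submodule.exists_linearEquiv_restrict_eq (LinearEquiv.ofFinrankEq _ _ r3)
  obtain ⟨e, h3⟩ := Submodule.exists_linearEquiv_restrict_eq (e1.trans e2)
  have a2 : ∀ x ∈ M', e x ∈ N' := fun x hx => by
    rw [← h3 ⟨x, hx⟩]; exact Subtype.property _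
  have a1 : ∀ x ∈ M, e x ∈ N := fun x hx => by
    rw [← h3 ⟨x, h.le hx⟩, LinearEquiv.trans_apply, ← h2 ⟨e1 ⟨x, h.le hx⟩, ⟨x, h.le hx⟩, hx, rfl⟩]
    exact Subtype.property (p := fun y => y ∈ N.comap N'.subtype) _
  obtain ⟨u, hu, u0⟩ := (Submodule.ne_bot_iff N).1 hN
  obtain ⟨θ, hθ⟩ := exists_dot0 u0
  have hd : (LinearMap.toMatrix' e.toLinearMap).det ≠ 0 := by
    rw [LinearMap.det_toMatrix']; exact e.isUnit_det'.ne_zero
  let g : SpecialLinearGroup ι F := ⟨(1 + vecMulVec u (((LinearMap.toMatrix' e.toLinearMap).det⁻¹ - 1) •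
    θ)) * LinearMap.toMatrix' e.toLinearMap, by
      rw [det_mul, det_one_add_vv, smul_dotProduct, hθ, smul_eq_mul, mul_one, add_sub_cancel,
        inv_mul_cancel₀ hd]⟩
  have hg : ∀ x, ∃ c : F, g.1 *ᵥ x = e x + c • u := fun x =>
    ⟨_, by rw [← mulVec_mulVec, add_mulVec, one_mulVec, vv_mulVec, LinearMap.toMatrix'_mulVec]; rfl⟩
  have b1 : ∀ x ∈ M, g.1 *ᵥ x ∈ N := fun x hx => by
    obtain ⟨c, hc⟩ := hg x
    rw [hc]; exact N.add_mem (a1 x hx) (N.smul_mem _ hu)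
  have b2 : ∀ x ∈ M', g.1 *ᵥ x ∈ N' := fun x hx => by
    obtain ⟨c, hc⟩ := hg x
    rw [hc]; exact N'.add_mem (a2 x hx) (N'.smul_mem _ (h'.le hu))
  exact ⟨g, jr_cj h.le h'.le b1 b2 r1 r2, jr_cj le_rfl le_rfl b1 b1 r1 r1⟩

theorem Fl.card (f : Fl M M') : Nat.card (Rd M M) = Nat.card F ^ (Fintype.card ι ^ 2 / 4) ∧
    Nat.card (Rd M' M') = Nat.card F ^ (Fintype.card ι ^ 2 / 4) := by
  rw [card_Rd le_rfl, card_Rd le_rfl, f.rk, f.rk']
  generalize Fintype.card ι = m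
  obtain ⟨k, rfl | rfl⟩ := m.even_or_odd'
  · have h1 : 2 * k / 2 = k := by omega
    have h2 : (2 * k) ^ 2 / 4 = k * k := by rw [show (2 * k) ^ 2 = 4 * (k * k) by ring]; omega
    rw [h1, h2, show 2 * k - k = k by omega, show 2 * k - k = k by omega]
    exact ⟨rfl, rfl⟩
  · have h1 : (2 * k + 1) / 2 = k := by omega
    have h2 : (2 * k + 1) ^ 2 / 4 = k * (k + 1) := by
      rw [show (2 * k + 1) ^ 2 = 4 * (k * (k + 1)) + 1 by ring]; omega
    rw [h1, h2, show 2 * k + 1 - k = k + 1 by omega, show 2 * k + 1 - (k + 1) = k by omega,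
      mul_comm (k + 1)]
    exact ⟨rfl, rfl⟩

theorem el_Rd [CharP F 2] (M M' : Submodule F (ι → F)) : El (Rd M M') := fun g hg =>
  jr_one fun x => by
    rw [dl_mul, hg.2 _ (Submodule.mem_sup_left (hg.1 x)), add_zero, vadd_self]

end Cfsg.Agent.StdL
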