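import Cfsg.Agent.StdL.Bas
import Cfsg.Agent.StdL.JrA
import Cfsg.Agent.PLocal.Factorization

/-! Elementary abelian `2`-subgroups of maximal order in `SL ι F` (pure matrices).
`m = card ι`, `k = m / 2`, `M ≤ M'` of dimensions `k`, `m - k`, `R₀ = Rd M M'`.
`cent_of_max`: Thompson replacement gives a quadratic offender on `R₀ = M ⊗ ann M'`; there is none. -/

set_option autoImplicit false

namespace Cfsg.Agent.StdL

open Matrix Subgroup Cfsg.Agent.LnT Cfsg.Agent.PLocal.Amb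
open scoped commutatorElement

theorem jr_card_mul {G : Type*} [Group G] [Finite G] {X Y R : Subgroup G} (hX : X ≤ R) (hY : Y ≤ R)
    (h : ∀ x ∈ X, x ∈ Y → x = 1) : Nat.card X * Nat.card Y ≤ Nat.card R := by
  rw [← Nat.card_prod]
  refine Nat.card_le_card_of_injective
    (fun p : X × Y => (⟨p.1.1 * p.2.1, R.mul_mem (hX p.1.2) (hY p.2.2)⟩ : R)) ?_
  rintro ⟨a, b⟩ ⟨c, d⟩ e
  have e1 : a.1 * b.1 = c.1 * d.1 := Subtype.ext_iff.1 e
  have e2 : c.1⁻¹ * a.1 = d.1 * b.1⁻¹ := by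
    rw [inv_mul_eq_iff_eq_mul, ← mul_assoc, ← e1, mul_inv_cancel_right]
  have e3 := h _ (X.mul_mem (X.inv_mem c.2) a.2) (e2 ▸ Y.mul_mem d.2 (Y.inv_mem b.2))
  have e4 : c.1 = a.1 := inv_mul_eq_one.1 e3
  rw [e4] at e1
  exact Prod.ext (Subtype.ext e4.symm) (Subtype.ext (mul_left_cancel e1))

theorem jr_card_le {G S : Type*} [Group G] [Finite S] {A C : Subgroup G} (φ : A → S)
    (h : ∀ a b, φ a = φ b → a.1⁻¹ * b.1 ∈ C) :
    Nat.card A ≤ Nat.card (A ⊓ C : Subgroup G) * Nat.card S := by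
  rw [← (C.subgroupOf A).card_mul_index, ← inf_subgroupOf_left,
    Nat.card_congr (subgroupOfEquivOfLe inf_le_left).toEquiv, inf_subgroupOf_left]
  refine Nat.mul_le_mul_left _ (Nat.card_le_card_of_injective (fun q => φ q.out) fun p q e => ?_)
  rw [← p.out_eq', ← q.out_eq']
  exact QuotientGroup.eq.2 (h _ _ e)

theorem jr_isEA {G : Type*} [Group G] {A : Subgroup G} : IsElementaryAbelian 2 A ↔ El A :=
  ⟨fun h a ha => by rw [← sq]; exact h.2 a ha,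
    fun h => PLocal.isEA_iff.2 ⟨fun _ ha _ hb => h.comm ha hb, fun a ha => by rw [sq]; exact h a ha⟩⟩

variable {F ι : Type*} [Field F] [Fintype ι] [DecidableEq ι]
  {M M' : Submodule F (ι → F)} {T : Subgroup (SpecialLinearGroup ι F)}

/-- trivial on `M` and on `V / M'` -/
def JrC (M M' : Submodule F (ι → F)) (g : SpecialLinearGroup ι F) : Prop :=
  (∀ x ∈ M, dl g *ᵥ x = 0) ∧ ∀ y, dl g *ᵥ y ∈ M'

theorem JrC.cent (h : M ≤ M') {g : SpecialLinearGroup ι F} (hg : JrC M M' g) : g ∈ 𝐂[Rd M M'] :=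
  fun a ha => comm_of_dl fun x => by
    rw [((jr_mem h).1 ha).2 _ (hg.2 x), hg.1 _ (ha.1 x)]

theorem jr_dl_dot {g : SpecialLinearGroup ι F} {f : ι → F} (h : f ᵥ* g.1 = f) (y : ι → F) :
    f ⬝ᵥ dl g *ᵥ y = 0 := by rw [← vecMul_dot, dl_eq_zero'.2 h, zero_dotProduct]

theorem jr_mem_of_dot {v : ι → F} (h : ∀ f : ι → F, (∀ y ∈ M', f ⬝ᵥ y = 0) → f ⬝ᵥ v = 0) :
    v ∈ M' := by
  by_contra hv
  obtain ⟨f, h1, h2⟩ := exists_dot hv
  rw [h f h2] at h1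
  exact zero_ne_one h1

theorem jr_ann (h : M' ≠ ⊤) : ∃ f y : ι → F, f ⬝ᵥ y = 1 ∧ ∀ x ∈ M', f ⬝ᵥ x = 0 := by
  obtain ⟨y, hy⟩ : ∃ y, y ∉ M' := by
    by_contra hc
    push Not at hc
    exact h (eq_top_iff.2 fun y _ => hc y)
  obtain ⟨f, h1, h2⟩ := exists_dot hy
  exact ⟨f, y, h1, h2⟩

/-- the kernel of a covector -/
def jrK (f : ι → F) : Submodule F (ι → F) := LinearMap.ker (dotProductEquiv F ι f)

theorem jrK_mem {f x : ι → F} : x ∈ jrK f ↔ f ⬝ᵥ x = 0 := Iff.rfl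

theorem jrK_rk {f y : ι → F} (h : f ⬝ᵥ y = 1) : Fintype.card ι - Module.finrank F (jrK f) = 1 := by
  have h1 := LinearMap.finrank_range_add_finrank_ker (dotProductEquiv F ι f)
  have h2 : LinearMap.range (dotProductEquiv F ι f) = ⊤ := eq_top_iff.2 fun c _ =>
    ⟨c • y, by simp [h]⟩
  rw [h2, finrank_top, Module.finrank_self, Module.finrank_fintype_fun_eq_card] at h1
  unfold jrK
  omega

theorem jr_proj (W : Submodule F (ι → F)) : ∃ (P : Submodule F (ι → F)) (π : Matrix ι ι F),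
    Module.finrank F W + Module.finrank F P = Fintype.card ι ∧ W ⊓ P = ⊥ ∧ (∀ x, π *ᵥ x ∈ W) ∧
      (∀ x, x - π *ᵥ x ∈ P) ∧ (∀ x ∈ W, π *ᵥ x = x) ∧ ∀ x ∈ P, π *ᵥ x = 0 := by
  obtain ⟨g, hg⟩ := W.subtype.exists_leftInverse_of_injective W.ker_subtype
  have h1 : ∀ x : W, g x = x := fun x => LinearMap.congr_fun hg x
  have h2 := LinearMap.finrank_range_add_finrank_ker g
  rw [(LinearMap.range_eq_top (f := g)).2 fun x => ⟨x, h1 x⟩, finrank_top,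
    Module.finrank_fintype_fun_eq_card] at h2
  have h3 : ∀ x, LinearMap.toMatrix' (W.subtype ∘ₗ g) *ᵥ x = g x := fun x => by
    rw [LinearMap.toMatrix'_mulVec]; rfl
  refine ⟨LinearMap.ker g, LinearMap.toMatrix' (W.subtype ∘ₗ g), h2, eq_bot_iff.2 fun x hx => ?_,
    fun x => ?_, fun x => ?_, fun x hx => ?_, fun x hx => ?_⟩
  · have := h1 ⟨x, hx.1⟩
    rw [show g (⟨x, hx.1⟩ : W) = 0 from hx.2] at this
    exact (Subtype.ext_iff.1 this).symm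
  · rw [h3]; exact (g x).2
  · rw [h3, LinearMap.mem_ker, map_sub, h1, sub_self]
  · rw [h3, h1 ⟨x, hx⟩]
  · rw [h3, show g x = 0 from hx]; rfl

theorem jr_dl_comm {g h : SpecialLinearGroup ι F} (e : g * h = h * g) (x : ι → F) :
    dl g *ᵥ dl h *ᵥ x = dl h *ᵥ dl g *ᵥ x := by
  have := dl_comm e x
  rwa [mulVec_dl h x, mulVec_dl h, mulVec_add, add_right_inj] at this

theorem jr_dl_inv_mul (a b : SpecialLinearGroup ι F) (x : ι → F) :
    dl (a⁻¹ * b) *ᵥ x = (a⁻¹).1 *ᵥ (dl b *ᵥ x - dl a *ᵥ x) := by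
  have h : ∀ (g : SpecialLinearGroup ι F) y, dl g *ᵥ y = g.1 *ᵥ y - y := fun g y => by
    rw [mulVec_dl, add_sub_cancel_left]
  rw [h, h, h, sub_sub_sub_cancel_right, mulVec_sub, inv_mulVec_mulVec, mul_mulVec']

variable [CharP F 2]

theorem jr_fix_vec {g : SpecialLinearGroup ι F} {n : ℕ} (hg : g ^ 2 ^ n = 1) {x : ι → F} {c : F}
    (h : g.1 *ᵥ x = c • x) : g.1 *ᵥ x = x := by
  by_cases hx : x = 0
  · rw [hx, mulVec_zero]
  · rw [h, fix_of_pow h hx hg, one_smul]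

theorem jr_fix_cov {g : SpecialLinearGroup ι F} {n : ℕ} (hg : g ^ 2 ^ n = 1) {x : ι → F} {c : F}
    (h : x ᵥ* g.1 = c • x) : x ᵥ* g.1 = x := by
  have := jr_fix_vec (g := tr g⁻¹) (n := n) (x := x) (c := c) (by rw [← map_pow, inv_pow, hg]; simp)
    (by rw [tr_mulVec, inv_inv, h])
  rwa [tr_mulVec, inv_inv] at this

theorem jr_comm_tv {g : SpecialLinearGroup ι F} {n : ℕ} (hg : g ^ 2 ^ n = 1) {x f y : ι → F}
    (hx : x ≠ 0) (hf : f ⬝ᵥ y = 1) (h : f ⬝ᵥ x = 0) (e : g * tv x f = tv x f * g) :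
    g.1 *ᵥ x = x ∧ f ᵥ* g.1 = f := by
  have h1 := (comm_tv_iff h).1 e y
  rw [hf, one_smul] at h1
  have h2 := jr_fix_vec hg h1
  exact ⟨h2, by simpa using vecMul_of_comm h hx (a := 1) (by rw [h2, one_smul]) e⟩

theorem jr_of_cent (h : M ≤ M') (h0 : M ≠ ⊥) (h1 : M' ≠ ⊤) {g : SpecialLinearGroup ι F} {n : ℕ}
    (hg : g ^ 2 ^ n = 1) (hc : g ∈ 𝐂[Rd M M']) : JrC M M' g := by
  constructor
  · intro x hx
    by_cases x0 : x = 0
    · rw [x0, mulVec_zero]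
    obtain ⟨f, y, a1, a2⟩ := jr_ann h1
    exact dl_eq_zero.2 (jr_comm_tv hg x0 a1 (a2 x (h hx)) (hc _ (jr_tv h hx a2)).symm).1
  · intro y
    by_contra hy
    obtain ⟨f, a1, a2⟩ := exists_dot hy
    obtain ⟨x, hx, x0⟩ := (Submodule.ne_bot_iff M).1 h0
    rw [jr_dl_dot (jr_comm_tv hg x0 a1 (a2 x (h hx)) (hc _ (jr_tv h hx a2)).symm).2] at a1
    exact zero_ne_one a1

theorem Fl.cent (f : Fl M M') (h2 : 2 ≤ Fintype.card ι) {g : SpecialLinearGroup ι F} {n : ℕ}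
    (hg : g ^ 2 ^ n = 1) (hc : g ∈ 𝐂[Rd M M]) : g ∈ Rd M M :=
  have := jr_of_cent le_rfl (f.jne_bot h2) (ne_top_of_le_ne_top (f.jne_top h2) f.le) hg hc
  (jr_mem le_rfl).2 ⟨this.2, this.1⟩

theorem jr_pow {g : SpecialLinearGroup ι F} (h : g * g = 1) : g ^ 2 ^ 1 = 1 := by
  rw [pow_one, sq, h]

theorem el_le (f : Fl M M') {A : Subgroup (SpecialLinearGroup ι F)} (hA : El A)
    (hc : A ≤ 𝐂[Rd M M']) : A ≤ Rd M M ∨ A ≤ Rd M' M' := by
  by_cases h2 : Fintype.card ι ≤ 1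
  · exact Or.inl fun g _ => by rw [jr_triv h2 g]; exact one_mem _
  refine SubgroupClass.subset_union.1 fun g hg => ?_
  have c := jr_of_cent f.le (f.jne_bot (by omega)) (f.jne_top (by omega)) (jr_pow (hA g hg)) (hc hg)
  by_cases h : ∀ y, dl g *ᵥ y ∈ M
  · exact Or.inl ((jr_mem le_rfl).2 ⟨h, c.1⟩)
  push Not at h
  obtain ⟨y, hy⟩ := h
  have e : M ⊔ F ∙ (dl g *ᵥ y) = M' := Submodule.eq_of_le_of_finrank_le
    (sup_le f.le ((Submodule.span_singleton_le_iff_mem _ _).2 (c.2 y)))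
    (by rw [Submodule.finrank_sup_span_singleton hy, f.rk, f.rk']; omega)
  refine Or.inr ((jr_mem le_rfl).2 ⟨c.2, fun x hx => ?_⟩)
  rw [← e] at hx
  obtain ⟨u, hu, z, hz, rfl⟩ := Submodule.mem_sup.1 hx
  obtain ⟨a, rfl⟩ := Submodule.mem_span_singleton.1 hz
  rw [mulVec_add, mulVec_smul, c.1 u hu, dl_dl (hA g hg), smul_zero, add_zero]

variable [Finite F]

theorem idx (f : Fl M M') {s : SpecialLinearGroup ι F} {n : ℕ} (hs : s ^ 2 ^ n = 1) (h : Stb M s)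
    (h' : Stb M' s) (hc : s ∉ 𝐂[Rd M M']) : Nat.card F ^ (Fintype.card ι / 2) *
      Nat.card (Rd M M' ⊓ centralizer {s} : Subgroup _) ≤ Nat.card (Rd M M') := by
  have cm : ∀ a ∈ Rd M M' ⊓ centralizer {s}, ∀ y, dl a *ᵥ s.1 *ᵥ y = s.1 *ᵥ dl a *ᵥ y :=
    fun a ha => dl_comm (ha.2 s rfl).symm
  by_cases h1 : ∀ x ∈ M, dl s *ᵥ x = 0
  · obtain ⟨y, hy⟩ : ∃ y, dl s *ᵥ y ∉ M' := by
      by_contra hn
      push Not at hn
      exact hc (JrC.cent f.le ⟨h1, hn⟩)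
    obtain ⟨φ, a1, a2⟩ := exists_dot hy
    have hK : M ≤ jrK φ := f.le.trans a2
    have e := card_Rd hK
    rw [jrK_rk a1, mul_one, f.rk] at e
    rw [← e]
    refine jr_card_mul (fun a ha => (jr_mem f.le).2 ⟨ha.1, fun x hx =>
      ((jr_mem hK).1 ha).2 x (a2 x hx)⟩) inf_le_left fun a ha ha' => jr_one fun x => ?_
    have k := ((jr_mem hK).1 ha).2
    have e1 := cm a ha' y
    rw [dl_eq_zero.1 (h1 _ (ha.1 y)), mulVec_dl s y, mulVec_add, add_eq_left] at e1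
    have e2 := k (x - (φ ⬝ᵥ x) • dl s *ᵥ y) (by rw [jrK_mem, dotProduct_sub, dotProduct_smul, a1]; simp)
    rwa [mulVec_sub, mulVec_smul, e1, smul_zero, sub_zero] at e2
  · push Not at h1
    obtain ⟨x, hx, hx0⟩ := h1
    have x0 : x ≠ 0 := by rintro rfl; exact hx0 (mulVec_zero _)
    have hK : (F ∙ x) ≤ M := (Submodule.span_singleton_le_iff_mem _ _).2 hx
    have e := card_Rd (hK.trans f.le)
    rw [finrank_span_singleton x0, one_mul, f.rk', Nat.sub_sub_self (Nat.div_le_self _ _)] at e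
    rw [← e]
    refine jr_card_mul (fun a ha => (jr_mem f.le).2 ⟨fun y => hK (ha.1 y),
      ((jr_mem (hK.trans f.le)).1 ha).2⟩) inf_le_left fun a ha ha' => jr_one fun y => ?_
    obtain ⟨c, hc⟩ := Submodule.mem_span_singleton.1 (ha.1 y)
    obtain ⟨d, hd⟩ := Submodule.mem_span_singleton.1 (ha.1 (s.1 *ᵥ y))
    by_contra hy
    have c0 : c ≠ 0 := by rintro rfl; exact hy (by rw [← hc, zero_smul])
    rw [cm a ha', ← hc, mulVec_smul] at hd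
    exact hx0 (dl_eq_zero.2 (jr_fix_vec hs (c := c⁻¹ * d)
      (by rw [mul_smul, hd, inv_smul_smul₀ c0])))

/-- a quadratic elementary abelian group on `R₀` -/
structure JrQ (M M' : Submodule F (ι → F)) (A : Subgroup (SpecialLinearGroup ι F)) : Prop where
  fl : Fl M M'
  el : El A
  st : A ≤ JrSt M M'
  qd : ⁅⁅Rd M M', A⁆, A⁆ = ⊥
  two : 2 ≤ Fintype.card ι

namespace JrQ

variable {A : Subgroup (SpecialLinearGroup ι F)} (q : JrQ M M' A) {a b : SpecialLinearGroup ι F}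
  {x φ : ι → F}
include q

omit [Finite F] in
theorem id (ha : a ∈ A) (hb : b ∈ A) (hx : x ∈ M) (hφ : ∀ y ∈ M', φ ⬝ᵥ y = 0) (y : ι → F) :
    (φ ⬝ᵥ b.1 *ᵥ y) • x + ((φ ᵥ* a.1) ⬝ᵥ b.1 *ᵥ y) • a.1 *ᵥ x =
      (φ ⬝ᵥ y) • b.1 *ᵥ x + ((φ ᵥ* a.1) ⬝ᵥ y) • a.1 *ᵥ b.1 *ᵥ x := by
  have h1 := (commutator_eq_bot_iff_le_centralizer.1 q.qd)
    (commutator_mem_commutator (jr_tv q.fl.le hx hφ) ha) b hb
  have ai : a⁻¹ = a := inv_of_sq (q.el a ha)
  have h2 : ⁅tv x φ, a⁆ = tv x φ * tv (a.1 *ᵥ x) (φ ᵥ* a.1) := by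
    have := tv_conj a x φ
    rw [ai] at this
    rw [commutatorElement_def, tv_inv, ← this, ai]
    simp only [mul_assoc]
  have h3 : φ ⬝ᵥ a.1 *ᵥ x = 0 := hφ _ (q.fl.le ((q.st ha).1 x hx))
  have h4 : (φ ᵥ* a.1) ⬝ᵥ a.1 *ᵥ x = 0 := by
    rw [vecMul_dot, ← mul_mulVec', q.el a ha]
    simpa using hφ x (q.fl.le hx)
  have h5 : ∀ z, dl ⁅tv x φ, a⁆ *ᵥ z = (φ ⬝ᵥ z) • x + ((φ ᵥ* a.1) ⬝ᵥ z) • a.1 *ᵥ x := fun z => by
    rw [h2, dl_mul, dl_tv h4, dl_tv (hφ x (q.fl.le hx)), dl_tv (hφ x (q.fl.le hx)), dotProduct_smul,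
      h3, smul_zero, zero_smul, add_zero]
  have h6 := dl_comm h1.symm y
  rwa [h5, h5, mulVec_add, mulVec_smul, mulVec_smul, ← mul_mulVec' b a, q.el.comm hb ha,
    mul_mulVec'] at h6

omit [Finite F] in
theorem K1 (ha : a ∈ A) (hb : b ∈ A) (hx : x ∈ M) (h1 : dl a *ᵥ x ≠ 0) (h2 : b.1 *ᵥ x = x)
    (y : ι → F) : dl b *ᵥ y ∈ M' := jr_mem_of_dot fun φ hφ => by
  have h := q.id ha hb hx hφ y
  rw [h2] at h
  have x0 : x ≠ 0 := by rintro rfl; exact h1 (mulVec_zero _)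
  have h3 := (indep_eq x0 (u := a.1 *ᵥ x)
    (fun c e => h1 (dl_eq_zero.2 (jr_fix_vec (jr_pow (q.el a ha)) e)))
    (a := φ ⬝ᵥ b.1 *ᵥ y - φ ⬝ᵥ y) (b := (φ ᵥ* a.1) ⬝ᵥ b.1 *ᵥ y - (φ ᵥ* a.1) ⬝ᵥ y)
    (by rw [sub_smul, sub_smul, sub_add_sub_comm, h, sub_self])).1
  rwa [mulVec_dl, dotProduct_add, add_sub_cancel_left] at h3

omit [Finite F] in
theorem K2 (ha : a ∈ A) (hb : b ∈ A) {y : ι → F} (h1 : dl a *ᵥ y ∉ M') (h2 : ∀ z, dl b *ᵥ z ∈ M')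
    (hx : x ∈ M) : dl b *ᵥ x = 0 := by
  obtain ⟨φ, a1, hφ⟩ := exists_dot h1
  have hn : ∀ c : F, φ ≠ c • φ ᵥ* a.1 := fun c e => by
    have e1 : φ ᵥ* a.1 = c • φ := by
      conv_lhs => rw [e]
      rw [smul_vecMul, ← vecMul_mul', q.el a ha]; simp
    rw [jr_dl_dot (jr_fix_cov (jr_pow (q.el a ha)) e1)] at a1
    exact zero_ne_one a1
  obtain ⟨z, z1, z2⟩ := exists_dot1 hn
  rw [dotProduct_comm] at z1 z2
  have h := q.id ha hb hx hφ z
  rw [mulVec_dl b z, dotProduct_add, dotProduct_add, hφ _ (h2 z), vecMul_dot φ (dl b *ᵥ z),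
    hφ _ ((q.st ha).2 _ (h2 z)), z1, z2] at h
  simpa [dl_eq_zero] using h.symm

omit [Finite F] in
theorem card_R : Nat.card (Rd M M') = Nat.card F ^ (Fintype.card ι / 2 * (Fintype.card ι / 2)) := by
  rw [card_Rd q.fl.le, q.fl.rk, q.fl.rk', Nat.sub_sub_self (Nat.div_le_self _ _)]

/-- two-sided case -/
theorem both (ha : a ∈ A) (hx : x ∈ M) (h1 : dl a *ᵥ x ≠ 0) (hb : b ∈ A) {y : ι → F}
    (h2 : dl b *ᵥ y ∉ M') : ∃ s, Nat.card A ≤ Nat.card (A ⊓ 𝐂[Rd M M'] : Subgroup _) * s ∧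
      s * Nat.card (Rd M M' ⊓ 𝐂[A] : Subgroup _) < Nat.card (Rd M M') := by
  have x0 : x ≠ 0 := by rintro rfl; exact h1 (mulVec_zero _)
  refine ⟨Nat.card {u : M // u ≠ 0}, jr_card_le (fun c => ⟨⟨c.1.1 *ᵥ x, (q.st c.2).1 x hx⟩,
    fun e => x0 ?_⟩) fun c d e => ?_, ?_⟩
  · rw [← inv_mulVec_mulVec c.1 x, show c.1.1 *ᵥ x = 0 from Subtype.ext_iff.1 e, mulVec_zero]
  · have e1 : c.1.1 *ᵥ x = d.1.1 *ᵥ x := Subtype.ext_iff.1 (Subtype.ext_iff.1 e)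
    have m := A.mul_mem (A.inv_mem c.2) d.2
    have e2 := q.K1 ha m hx h1 (by rw [mul_mulVec', ← e1, inv_mulVec_mulVec])
    exact JrC.cent q.fl.le ⟨fun z hz => q.K2 hb m h2 e2 hz, e2⟩
  · have h3 : Nat.card {u : M // u ≠ 0} < Nat.card F ^ (Fintype.card ι / 2) := by
      rw [← q.fl.rk, ← Module.natCard_eq_pow_finrank]
      exact Finite.card_subtype_lt (x := 0) (by simp)
    refine lt_of_lt_of_le ?_ (idx q.fl (jr_pow (q.el a ha)) (q.st ha).1 (q.st ha).2 fun hc => h1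
      ((jr_of_cent q.fl.le (q.fl.jne_bot q.two) (q.fl.jne_top q.two) (jr_pow (q.el a ha)) hc).1 x hx))
    exact Nat.mul_lt_mul_of_lt_of_le h3 (card_le_of_le (inf_le_inf_left _
      (centralizer_le (Set.singleton_subset_iff.2 ha)))) Nat.card_pos

/-- `A` trivial on `V / M'` -/
theorem left (ha : a ∈ A) (hx : x ∈ M) (h1 : dl a *ᵥ x ≠ 0) (h2 : ∀ b ∈ A, ∀ y, dl b *ᵥ y ∈ M') :
    ∃ s, Nat.card A ≤ Nat.card (A ⊓ 𝐂[Rd M M'] : Subgroup _) * s ∧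
      s * Nat.card (Rd M M' ⊓ 𝐂[A] : Subgroup _) < Nat.card (Rd M M') := by
  let X : Submodule F (ι → F) := M ⊓ ⨅ b ∈ A, LinearMap.ker (toLin' (dl b))
  have mX : ∀ u, u ∈ X ↔ u ∈ M ∧ ∀ b ∈ A, dl b *ᵥ u = 0 := fun u => by simp [X]
  have XM : X < M := lt_of_le_of_ne inf_le_left fun e => h1 (((mX x).1 (e ▸ hx)).2 a ha)
  have r1 := Submodule.finrank_lt_finrank_of_lt XM
  obtain ⟨P, π, p1, p2, p3, -, p5, p6⟩ := jr_proj M
  obtain ⟨φ, y, a1, a2⟩ := jr_ann (q.fl.jne_top q.two)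
  have hq : ∀ b ∈ A, ∀ u ∈ M, dl b *ᵥ u ∈ X := fun b hb u hu =>
    (mX _).2 ⟨(q.st hb).1.jdl hu, fun c hc => by
      have h := q.id hb hc hu a2 y
      have e : φ ᵥ* b.1 = φ := dext fun z => by
        rw [vecMul_dot, mulVec_dl, dotProduct_add, a2 _ (h2 b hb z), add_zero]
      rw [e, mulVec_dl c y, dotProduct_add, a2 _ (h2 c hc y), add_zero, a1, one_smul, one_smul,
        one_smul, one_smul, mulVec_dl b, mulVec_dl b, ← add_assoc, ← add_assoc, vadd_self, vadd_self,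
        zero_add, zero_add, mulVec_dl c, mulVec_add, left_eq_add] at h
      rw [jr_dl_comm (q.el.comm hc hb), h]⟩
  refine ⟨Nat.card (JrH X (X ⊔ P)), jr_card_le (fun c => ⟨dl c.1 * π, fun u => ?_, fun u hu => ?_⟩)
    fun c d e => JrC.cent q.fl.le ⟨fun u hu => ?_, h2 _ (A.mul_mem (A.inv_mem c.2) d.2)⟩, ?_⟩
  · rw [← mulVec_mulVec]; exact hq _ c.2 _ (p3 u)
  · obtain ⟨v, hv, w, hw, rfl⟩ := Submodule.mem_sup.1 hu
    rw [← mulVec_mulVec, mulVec_add, p5 v (XM.le hv), p6 w hw, add_zero, ((mX v).1 hv).2 _ c.2]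
  · have e1 := congrArg (· *ᵥ u) (show dl c.1 * π = dl d.1 * π from Subtype.ext_iff.1 e)
    simp only [← mulVec_mulVec, p5 u hu] at e1
    rw [jr_dl_inv_mul, e1, sub_self, mulVec_zero]
  · have l1 : Rd M M' ⊓ 𝐂[A] ≤ Rd X M' := fun h hh => (jr_mem (XM.le.trans q.fl.le)).2
      ⟨fun u => (mX _).2 ⟨hh.1.1 u, fun b hb => by
        rw [jr_dl_comm (hh.2 b hb), ((jr_mem q.fl.le).1 hh.1).2 _ (h2 b hb u)]⟩,
        ((jr_mem q.fl.le).1 hh.1).2⟩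
    have l2 := Submodule.finrank_sup_add_finrank_inf_eq X P
    rw [show X ⊓ P = ⊥ from eq_bot_iff.2 (p2 ▸ inf_le_inf_right _ XM.le), finrank_bot, add_zero] at l2
    refine lt_of_le_of_lt (Nat.mul_le_mul_left _ (card_le_of_le l1)) ?_
    rw [q.card_R, jr_cardH, card_Rd (XM.le.trans q.fl.le), ← pow_add, q.fl.rk', l2,
      Nat.sub_sub_self (Nat.div_le_self _ _)]
    refine Nat.pow_lt_pow_right Finite.one_lt_card ?_
    rw [q.fl.rk] at r1 p1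
    obtain ⟨c, hc⟩ := Nat.exists_eq_add_of_lt r1
    rw [show Fintype.card ι - (Module.finrank F X + Module.finrank F P) = c + 1 by omega, hc]
    nlinarith

/-- `A` trivial on `M` -/
theorem right (ha : a ∈ A) {y : ι → F} (h1 : dl a *ᵥ y ∉ M') (h2 : ∀ b ∈ A, ∀ x ∈ M, dl b *ᵥ x = 0) :
    ∃ s, Nat.card A ≤ Nat.card (A ⊓ 𝐂[Rd M M'] : Subgroup _) * s ∧
      s * Nat.card (Rd M M' ⊓ 𝐂[A] : Subgroup _) < Nat.card (Rd M M') := by
  let Y : Submodule F (ι → F) := M' ⊔ ⨆ b ∈ A, LinearMap.range (toLin' (dl b))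
  have mY : ∀ b ∈ A, ∀ u, dl b *ᵥ u ∈ Y := fun b hb u => Submodule.mem_sup_right
    (Submodule.mem_iSup_of_mem b (Submodule.mem_iSup_of_mem hb ⟨u, rfl⟩))
  have Yle : ∀ Z : Submodule F (ι → F), M' ≤ Z → (∀ b ∈ A, ∀ u, dl b *ᵥ u ∈ Z) → Y ≤ Z :=
    fun Z z1 z2 => sup_le z1 (iSup₂_le fun b hb => by rintro _ ⟨u, rfl⟩; exact z2 b hb u)
  have MY : M' < Y := lt_of_le_of_ne le_sup_left fun e => h1 (e ▸ mY a ha y)
  have r1 := Submodule.finrank_lt_finrank_of_lt MY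
  obtain ⟨P, π, -, p2, p3, p4, p5, -⟩ := jr_proj M'
  obtain ⟨x, hx, x0⟩ := (Submodule.ne_bot_iff M).1 (q.fl.jne_bot q.two)
  have hq : ∀ c ∈ A, ∀ u ∈ Y, dl c *ᵥ u ∈ M' := fun c hc => Yle (M'.comap (toLin' (dl c)))
    (fun u hu => (q.st hc).2.jdl hu) fun b hb u => jr_mem_of_dot (M' := M') fun φ hφ => by
      have h := q.id hb hc hx hφ u
      rw [dl_eq_zero.1 (h2 c hc x hx), dl_eq_zero.1 (h2 b hb x hx), ← add_smul, ← add_smul,
        vecMul_dot, vecMul_dot, mulVec_dl b, mulVec_dl b, dotProduct_add, dotProduct_add, ← add_assoc,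
        ← add_assoc, CharTwo.add_self_eq_zero, CharTwo.add_self_eq_zero, zero_add, zero_add,
        mulVec_dl c, mulVec_add, dotProduct_add] at h
      rw [toLin'_apply, jr_dl_comm (q.el.comm hc hb)]
      exact add_eq_left.1 (smul_left_injective F x0 h)
  refine ⟨Nat.card (JrH (Y ⊓ P) Y), jr_card_le (fun c => ⟨(1 - π) * dl c.1, fun u => ?_,
    fun u hu => ?_⟩) fun c d e => JrC.cent q.fl.le ⟨h2 _ (A.mul_mem (A.inv_mem c.2) d.2),
      fun u => ?_⟩, ?_⟩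
  · rw [← mulVec_mulVec, sub_mulVec, one_mulVec]
    exact ⟨Y.sub_mem (mY _ c.2 u) (MY.le (p3 _)), p4 _⟩
  · rw [← mulVec_mulVec, sub_mulVec, one_mulVec, p5 _ (hq _ c.2 u hu), sub_self]
  · have e1 := congrArg (· *ᵥ u) (show (1 - π) * dl c.1 = (1 - π) * dl d.1 from Subtype.ext_iff.1 e)
    simp only [← mulVec_mulVec, sub_mulVec, one_mulVec] at e1
    rw [jr_dl_inv_mul, sub_eq_sub_iff_sub_eq_sub.1 e1.symm]
    exact (q.st (A.inv_mem c.2)).2 _ (M'.sub_mem (p3 _) (p3 _))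
  · have l1 : Rd M M' ⊓ 𝐂[A] ≤ Rd M Y := fun h hh => (jr_mem (q.fl.le.trans MY.le)).2
      ⟨hh.1.1, Yle (LinearMap.ker (toLin' (dl h))) ((jr_mem q.fl.le).1 hh.1).2 fun b hb u => by
        rw [LinearMap.mem_ker, toLin'_apply, ← jr_dl_comm (hh.2 b hb), h2 b hb _ (hh.1.1 u)]⟩
    have l2 := Submodule.finrank_sup_add_finrank_inf_eq M' (Y ⊓ P)
    rw [show M' ⊓ (Y ⊓ P) = ⊥ from eq_bot_iff.2 (p2 ▸ inf_le_inf_left _ inf_le_right), finrank_bot,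
      add_zero] at l2
    have l3 := Submodule.finrank_mono (sup_le MY.le inf_le_left : M' ⊔ Y ⊓ P ≤ Y)
    have l4 := jr_rk_le Y
    refine lt_of_le_of_lt (Nat.mul_le_mul_left _ (card_le_of_le l1)) ?_
    rw [q.card_R, jr_cardH, card_Rd (q.fl.le.trans MY.le), ← pow_add, q.fl.rk]
    refine Nat.pow_lt_pow_right Finite.one_lt_card ?_
    rw [l2, q.fl.rk'] at l3
    rw [q.fl.rk'] at r1
    obtain ⟨e, he⟩ := Nat.exists_eq_add_of_le l4
    obtain ⟨d, hd⟩ : ∃ d, Fintype.card ι / 2 = e + d + 1 := ⟨Fintype.card ι / 2 - e - 1, by omega⟩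
    have l5 : Module.finrank F (Y ⊓ P : Submodule F _) ≤ d + 1 := by omega
    rw [show Fintype.card ι - Module.finrank F Y = e by omega, hd]
    nlinarith

end JrQ

theorem cent_of_max (f : Fl M M') (hT : IsPGroup 2 T) (hs : ∀ g ∈ T, Stb M g ∧ Stb M' g)
    (hR : Rd M M' ≤ T) {A : Subgroup (SpecialLinearGroup ι F)} (hA : El A) (hAT : A ≤ T)
    (hm : ∀ B ≤ T, El B → Nat.card B ≤ Nat.card A) : A ≤ 𝐂[Rd M M'] := by
  by_cases h2 : Fintype.card ι ≤ 1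
  · exact fun g _ => by rw [jr_triv h2 g]; exact one_mem _
  by_contra hc
  have hE := jr_isEA.2 (el_Rd M M')
  obtain ⟨h1, h3, h4⟩ := PLocal.thompson_replacement_maxEA hE hR
    (fun g hg => norm_Rd (hs g (hAT hg)).1 (hs g (hAT hg)).2)
    ⟨hAT, jr_isEA.2 hA, fun B b1 b2 => hm B b1 (jr_isEA.1 b2)⟩
  have h5 := h4 fun e => hc (le_centralizer_iff.1 (commutator_eq_bot_iff_le_centralizer.1 e))
  generalize ⁅Rd M M', A⁆ ⊔ A ⊓ 𝐂[⁅Rd M M', A⁆] = B at h1 h3 h5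
  have q : JrQ M M' B := ⟨f, jr_isEA.1 h1.2.1, fun g hg => hs g (h1.1 hg), h3, by omega⟩
  obtain ⟨s, s1, s2⟩ : ∃ s, Nat.card B ≤ Nat.card (B ⊓ 𝐂[Rd M M'] : Subgroup _) * s ∧
      s * Nat.card (Rd M M' ⊓ 𝐂[B] : Subgroup _) < Nat.card (Rd M M') := by
    by_cases c1 : ∀ b ∈ B, ∀ x ∈ M, dl b *ᵥ x = 0 <;> by_cases c2 : ∀ b ∈ B, ∀ y, dl b *ᵥ y ∈ M'
    · exact absurd (commutator_eq_bot_iff_le_centralizer.2 (le_centralizer_iff.1 fun b hb =>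
        JrC.cent f.le ⟨c1 b hb, c2 b hb⟩)) h5
    · push Not at c2
      obtain ⟨b, hb, y, hy⟩ := c2
      exact q.right hb hy c1
    · push Not at c1
      obtain ⟨a, ha, x, hx, h⟩ := c1
      exact q.left ha hx h c2
    · push Not at c1 c2
      obtain ⟨a, ha, x, hx, h⟩ := c1
      obtain ⟨b, hb, y, hy⟩ := c2
      exact q.both ha hx h hb hy
  have e1 := PLocal.card_sup_mul_card_inf (A := B ⊓ 𝐂[Rd M M']) (B := Rd M M')
    (inf_le_right.trans (centralizer_le_normalizer' _))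
  have e2 := h1.2.2 _ (sup_le (inf_le_left.trans h1.1) hR)
    (PLocal.isEA_sup (PLocal.isEA_mono h1.2.1 inf_le_left) hE inf_le_right)
  have e3 : Nat.card (B ⊓ 𝐂[Rd M M'] ⊓ Rd M M' : Subgroup _) ≤
      Nat.card (Rd M M' ⊓ 𝐂[B] : Subgroup _) := card_le_of_le (le_inf inf_le_right
        ((inf_le_left.trans inf_le_left).trans (PLocal.isEA_le_centralizer h1.2.1)))
  have e4 := Nat.mul_le_mul (e2.trans s1) e3
  rw [e1, mul_assoc] at e4
  exact s2.not_ge (Nat.le_of_mul_le_mul_left e4 Nat.card_pos)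

/-- Schur's bound -/
theorem card_el_le {A : Subgroup (SpecialLinearGroup ι F)} (hA : El A) :
    Nat.card A ≤ Nat.card F ^ (Fintype.card ι ^ 2 / 4) := by
  obtain ⟨M, M', f, hs⟩ := exists_fl (pgrp_of_sq hA)
  have hT : IsPGroup 2 (A ⊔ Rd M M' : Subgroup _) := isPGroup_sup (pgrp_of_sq hA)
    (pgrp_of_sq (el_Rd M M')) fun g hg => norm_Rd (hs g hg).1 (hs g hg).2
  obtain ⟨B, b1, b2, b3⟩ := PLocal.maxEA_nonempty 2 (A ⊔ Rd M M')
  have h := cent_of_max f hT (sup_le (show A ≤ JrSt M M' from hs) (jr_le_St f.le)) le_sup_right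
    (jr_isEA.1 b2) b1 fun C c1 c2 => b3 C c1 (jr_isEA.2 c2)
  refine (b3 A le_sup_left (jr_isEA.2 hA)).trans ?_
  rcases el_le f (jr_isEA.1 b2) h with h | h
  · exact f.card.1 ▸ card_le_of_le h
  · exact f.card.2 ▸ card_le_of_le h

end Cfsg.Agent.StdL
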