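import Cfsg.Agent.StdL.MovA

/-! If `t` is fused to a transvection `z` or to `t z`, then `N(V⟨t⟩)` moves `t`: for a suitable `g` the
group `g⁻¹ V⟨t⟩ g` contains `t` and has the same shape. -/

set_option autoImplicit false

namespace Cfsg.Agent.StdL

open Matrix Subgroup Cfsg.Agent.LnT Cfsg.Agent.PLocal.Amb
open scoped commutatorElement

variable {F ι G : Type*} [Field F] [Fintype ι] [DecidableEq ι] [Group G] [CharP F 2] [Finite F]
  [Finite G] {r : SpecialLinearGroup ι F →* G} {t : G}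

theorem Su.mv_fin (h : Su r t) {B : Subgroup G} {e : ι → F} (he : e ≠ 0)
    (mx : ∀ c, c * c = 1 → (∀ b ∈ B, c * b = b * c) → c ∈ B) (tB : t ∈ B)
    (hV : ∀ b ∈ B, b ∈ Vg r e ∨ b * t ∈ Vg r e) {s : G} (h1 : s ∈ B) (h2 : s ≠ 1) (h3 : s ≠ t) :
    ∃ c ∈ 𝐍[B], c * s * c⁻¹ ≠ s := by
  have tt : ∀ b : G, b * t * t = b := fun b => by rw [mul_assoc, h.tt, mul_one]
  have VB : Vg r e ≤ B := fun v hv => mx v (el_Vg e v hv) fun b hb => by
    rcases hV b hb with a | a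
    · exact (el_Vg e).comm hv a
    · obtain ⟨φ, -, rfl⟩ := mem_Vg.1 hv
      rw [← tt b, ← mul_assoc, (el_Vg e).comm hv a, mul_assoc, ← h.tc, ← mul_assoc]
  obtain ⟨φ, p1, p2, p3⟩ : ∃ φ, φ ⬝ᵥ e = 0 ∧ φ ≠ 0 ∧ (s = r (tv e φ) ∨ s = r (tv e φ) * t) := by
    rcases hV s h1 with a | a <;> obtain ⟨φ, p1, p2⟩ := mem_Vg.1 a
    · exact ⟨φ, p1, by rintro rfl; exact h2 (by rw [← p2, tv_zero, map_one]), Or.inl p2.symm⟩
    · exact ⟨φ, p1, by rintro rfl; exact h3 (by rw [← tt s, ← p2, tv_zero, map_one, one_mul]),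
        Or.inr (by rw [p2, tt])⟩
  obtain ⟨ψ, q1, q2⟩ := exists_11 h.three e φ
  rw [dotProduct_comm] at q1
  obtain ⟨x, x1, x2⟩ := h.trans_V he p1 q1 p2 fun e => q2 0 (by simp [e])
  have xt : ∀ b, r x * (b * t) * (r x)⁻¹ = r x * b * (r x)⁻¹ * t := fun b => by
    rw [← map_inv, mul_assoc (r x * b), ← h.tc]; simp only [mul_assoc]
  have xV : ∀ v ∈ Vg r e, r x * v * (r x)⁻¹ ∈ B := fun v hv =>
    VB (by rw [← x1, ← cj_Vg]; exact conj_mem_cj _ hv)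
  refine ⟨r x, mem_normalizer_of_cj_le (cj_le_iff_forall.2 fun b hb => ?_), fun e' => q2 1 ?_⟩
  · rcases hV b hb with a | a
    · exact xV b a
    · exact (B.mul_mem_cancel_right tB).1 (xt b ▸ xV _ a)
  · have : r x * r (tv e φ) * (r x)⁻¹ = r (tv e φ) := by
      rcases p3 with rfl | rfl
      · exact e'
      · exact mul_right_cancel ((xt _).symm.trans e')
    rw [← map_inv, ← map_mul, ← map_mul, x2] at this
    rw [one_smul, tv_inj he q1 p1 (h.eq_of_sq (tv_sq _ _) (tv_sq _ _) this)]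

theorem Su.inner3 (h : Su r t) (hn : Fintype.card ι = 3) {B : Subgroup G} (hB : El B) (tB : t ∈ B)
    (cB : Nat.card B = 2 * Nat.card F ^ 2) {e : ι → F} (he : e ≠ 0) (hV : B ⊓ r.range ≤ Vg r e) :
    ∀ b ∈ B, b ∈ r.range ∨ b * t ∈ r.range := by
  classical
  obtain ⟨π, hπ⟩ := h.exists_pi
  have ct : ∀ b ∈ B, b * t = t * b := fun b hb => hB.comm hb tB
  let f : B →* _ := π.comp (inclusion fun b hb => h.nrm b (ct b hb))
  have inn : ∀ b : B, f b = 1 → b.1 ∈ r.range ∨ b.1 * t ∈ r.range := fun b hb => by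
    obtain ⟨x, -, a | a⟩ := h.inn (ct b b.2) (hB b b.2) ((hπ ⟨b, h.nrm b (ct b b.2)⟩ _).1.2 hb)
    · exact Or.inl ⟨x, a.symm⟩
    · exact Or.inr ⟨x, by rw [a, h.tc, mul_assoc, h.tt, mul_one]⟩
  let Φ := {φ : ι → F // φ ⬝ᵥ e = 0 ∧ r (tv e φ) ∈ B}
  have ex : ∀ b ∈ B, b ∈ r.range → ∃ φ : Φ, r (tv e φ) = b := fun b hb hL =>
    let ⟨φ, p1, p2⟩ := mem_Vg.1 (hV ⟨hb, hL⟩); ⟨⟨φ, p1, p2 ▸ hb⟩, p2⟩
  have c1 : Nat.card B ≤ 8 * Nat.card Φ := by
    refine (h.card_el hB fun b hb => mem_centralizer_singleton_iff.2 (ct b hb)).1.trans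
      (Nat.mul_le_mul_left _ (Nat.card_le_card_of_surjective
        (fun φ : Φ => (⟨r (tv e φ), φ.2.2, _, rfl⟩ : (B ⊓ r.range : Subgroup G))) fun b => ?_))
    obtain ⟨φ, p⟩ := ex b b.2.1 b.2.2
    exact ⟨φ, Subtype.ext p⟩
  have c2 : Nat.card f.ker ≤ 2 * Nat.card Φ := by
    have : ∀ b : f.ker, ∃ p : Bool × Φ, b.1.1 = r (tv e p.2) * if p.1 then t else 1 := fun b => by
      rcases inn b b.2 with a | a
      · obtain ⟨φ, p⟩ := ex _ b.1.2 a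
        exact ⟨(false, φ), by simp [p]⟩
      · obtain ⟨φ, p⟩ := ex _ (mul_mem b.1.2 tB) a
        exact ⟨(true, φ), by simp [p, mul_assoc, h.tt]⟩
    choose p hp using this
    simpa using Nat.card_le_card_of_injective p fun a b e =>
      Subtype.ext (Subtype.ext (by rw [hp a, hp b, e]))
  have c3 : ∀ x, (∀ b, f b = 1 ∨ f b = x) → Nat.card B ≤ 4 * Nat.card Φ := fun x hx =>
    (card_le_of_hom f {1, x} (Set.toFinite _) hx).trans
      ((Nat.mul_le_mul ((Set.ncard_insert_le _ _).trans (by simp : _ ≤ 2)) c2).trans (by omega))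
  have z2 : ∀ a : Multiplicative (ZMod 2), a = 1 ∨ a = Multiplicative.ofAdd 1 := by decide
  have fix : ∀ (b : B) (φ : Φ) {u ψ : ι → F}, ψ ⬝ᵥ u = 0 →
      b.1 * r (tv e φ) * (b.1)⁻¹ = r (tv u ψ) → ∀ x, (ψ ⬝ᵥ x) • u = (φ.1 ⬝ᵥ x) • e :=
    fun b φ u ψ a1 a2 => (tv_eq_iff a1 φ.2.1).1 (h.eq_of_sq (tv_sq _ _) (tv_sq _ _) (by
      rw [← a2, hB.comm b.2 φ.2.2, mul_inv_cancel_right]))
  have F1 : ∀ b : B, (f b).2 ≠ 1 → ∃ η : ι → F, ∀ φ : Φ, φ.1 ∈ Set.range fun c : F => c • η := by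
    intro b hb
    obtain ⟨T, S, hS, hT⟩ := (hπ ⟨b, h.nrm b (ct b b.2)⟩ (f b).1).2.2
      (Prod.ext rfl ((z2 _).resolve_left hb))
    refine ⟨T e, fun φ => ?_⟩
    obtain ⟨c, hc⟩ := smul_of_dot (e := T e) (u := φ.1) fun x hx => by
      have := fix b φ (dotProduct_comm (S φ) (T e) ▸ A.dot0 hS φ.2.1) (hT e φ φ.2.1) x
      rw [dotProduct_comm, hx, zero_smul, eq_comm, smul_eq_zero_iff_left he] at this
      rwa [dotProduct_comm]
    exact ⟨c, hc.symm⟩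
  have F2 : ∀ b : B, (f b).1 ≠ 1 → ∃ ω : F, ∀ φ ψ : Φ, ψ.1 = ω • φ.1 → φ.1 = 0 := by
    intro b hb
    obtain ⟨ω, hω⟩ : ∃ ω, (f b).1 ω ≠ ω := not_forall.1 fun e => hb (RingEquiv.ext e)
    refine ⟨ω, fun φ ψ e' => dext fun x => ?_⟩
    suffices ((f b).1 ω * φ.1 ⬝ᵥ x) • e = (ω * φ.1 ⬝ᵥ x) • e by
      simpa [hω] using smul_left_injective F he this
    rcases z2 (f b).2 with a | a
    · obtain ⟨T, S, hS, hT⟩ := (hπ ⟨b, h.nrm b (ct b b.2)⟩ (f b).1).1.2 (Prod.ext rfl a)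
      have a1 := fix b φ (A.dot0 hS φ.2.1) (hT e φ φ.2.1) x
      have a2 := fix b ψ (A.dot0 hS ψ.2.1) (hT e ψ ψ.2.1) x
      rwa [e', hS.smS, smul_dotProduct, smul_dotProduct, smul_assoc, a1, smul_smul] at a2
    · obtain ⟨T, S, hS, hT⟩ := (hπ ⟨b, h.nrm b (ct b b.2)⟩ (f b).1).2.2 (Prod.ext rfl a)
      have a1 := fix b φ (dotProduct_comm (S φ) (T e) ▸ A.dot0 hS φ.2.1) (hT e φ φ.2.1) x
      have a2 := fix b ψ (dotProduct_comm (S ψ) (T e) ▸ A.dot0 hS ψ.2.1) (hT e ψ ψ.2.1) x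
      rwa [e', hS.smS, smul_dotProduct, smul_comm, a1, smul_smul] at a2
  have N : ∀ (ω : F) (X : Set (ι → F)), (∀ φ ψ : Φ, ψ.1 = ω • φ.1 → φ.1 = 0) →
      (∀ φ ψ : Φ, ψ.1 + ω • φ.1 ∈ X) → Nat.card Φ * Nat.card Φ ≤ Nat.card X := fun ω X a1 a2 => by
    have add : ∀ φ ψ : Φ, (φ.1 + ψ.1) ⬝ᵥ e = 0 ∧ r (tv e (φ.1 + ψ.1)) ∈ B := fun φ ψ =>
      ⟨by simp [φ.2.1, ψ.2.1], by rw [tv_add φ.2.1 ψ.2.1, map_mul]; exact mul_mem φ.2.2 ψ.2.2⟩
    rw [← Nat.card_prod]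
    refine Nat.card_le_card_of_injective (fun p : Φ × Φ => (⟨_, a2 p.1 p.2⟩ : X)) fun p p' e' => ?_
    have e1 : p.2.1 + ω • p.1.1 = p'.2.1 + ω • p'.1.1 := congrArg Subtype.val e'
    have e2 : p.1.1 = p'.1.1 := vadd_eq_zero.1 (a1 ⟨_, add p.1 p'.1⟩ ⟨_, add p.2 p'.2⟩ (by
      rw [smul_add, ← vadd_eq_zero, add_add_add_comm, e1, vadd_self]))
    exact Prod.ext (Subtype.ext e2) (Subtype.ext (add_right_cancel (e2 ▸ e1)))
  have q2 := h.hq.resolve_right (by omega)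
  have n1 : ∀ η : ι → F, Nat.card (Set.range fun c : F => c • η) ≤ Nat.card F := fun η =>
    Nat.card_le_card_of_surjective _ Set.rangeFactorization_surjective
  intro b hb
  refine inn ⟨b, hb⟩ (by_contra fun hb1 => ?_)
  by_cases a2 : ∀ b, (f b).2 = 1
  · have := KSG.isCyclic_ringAut F
    have o2 : ∀ b, f b ≠ 1 → orderOf (f b).1 = 2 := fun b hb => orderOf_eq_prime (by
      rw [pow_two, ← Prod.fst_mul, ← map_mul, show b * b = 1 from Subtype.ext (hB b b.2), map_one]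
      rfl) fun e => hb (Prod.ext e (a2 b))
    have a3 := c3 (f ⟨b, hb⟩) fun k => or_iff_not_imp_left.2 fun hk =>
      Prod.ext (KSG.eq_of_orderOf_two (o2 k hk) (o2 _ hb1)) ((a2 k).trans (a2 _).symm)
    obtain ⟨ω, hω⟩ := F2 ⟨b, hb⟩ fun e => hb1 (Prod.ext e (a2 _))
    have a4 := N ω {φ | φ ⬝ᵥ e = 0} hω fun φ ψ => by simp [φ.2.1, ψ.2.1]
    have a5 := card_ker1 he
    rw [hn, pow_succ] at a5
    rw [show Nat.card {φ : ι → F | φ ⬝ᵥ e = 0} = Nat.card F ^ 2 from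
      mul_right_cancel₀ Nat.card_pos.ne' a5, pow_two] at a4
    have := Nat.mul_self_le_mul_self_iff.1 a4
    nlinarith
  push Not at a2
  obtain ⟨k, hk⟩ := a2
  obtain ⟨η, hη⟩ := F1 k hk
  by_cases a1 : ∀ b, (f b).1 = 1
  · have a3 := c3 (1, Multiplicative.ofAdd 1) fun k =>
      (z2 (f k).2).imp (Prod.ext (a1 k)) (Prod.ext (a1 k))
    have a4 := (Nat.card_le_card_of_injective (fun φ : Φ => (⟨_, hη φ⟩ : Set.range fun c : F => c • η))
      fun a b e => Subtype.ext (Subtype.ext_iff.1 e :)).trans (n1 η)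
    nlinarith
  push Not at a1
  obtain ⟨k', hk'⟩ := a1
  obtain ⟨ω, hω⟩ := F2 k' hk'
  have a4 := (N ω _ hω fun φ ψ => by
    obtain ⟨a, ha⟩ := hη φ
    obtain ⟨b, hb⟩ := hη ψ
    exact ⟨b + ω * a, by simp only [← ha, ← hb, add_smul, mul_smul]⟩).trans (n1 η)
  have a5 : Nat.card F ^ 2 * Nat.card F ^ 2 ≤ 16 * Nat.card F := by nlinarith
  nlinarith [Nat.pow_le_pow_left q2 2, Nat.pow_le_pow_left q2 3]

theorem Su.od_le (h : Su r t) {e ε : ι → F} (he : e ≠ 0) (hε : ε ≠ 0) (εe : ε ⬝ᵥ e = 0) :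
    Od (centralizer {t} ⊓ centralizer {r (tv e ε)}) ≤ 𝐍[Vg r e] := by
  refine (closure_le _).2 fun x ⟨⟨x1, x2⟩, x3⟩ => ?_
  obtain ⟨π, hπ⟩ := h.exists_pi
  let y : 𝐍[r.range] := ⟨x, h.nrm x (mem_centralizer_singleton_iff.1 x1)⟩
  obtain ⟨T, S, hS, hT⟩ := (hπ y (π y).1).1.2 (Prod.ext rfl (eq_one_of_odd_two (k := 1)
    (x3.of_dvd_nat ((orderOf_map_dvd ((MonoidHom.snd _ _).comp π) y).trans (orderOf_coe y).symm.dvd))
    ((by decide : ∀ a : Multiplicative (ZMod 2), a ^ 2 ^ 1 = 1) _)))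
  have a1 := (tv_eq_iff (A.dot0 hS εe) εe).1 (h.eq_of_sq (tv_sq _ _) (tv_sq _ _) (by
    rw [← hT e ε εe]; exact mul_inv_eq_of_eq_mul (mem_centralizer_singleton_iff.1 x2)))
  obtain ⟨c, hc⟩ := smul_of_dot (e := e) (u := T e) fun θ hθ => by
    obtain ⟨w, hw⟩ := exists_dot0 (u := S ε) (by simpa using hε)
    simpa [dotProduct_comm _ w, hw, hθ] using congrArg (θ ⬝ᵥ ·) (a1 w)
  refine mem_normalizer_of_cj_le (cj_le_iff_forall.2 fun v hv => ?_)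
  obtain ⟨φ, p, rfl⟩ := mem_Vg.1 hv
  have c0 : c ≠ 0 := by rintro rfl; exact he (by simpa using hc)
  have a2 : S φ ⬝ᵥ e = 0 := by simpa [hc, c0] using A.dot0 hS p
  exact mem_Vg.2 ⟨c • S φ, by simp [a2], by rw [← tv_smul c a2, ← hc]; exact (hT e φ p).symm⟩

theorem Su.exists_g (h : Su r t) (hz : Tz r t) {e : ι → F} (he : e ≠ 0) :
    ∃ (ε : ι → F) (g : G), ε ≠ 0 ∧ ε ⬝ᵥ e = 0 ∧ (g * t * g⁻¹ = r (tv e ε) ∨ g * t * g⁻¹ = t * r (tv e ε)) ∧
      (g⁻¹ * t * g ∈ Vg r e ∨ g⁻¹ * t * g * t ∈ Vg r e) := by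
  have : Fact (Nat.Prime 2) := ⟨Nat.prime_two⟩
  have LC : r.range ≤ centralizer {t} := by
    rintro _ ⟨x, rfl⟩; exact mem_centralizer_singleton_iff.2 (h.tc x).symm
  have VL : Vg r e ≤ r.range := map_le_range _ _
  obtain ⟨P, hP, VP⟩ := exists_isSyl_ge (pgrp_of_sq (el_Vg (r := r) e)) (VL.trans LC)
  have Pt : ∀ x ∈ P, x * t = t * x := fun x hx => mem_centralizer_singleton_iff.1 (hP.le hx)
  obtain ⟨e₀, ε₀, a1, a2, a3, a4⟩ := hz
  obtain ⟨ψ, q1, q2⟩ := exists_11 h.three e 0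
  rw [dotProduct_comm] at q1
  have hne : P ⊓ r.range ≠ ⊥ := fun e' => h.tv_ne_one q1 he (fun e => q2 0 (by simp [e]))
    (mem_bot.1 (e'.le ⟨VP (mem_Vg.2 ⟨ψ, q1, rfl⟩), _, rfl⟩))
  have p1 : IsPGroup 2 (P ⊓ r.range ⊓ 𝐂[P] : Subgroup G) := hP.pgrp.to_le (inf_le_left.trans inf_le_left)
  obtain ⟨z, hz, -, z1, z2⟩ := exists_sq_mem p1 bot_le (mt le_bot_iff.1 (inf_centralizer_ne_bot hP.pgrp
    (hP.pgrp.to_le inf_le_left) (le_normalizer_inf le_normalizer fun x hx => h.nrm x (Pt x hx)) hne))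
  rw [mem_bot] at z1 z2
  obtain ⟨ε, b1, rfl⟩ := mem_Vg.1 ((h.cent_V_sq (Pt z hz.1.1) z2 he fun v hv =>
    (hz.2 v (VP hv)).symm).resolve_right fun e' =>
      h.notMem ((r.range.mul_mem_cancel_left hz.1.2).1 (VL e')))
  have b2 : ε ≠ 0 := by rintro rfl; exact z1 (by rw [tv_zero, map_one])
  obtain ⟨x, x1⟩ := h.trans a1 he
  obtain ⟨y, -, y1⟩ := h.trans_V he (φ := ε₀ ᵥ* (x⁻¹).1) (by rw [← x1, dot_conj, a3]) b1
    (fun e' => a2 (by rw [← vecMul_inv_vecMul x ε₀, e', zero_vecMul])) b2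
  have y2 : r (y * x) * r (tv e₀ ε₀) * (r (y * x))⁻¹ = r (tv e ε) := by
    rw [← map_inv, ← map_mul, ← map_mul, ← y1, ← x1, ← tv_conj]; congr 1; group
  obtain ⟨g, hg⟩ : ∃ g, g * t * g⁻¹ = r (tv e ε) ∨ g * t * g⁻¹ = t * r (tv e ε) := by
    rcases a4 with a | a <;> obtain ⟨g, hg⟩ := isConj_iff.1 a
    · exact ⟨r (y * x) * g, Or.inl (by rw [← y2, ← hg]; group)⟩
    · refine ⟨r (y * x) * g, Or.inr ?_⟩
      rw [← y2, ← mul_assoc t, ← mul_assoc t, h.tc, mul_assoc (r (y * x)) t, ← hg]; group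
  have b3 : cj(g⁻¹, P) ≤ centralizer {t} := by
    rw [← le_cj_iff, ← centralizer_singleton_conj]
    intro p hp
    rw [mem_centralizer_singleton_iff]
    rcases hg with a | a <;> rw [a]
    · exact hz.2 p hp
    · rw [← mul_assoc, Pt p hp, mul_assoc, hz.2 p hp, mul_assoc]
  obtain ⟨c, c1, c2⟩ := (hP.of_card_ge (isPGroup_cj _ hP.pgrp) b3 (card_cj _ _).ge).exists_cj_le
    (pgrp_of_sq (el_Vg (r := r) e)) (VL.trans LC)
  have c3 := mem_centralizer_singleton_iff.1 c1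
  have c4 : g * c * t * (g * c)⁻¹ = g * t * g⁻¹ := by rw [mul_assoc g, c3]; group
  have c5 : ∀ {a b k : G}, k * a * k⁻¹ * b = b * (k * a * k⁻¹) → k⁻¹ * b * k * a = a * (k⁻¹ * b * k) :=
    fun {a b k} e => by
      calc k⁻¹ * b * k * a = k⁻¹ * (b * (k * a * k⁻¹)) * k := by group
        _ = _ := by rw [← e]; group
  refine ⟨ε, g * c, b2, b1, c4 ▸ hg, h.cent_V_sq (c5 ?_) ?_ he fun v hv => c5 (Pt _ ?_)⟩
  · rw [c4]
    rcases hg with a | a <;> rw [a]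
    · exact (h.tc _).symm
    · rw [mul_assoc, h.tc]
  · simpa using sq_conj h.tt (g * c)⁻¹
  · simpa [mul_assoc] using mem_cj.1 (c2 (conj_mem_cj c hv))

set_option maxHeartbeats 400000 in
theorem Su.mv (h : Su r t) (hz : Tz r t) {e : ι → F} (he : e ≠ 0) : Mv (Vg r e) t := by
  obtain ⟨ε, g, b1, b2, hg, hg'⟩ := h.exists_g hz he
  have tt : ∀ b : G, b * t * t = b := fun b => by rw [mul_assoc, h.tt, mul_one]
  have VL : Vg r e ≤ r.range := map_le_range _ _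
  have Vt : ∀ v ∈ Vg r e, v * t = t * v := fun v hv => by obtain ⟨x, rfl⟩ := VL hv; exact (h.tc x).symm
  have mA : ∀ {a}, a ∈ Vg r e ⊔ zpowers t ↔ a ∈ Vg r e ∨ a * t ∈ Vg r e := by
    refine ⟨fun ha => ?_, fun ha => ha.elim mem_sup_left fun ha =>
      (Subgroup.mul_mem_cancel_right _ (mem_sup_right (mem_zpowers t))).1 (mem_sup_left ha)⟩
    obtain ⟨v, hv, _, ⟨n, rfl⟩, rfl⟩ := (mem_sup_of_le_normalizer_left (zpowers_le.2
      (centralizer_le_normalizer' _ fun v hv => Vt v hv))).1 ha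
    rcases Int.even_or_odd' n with ⟨k, rfl | rfl⟩
    · exact Or.inl (by simpa [_root_.zpow_mul, pow_two, h.tt] using hv)
    · exact Or.inr (by simpa [_root_.zpow_add, _root_.zpow_mul, pow_two, h.tt, mul_assoc] using hv)
  set A := Vg r e ⊔ zpowers t
  have eA : El A := fun a ha => by
    rcases mA.1 ha with a1 | a1
    · exact el_Vg e a a1
    · rw [← tt a, mul_assoc, ← mul_assoc t, ← Vt _ a1, tt, el_Vg e _ a1]
  have tA : t ∈ A := mem_sup_right (mem_zpowers t)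
  have zV : r (tv e ε) ∈ Vg r e := mem_Vg.2 ⟨ε, b2, rfl⟩
  have z1 := h.tv_ne_one b2 he b1
  let B := cj(g⁻¹, A)
  have mB : ∀ {b}, b ∈ B ↔ g * b * g⁻¹ ∈ A := fun {b} => by rw [mem_cj, inv_inv]
  have eB : El B := sq_cj eA _
  have tB : t ∈ B := mB.2 (by
    rcases hg with a | a <;> rw [a]
    exacts [mem_sup_left zV, mul_mem tA (mem_sup_left zV)])
  have sB : g⁻¹ * t * g ∈ B := mB.2 (by simpa [mul_assoc] using tA)
  have s1 : g⁻¹ * t * g ≠ 1 := fun e' => h.t1 (by simpa [mul_assoc] using congrArg (g * · * g⁻¹) e')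
  have s2 : g⁻¹ * t * g ≠ t := fun e' => by
    rw [show g * t * g⁻¹ = t by rw [← e']; nth_rewrite 2 [e']; group] at hg
    rcases hg with a | a
    · exact h.notMem ⟨_, a.symm⟩
    · exact z1 (by simpa using a)
  have mx : ∀ c, c * c = 1 → (∀ b ∈ B, c * b = b * c) → c ∈ B := fun c c2 hc => by
    have k : ∀ a ∈ A, g * c * g⁻¹ * a = a * (g * c * g⁻¹) := fun a ha => by
      have := hc (g⁻¹ * a * g) (mB.2 (by simpa [mul_assoc] using ha))
      calc g * c * g⁻¹ * a = g * (c * (g⁻¹ * a * g)) * g⁻¹ := by group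
        _ = _ := by rw [this]; group
    exact mB.2 (mA.2 (h.cent_V_sq (k t tA) (sq_conj c2 g) he fun v hv => k v (mem_sup_left hv)))
  obtain ⟨φ, p1, p2, p3⟩ : ∃ φ, φ ⬝ᵥ e = 0 ∧ φ ≠ 0 ∧
      (g⁻¹ * t * g = r (tv e φ) ∨ g⁻¹ * t * g = r (tv e φ) * t) := by
    rcases hg' with a | a <;> obtain ⟨φ, p1, p2⟩ := mem_Vg.1 a
    · exact ⟨φ, p1, by rintro rfl; exact s1 (by rw [← p2, tv_zero, map_one]), Or.inl p2.symm⟩
    · exact ⟨φ, p1, by
        rintro rfl; exact s2 (by rw [← tt (g⁻¹ * t * g), ← p2, tv_zero, map_one, one_mul]),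
        Or.inr (by rw [p2, tt])⟩
  have φB : r (tv e φ) ∈ B := p3.elim (· ▸ sB) fun a => (B.mul_mem_cancel_right tB).1 (a ▸ sB)
  let Q : Subgroup (SpecialLinearGroup ι F) :=
    { carrier := {x | x * x = 1 ∧ r x ∈ B}
      one_mem' := ⟨mul_one 1, by rw [map_one]; exact one_mem _⟩
      mul_mem' := fun {x y} hx hy => ⟨by
        rw [mul_assoc, ← mul_assoc y, ← h.comm (k := 1) (by simpa [pow_two] using hy.1)
          (eB.comm hx.2 hy.2), mul_assoc, hy.1, mul_one, hx.1], by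
        rw [map_mul]; exact mul_mem hx.2 hy.2⟩
      inv_mem' := fun {x} hx => by rwa [inv_of_sq hx.1] }
  have eQ : El Q := fun x hx => hx.1
  have q1 : Q ≤ Sb e φ := fun x hx => mem_Sb_of_comm he p2 p1
    (h.comm (k := 1) (by simpa [pow_two] using tv_sq e φ) (eB.comm hx.2 φB))
  have lf : ∀ b ∈ B, b ∈ r.range → ∃ x ∈ Q, r x = b := by
    rintro _ hb ⟨x, rfl⟩
    obtain ⟨y, y1, y2⟩ := h.lift_sq (eB _ hb)
    exact ⟨y, ⟨y2, y1 ▸ hb⟩, y1⟩
  have key : (Q ≤ Vs e ∨ ∀ x ∈ Q, ∃ u, φ ⬝ᵥ u = 0 ∧ tv u φ = x) →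
      B ⊓ r.range ≤ Vg r e ∨ B ⊓ r.range ≤ Vg (StdL.du r) φ := Or.imp
    (fun a b hb => let ⟨x, hx, e⟩ := lf b hb.1 hb.2; ⟨x, a hx, e⟩)
    fun a b hb => let ⟨x, hx, e⟩ := lf b hb.1 hb.2; let ⟨u, u1, u2⟩ := a x hx;
      mem_Vg'.2 ⟨u, u1, u2 ▸ e⟩
  obtain ⟨k1, k2⟩ : (B ⊓ r.range ≤ Vg r e ∨ B ⊓ r.range ≤ Vg (StdL.du r) φ) ∧
      ∀ b ∈ B, b ∈ r.range ∨ b * t ∈ r.range := by
    rcases h.three.eq_or_lt with hn | hn
    · have cB : Nat.card B = 2 * Nat.card F ^ 2 := by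
        have : (Vg r e).relIndex A = 2 := index_eq_two_iff.2 ⟨⟨t, tA⟩, fun a => by
          by_cases ha : a.1 ∈ Vg r e
          · exact Or.inr ⟨ha, fun e' => h.notMem (VL (((Vg r e).mul_mem_cancel_left ha).1 e'))⟩
          · exact Or.inl ⟨(mA.1 a.2).resolve_left ha, ha⟩⟩
        rw [card_cj, ← ((Vg r e).subgroupOf A).card_mul_index, ← relIndex, this,
          Nat.card_congr (subgroupOfEquivOfLe le_sup_left).toEquiv, h.card_Vg he, ← hn, mul_comm]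
      have k := key (V_or_W3 hn.symm he p2 p1 eQ q1)
      exact ⟨k, k.elim (h.inner3 hn.symm eB tB cB he) fun k =>
        range_du r ▸ h.du.inner3 hn.symm eB tB cB p2 (range_du r ▸ k)⟩
    · have c1 : ∀ {x : SpecialLinearGroup ι F} {ψ : ι → F} {s : G}, ψ ⬝ᵥ e = 0 → x ∈ Sb e ψ →
          s = r (tv e ψ) ∨ s = r (tv e ψ) * t → r x * s = s * r x := fun {x ψ s} a1 a2 a3 => by
        have : r x * r (tv e ψ) = r (tv e ψ) * r x := by
          rw [← map_mul, comm_of_mem_Sb a1 a2, map_mul]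
        rcases a3 with rfl | rfl
        · exact this
        · rw [← mul_assoc, this, mul_assoc, mul_assoc, h.tc]
      have c2 : ∀ {a b k : G}, a * (k * b * k⁻¹) = k * b * k⁻¹ * a → k⁻¹ * a * k⁻¹⁻¹ ∈ centralizer {b} :=
        fun {a b k} e => mem_centralizer_singleton_iff.2 (by
          calc k⁻¹ * a * k⁻¹⁻¹ * b = k⁻¹ * (a * (k * b * k⁻¹)) * k := by group
            _ = _ := by rw [e]; group)
      have UL : ∀ v ∈ Vg r e, g⁻¹ * v * g ∈ r.range := fun v hv => by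
        obtain ⟨ψ, a1, rfl⟩ := mem_Vg.1 hv
        refine h.o2 (k := 1) (Od.map (cjh g⁻¹ r) (H := Sb e ε) ?_ ⟨_, od_V hn b2 a1, by simp [cjh_apply]⟩)
          (by simpa [pow_two] using sq_conj (el_Vg e _ hv) g⁻¹)
        rintro _ ⟨x, hx, rfl⟩
        exact c2 (c1 b2 hx (h.tc _ ▸ hg))
      refine ⟨key (V_or_W hn h.hq he p2 p1 eQ q1 fun x hx => mem_normalizer_of_cj_le
        (cj_le_iff_forall.2 fun y hy => ⟨sq_conj hy.1 x, ?_⟩)), fun b hb => ?_⟩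
      · have n1 : ∀ x ∈ Sb e φ, g * r x * g⁻¹ ∈ centralizer {t} := fun x hx => by
          simpa using c2 (k := g⁻¹) (by simpa using c1 p1 hx p3)
        have n2 : g * r x * g⁻¹ ∈ 𝐍[Vg r e] := by
          refine h.od_le he b1 b2 (Od.map (cjh g r) (H := Sb e φ) ?_ ⟨x, Sb_le_Od hn h.hq he p1 hx, rfl⟩)
          rintro _ ⟨y, hy, rfl⟩
          have n3 : g * r y * g⁻¹ ∈ centralizer {g * t * g⁻¹} := mem_centralizer_singleton_iff.2 (by
            rw [conj_mul, conj_mul, h.tc])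
          refine ⟨n1 y hy, ?_⟩
          rcases hg with a | a
          · exact a ▸ n3
          · rw [a, mem_centralizer_singleton_iff, ← mul_assoc,
              mem_centralizer_singleton_iff.1 (n1 y hy), mul_assoc, mul_assoc t, mul_right_inj] at n3
            exact mem_centralizer_singleton_iff.2 n3
        have n4 : g * r x * g⁻¹ ∈ 𝐍[A] := le_normalizer_sup (L := 𝐍[Vg r e] ⊓ centralizer {t})
          inf_le_left (inf_le_right.trans (centralizer_zpowers t ▸ centralizer_le_normalizer' _))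
          ⟨n2, n1 x hx⟩
        refine mB.2 ?_
        convert conj_mem_of_mem_normalizer n4 (mB.1 hy.2) using 1
        simp [mul_assoc]
      · rcases mA.1 (mB.1 hb) with a | a
        · exact Or.inl (by simpa [mul_assoc] using UL _ a)
        · have a1 : b * (g⁻¹ * t * g) ∈ r.range := by simpa [mul_assoc] using UL _ a
          rcases p3 with p | p <;> rw [p] at a1
          · exact Or.inl ((r.range.mul_mem_cancel_right ⟨_, rfl⟩).1 a1)
          · exact Or.inr ((r.range.mul_mem_cancel_right ⟨_, rfl⟩).1 (by rwa [← h.tc, ← mul_assoc] at a1))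
  obtain ⟨c, c1, c2⟩ : ∃ c ∈ 𝐍[B], c * (g⁻¹ * t * g) * c⁻¹ ≠ g⁻¹ * t * g := by
    rcases k1 with k | k
    · exact h.mv_fin he mx tB (fun b hb => (k2 b hb).imp (fun a => k ⟨hb, a⟩)
        fun a => k ⟨mul_mem hb tB, a⟩) sB s1 s2
    · exact h.du.mv_fin p2 mx tB (fun b hb => (k2 b hb).imp (fun a => k ⟨hb, a⟩)
        fun a => k ⟨mul_mem hb tB, a⟩) sB s1 s2
  rw [normalizer_cj, mem_cj, inv_inv] at c1
  exact ⟨_, c1, fun e' => c2 (by simpa [mul_assoc] using congrArg (g⁻¹ * · * g) e')⟩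

end Cfsg.Agent.StdL
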