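import Cfsg.Agent.StdL.Bas

/-! The centralizer `Sb e ε` of a transvection is `2`-perfect in dimension `≥ 4`; its normal
elementary abelian subgroups. -/

set_option autoImplicit false

namespace Cfsg.Agent.StdL

open Matrix Subgroup Cfsg.Agent.LnT Cfsg.Agent.PLocal.Amb

variable {F ι : Type*} [Field F] [Fintype ι] [DecidableEq ι] [CharP F 2] {e ε u φ : ι → F}

omit [CharP F 2] in
theorem mem_Sb_of_comm (he : e ≠ 0) (hε : ε ≠ 0) (h : ε ⬝ᵥ e = 0) {g : SpecialLinearGroup ι F}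
    (hg : g * tv e ε = tv e ε * g) : g ∈ Sb e ε := by
  obtain ⟨y, hy⟩ := exists_dot0 hε
  have h3 := (comm_tv_iff h).1 hg y
  rw [dotProduct_comm, hy, one_smul] at h3
  exact ⟨_, ne_zero_of_mulVec he h3, h3, vecMul_of_comm h he h3 hg⟩

omit [CharP F 2] in
theorem comm_of_mem_Sb (h : ε ⬝ᵥ e = 0) {g : SpecialLinearGroup ι F} (hg : g ∈ Sb e ε) :
    g * tv e ε = tv e ε * g := by
  obtain ⟨a, -, h2, h3⟩ := hg
  refine (comm_tv_iff h).2 fun x => ?_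
  rw [h2, ← vecMul_dot, h3, smul_dotProduct, smul_smul, smul_eq_mul, mul_comm]

theorem St_psl (he : e ≠ 0) (hε : ε ≠ 0) (h : ε ⬝ᵥ e = 0) :
    St e ε (QuotientGroup.mk : SpecialLinearGroup ι F → ProjectiveSpecialLinearGroup ι F) := by
  have m : Md ⊤ (QuotientGroup.mk : SpecialLinearGroup ι F → ProjectiveSpecialLinearGroup ι F) :=
    ⟨fun _ _ => rfl, fun _ => QuotientGroup.eq_one_iff _⟩
  refine ⟨⟨fun _ _ => rfl, fun _ => QuotientGroup.eq_one_iff _⟩, he, hε, h, fun c hc x hx => ?_⟩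
  obtain ⟨g, rfl⟩ := QuotientGroup.mk_surjective x
  obtain ⟨a, a0, a1, a2⟩ := mem_Sb_of_comm he (smul_ne_zero hc hε) (by simp [h])
    (m.comm trivial trivial (tv_sq _ _) hx)
  rw [smul_vecMul, smul_comm, smul_right_inj hc] at a2
  exact ⟨g, ⟨a, a0, a1, a2⟩, rfl⟩

variable [Finite F]

theorem od3 {v w ψ : ι → F} (a1 : φ ⬝ᵥ e = 0) (a2 : ψ ⬝ᵥ e = 0) (a3 : ε ⬝ᵥ v = 0) (a4 : ε ⬝ᵥ w = 0)
    (a5 : ε ⬝ᵥ u = 0) (a6 : φ ⬝ᵥ u = 0) (a7 : ψ ⬝ᵥ u = 0) (a8 : φ ⬝ᵥ v = 0) (a9 : φ ⬝ᵥ w = 1)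
    (b1 : ψ ⬝ᵥ v = 1) : tv u φ ∈ Od (Sb e ε) := by
  have two : (2 : F) = 0 := CharTwo.two_eq_zero
  obtain ⟨χ, hχ⟩ : ∃ χ, χ = ψ + (ψ ⬝ᵥ w) • φ := ⟨_, rfl⟩
  have c1 : χ ⬝ᵥ e = 0 := by simp [hχ, a1, a2]
  have c2 : χ ⬝ᵥ u = 0 := by simp [hχ, a6, a7]
  have c3 : χ ⬝ᵥ v = 1 := by simp [hχ, a8, b1]
  have c4 : χ ⬝ᵥ w = 0 := by simp [hχ, a9, CharTwo.add_self_eq_zero]
  have k1 : ∀ x, (tv v φ * tv w χ).1 *ᵥ x = x + (χ ⬝ᵥ x) • w + (φ ⬝ᵥ x + χ ⬝ᵥ x) • v := fun x => by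
    rw [mul_mulVec', tv_mulVec a8, tv_mulVec c4]
    simp [a9]
  have k3 : (tv v φ * tv w χ) ^ 3 = 1 := slext fun x => by
    rw [pow_three, mul_mulVec', mul_mulVec' (tv v φ * tv w χ), k1, k1, k1,
      show (1 : SpecialLinearGroup ι F).1 *ᵥ x = x from one_mulVec x]
    simp only [dotProduct_add, dotProduct_smul, c3, c4, a8, a9, smul_eq_mul]
    ext i
    simp only [Pi.add_apply, Pi.smul_apply, smul_eq_mul]
    linear_combination ((2 * φ ⬝ᵥ x + 4 * χ ⬝ᵥ x) * w i + (4 * φ ⬝ᵥ x + 6 * χ ⬝ᵥ x) * v i) * two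
  have := Od.comm (mul_mem (tv_mem_Sb a8 a1 a3) (tv_mem_Sb c4 c1 a4))
    (Odd.of_dvd_nat (by decide) (orderOf_dvd_of_pow_eq_one k3)) (tv_mem_Sb c2 c1 a5)
  rwa [tv_conj, k1, c2, a6, add_zero, zero_smul, zero_smul, add_zero, add_zero, _root_.mul_inv_rev,
    tv_inv, tv_inv, tv_inv, vecMul_mul', vecMul_tv c4, c4, zero_smul, add_zero, vecMul_tv a8, c3,
    one_smul, ← tv_add (by simp [c2, a6]) c2, add_right_comm, vadd_self, zero_add] at this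

theorem od_V (hn : 4 ≤ Fintype.card ι) (h : ε ⬝ᵥ e = 0) (a1 : φ ⬝ᵥ e = 0) :
    tv e φ ∈ Od (Sb e ε) := by
  have key : ∀ {φ : ι → F}, φ ⬝ᵥ e = 0 → (∀ a : F, φ ≠ a • ε) → tv e φ ∈ Od (Sb e ε) := by
    intro φ a1 a2
    obtain ⟨v, v1, v2, v3⟩ := exists_21 hn φ ε e
    obtain ⟨w, w1, w2⟩ := exists_dot1 a2
    obtain ⟨ψ, p1, p2⟩ := exists_dot1 v3
    exact od3 a1 p2 v2 (dotProduct_comm w ε ▸ w2) h a1 p2 v1 (dotProduct_comm w φ ▸ w1) p1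
  by_cases a2 : ∀ a : F, φ ≠ a • ε
  · exact key a1 a2
  push Not at a2
  obtain ⟨a, rfl⟩ := a2
  obtain ⟨χ, c1, -, c2⟩ := exists_21 hn e e ε
  rw [dotProduct_comm] at c1
  have := mul_mem (key (φ := a • ε + χ) (by simp [h, c1]) fun b hb =>
    c2 (b - a) (by rw [sub_smul, ← hb, add_sub_cancel_left])) (key c1 c2)
  rwa [← tv_add (by simp [h, c1]) c1, add_assoc, vadd_self, add_zero] at this

theorem od_W (hn : 4 ≤ Fintype.card ι) (h : ε ⬝ᵥ e = 0) (a1 : ε ⬝ᵥ u = 0) :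
    tv u ε ∈ Od (Sb e ε) := by
  rw [← tr_tv]
  exact Od.map (tr : SpecialLinearGroup ι F ≃* _).toMonoidHom (H := Sb ε e)
    (by rintro _ ⟨g, hg, rfl⟩; exact tr_mem_Sb hg)
    ⟨_, od_V hn (dotProduct_comm ε e ▸ h) (dotProduct_comm ε u ▸ a1), rfl⟩

theorem od_tv (hn : 4 ≤ Fintype.card ι) (hq : 2 < Nat.card F ∨ 5 ≤ Fintype.card ι) (h : ε ⬝ᵥ e = 0)
    (a0 : φ ⬝ᵥ u = 0) (a1 : φ ⬝ᵥ e = 0) (a2 : ε ⬝ᵥ u = 0) : tv u φ ∈ Od (Sb e ε) := by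
  by_cases b1 : ∃ a : F, u = a • e
  · obtain ⟨a, rfl⟩ := b1
    rw [tv_smul a a1]
    exact od_V hn h (by simp [a1])
  by_cases b2 : ∃ a : F, φ = a • ε
  · obtain ⟨a, rfl⟩ := b2
    rw [← tv_smul a a2]
    exact od_W hn h (by simp [a2])
  push Not at b1 b2
  by_cases h5 : 5 ≤ Fintype.card ι
  · obtain ⟨v, v1, v2, v3⟩ := exists_22 h5 φ ε e u
    obtain ⟨w, w1, w2⟩ := exists_dot1 b2
    obtain ⟨ψ, p1, p2, p3⟩ := exists_dot2 v3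
    exact od3 a1 p2 v2 (dotProduct_comm w ε ▸ w2) a2 a0 p3 v1 (dotProduct_comm w φ ▸ w1) p1
  obtain ⟨s, s0, s1⟩ := exists_ne01 (hq.resolve_right h5)
  have h4 : Fintype.card ι = 2 ^ 2 := by omega
  obtain ⟨θ, θ1, θ2⟩ := exists_dot1 b1
  obtain ⟨k, k1, k2⟩ := exists_el (a := s) (u := u) (θ := ((s ^ 2 ^ 2)⁻¹ - 1) • θ) (by simp [θ1, h4, s0])
  have k4 : k ∈ Sb e ε := ⟨s, s0, by simp [k1, θ2], by simp [k2, a2]⟩
  have k5 : ∀ (n : ℕ) (c : F), k ^ n * tv u (c • φ) * (k ^ n)⁻¹ = tv u (((s ^ 2 ^ 2)⁻¹ ^ n * c) • φ) := by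
    intro n c
    induction n with
    | zero => simp
    | succ n ih =>
      rw [pow_succ', _root_.mul_inv_rev, show ∀ a b c d f : SpecialLinearGroup ι F,
        a * b * c * (d * f) = a * (b * c * d) * f by intros; simp only [mul_assoc], ih, tv_conj,
        smul_vecMul, vecMul_inv_smul s0 (e := φ) (by simp [k2, a0]), k1, smul_dotProduct, θ1,
        show u + (((s ^ 2 ^ 2)⁻¹ - 1) • (1 : F)) • u = (s ^ 2 ^ 2)⁻¹ • u by simp [sub_smul], smul_smul,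
        tv_smul _ (by simp [a0]), smul_smul, smul_smul]
      congr 2
      rw [pow_succ _ n]
      field_simp
  obtain ⟨n, hn⟩ := exists_pow_coprime (p := 2) k
  have d0 : (s ^ 2 ^ 2)⁻¹ ^ 2 ^ n + 1 ≠ 0 := fun e => s1 (eq_one_of_pow (inv_eq_one.1
    (eq_one_of_pow (CharTwo.add_eq_zero.1 e))))
  have := Od.comm (pow_mem k4 _) (Nat.coprime_two_right.1 hn)
    (tv_mem_Sb (u := u) (φ := ((s ^ 2 ^ 2)⁻¹ ^ 2 ^ n + 1)⁻¹ • φ) (by simp [a0]) (by simp [a1]) a2)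
  rwa [k5, tv_inv, ← tv_add (by simp [a0]) (by simp [a0]), ← add_smul, ← add_one_mul,
    mul_inv_cancel₀ d0, one_smul] at this

theorem od_unip (hn : 4 ≤ Fintype.card ι) (hq : 2 < Nat.card F ∨ 5 ≤ Fintype.card ι)
    (h : ε ⬝ᵥ e = 0) {k : SpecialLinearGroup ι F} (k1 : dl k *ᵥ e = 0) (k2 : ε ᵥ* dl k = 0)
    (k3 : IsNilpotent (dl k)) : k ∈ Od (Sb e ε) := by
  induction hW : LinearMap.ker (dl k).mulVecLin using WellFoundedGT.induction generalizing k with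
  | ind W ih =>
  by_cases h0 : dl k = 0
  · rw [show k = 1 from slext fun x => by simp [mulVec_dl, h0]]
    exact one_mem _
  obtain ⟨w, w1, w2⟩ : ∃ w, dl k *ᵥ w ≠ 0 ∧ dl k *ᵥ dl k *ᵥ w = 0 := by
    by_contra hc
    push Not at hc
    obtain ⟨n, hn⟩ := k3
    have : ∀ n x, dl k *ᵥ x ≠ 0 → dl k *ᵥ (dl k ^ n) *ᵥ x ≠ 0 := fun n x hx => by
      induction n with
      | zero => simpa using hx
      | succ n ih => rw [pow_succ', ← mulVec_mulVec]; exact hc _ ih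
    exact h0 (mext fun x => by_contra fun hx => this n x (by simpa using hx) (by simp [hn]))
  obtain ⟨θ, hθ⟩ := exists_dot0 w1
  have c0 : (θ ᵥ* dl k) ⬝ᵥ dl k *ᵥ w = 0 := by rw [vecMul_dot, w2, dotProduct_zero]
  have c1 : ∀ x, dl (k * tv (dl k *ᵥ w) (θ ᵥ* dl k)) *ᵥ x =
      dl k *ᵥ x + (θ ⬝ᵥ dl k *ᵥ x) • dl k *ᵥ w := fun x => by
    rw [dl_mul, dl_tv c0, mulVec_smul, w2, smul_zero, add_zero, vecMul_dot]
  have c2 : LinearMap.ker (dl k).mulVecLin <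
      LinearMap.ker (dl (k * tv (dl k *ᵥ w) (θ ᵥ* dl k))).mulVecLin := by
    refine SetLike.lt_iff_le_and_exists.2 ⟨fun x hx => ?_, w, ?_, w1⟩
    · rw [LinearMap.mem_ker, mulVecLin_apply] at hx ⊢
      simp [c1, hx]
    · rw [LinearMap.mem_ker, mulVecLin_apply, c1, hθ, one_smul, vadd_self]
  have c3 : IsNilpotent (dl (k * tv (dl k *ᵥ w) (θ ᵥ* dl k))) := by
    obtain ⟨n, hn⟩ := k3
    have : ∀ n x, (dl (k * tv (dl k *ᵥ w) (θ ᵥ* dl k)) ^ (n + 1)) *ᵥ x =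
        (dl k ^ (n + 1)) *ᵥ x + (θ ⬝ᵥ (dl k ^ (n + 1)) *ᵥ x) • dl k *ᵥ w := fun n x => by
      induction n with
      | zero => simpa using c1 x
      | succ n ih =>
        rw [pow_succ', ← mulVec_mulVec, ih, c1, mulVec_add, mulVec_smul, w2, smul_zero, add_zero,
          mulVec_mulVec, ← pow_succ']
    exact ⟨n + 1, mext fun x => by rw [this]; simp [pow_succ, hn]⟩
  exact (mul_mem_cancel_right (od_tv hn hq h c0 (by rw [vecMul_dot, k1, dotProduct_zero])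
    (by rw [← vecMul_dot, k2, zero_dotProduct]))).1 (ih _ (hW ▸ c2) (by simp [c1, k1])
      (dext fun x => by simp [vecMul_dot, c1, ← vecMul_dot ε, k2]) c3 rfl)

theorem Sb_le_Od (hn : 4 ≤ Fintype.card ι) (hq : 2 < Nat.card F ∨ 5 ≤ Fintype.card ι) (he : e ≠ 0)
    (h : ε ⬝ᵥ e = 0) : Sb e ε ≤ Od (Sb e ε) := fun k hk => by
  have : Nonempty ι := Fintype.card_pos_iff.1 (by omega)
  obtain ⟨n, hn'⟩ := exists_pow_coprime (p := 2) k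
  have h1 := mem_Od (pow_mem hk _) (Nat.coprime_two_right.1 hn')
  have h2 : (k ^ orderOf (k ^ 2 ^ n)) ^ 2 ^ n = 1 := by rw [pow_right_comm, pow_orderOf_eq_one]
  obtain ⟨f1, f2⟩ := Sb.fix he (pow_mem hk _) h2
  have h3 := od_unip hn hq h f1 f2 ⟨2 ^ n, by
    rw [dl, sub_pow_char_pow_of_commute _ _ (Commute.one_right _), one_pow, sub_eq_zero]
    exact congrArg Subtype.val h2⟩
  obtain ⟨a, b, hab⟩ := Nat.isCoprime_iff_coprime.2 (hn'.pow_right n)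
  rw [← zpow_one k, ← hab, _root_.zpow_add, mul_comm a, mul_comm b, _root_.zpow_mul, _root_.zpow_mul,
    zpow_natCast, zpow_natCast]
  exact mul_mem (zpow_mem h3 _) (zpow_mem h1 _)

theorem V_or_W (hn : 4 ≤ Fintype.card ι) (hq : 2 < Nat.card F ∨ 5 ≤ Fintype.card ι) (he : e ≠ 0)
    (hε : ε ≠ 0) (h : ε ⬝ᵥ e = 0) {Q : Subgroup (SpecialLinearGroup ι F)} (hQ : El Q)
    (q1 : Q ≤ Sb e ε) (q2 : Sb e ε ≤ 𝐍[Q]) :
    Q ≤ Vs e ∨ ∀ x ∈ Q, ∃ u, ε ⬝ᵥ u = 0 ∧ tv u ε = x := by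
  have s := St_psl he hε h
  let E := Q.map (QuotientGroup.mk' (center (SpecialLinearGroup ι F)))
  have e1 : E ≤ s.H := by rintro _ ⟨x, hx, rfl⟩; exact s.rH (q1 hx)
  have e2 : s.H ≤ 𝐍[E] := fun x hx => by
    obtain ⟨k, hk, rfl⟩ := s.mem_H.1 hx
    exact le_normalizer_map _ ⟨k, q2 hk, rfl⟩
  have e3 : ∀ x ∈ E ⊔ s.Z, x * x = 1 := fun x hx => by
    obtain ⟨a, ha, z, hz, rfl⟩ := (mem_sup_of_le_normalizer_right (e1.trans s.zh.le_n)).1 hx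
    obtain ⟨y, hy, rfl⟩ := id ha
    rw [mul_assoc, ← mul_assoc z, ← s.zh.comm hz (e1 ha), mul_assoc, s.sqV z hz.1, mul_one, ← map_mul,
      hQ y hy, map_one]
  have a : E ≤ s.V → Q ≤ Vs e := fun hV x hx => by
    obtain ⟨φ, p1, p2⟩ := s.mem_V.1 (hV ⟨x, hx, rfl⟩)
    exact ⟨φ, p1, s.eq_of_sq (s.tvS p1) (q1 hx) (tv_sq _ _) (hQ x hx) p2⟩
  by_cases e4 : E ⊔ s.Z ≤ s.Z
  · exact Or.inl (a (le_sup_left.trans (e4.trans inf_le_left)))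
  refine (s.eq_V_or_W hn hq e3 (sup_le e1 s.zh.le) (le_normalizer_sup e2 s.zh.le_n) le_sup_right
    e4).imp (fun h => a (le_sup_left.trans h.le)) fun h x hx => ?_
  obtain ⟨u, p1, p2⟩ := s.mem_W.1 (h.le (mem_sup_left ⟨x, hx, rfl⟩))
  exact ⟨u, p1, s.eq_of_sq (s.tvS' p1) (q1 hx) (tv_sq _ _) (hQ x hx) p2⟩

omit [CharP F 2] in
theorem smul_of_three (hn : Fintype.card ι = 3) (he : e ≠ 0) (hu : ∀ a : F, u ≠ a • e) (hε : ε ≠ 0)
    (a1 : ε ⬝ᵥ e = 0) (a2 : ε ⬝ᵥ u = 0) (b1 : φ ⬝ᵥ e = 0) (b2 : φ ⬝ᵥ u = 0) : ∃ c : F, φ = c • ε := by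
  have h := card_ker2 he hu
  rw [hn, pow_succ' _ 2] at h
  obtain ⟨c, hc⟩ := ((Nat.bijective_iff_injective_and_card
    (fun c : F => (⟨c • ε, by simp [a1, a2]⟩ : {φ : ι → F // φ ⬝ᵥ e = 0 ∧ φ ⬝ᵥ u = 0}))).2
    ⟨fun a b e => smul_left_injective F hε (congrArg Subtype.val e),
      (mul_right_cancel₀ (pow_ne_zero _ Nat.card_pos.ne') h).symm⟩).2 ⟨φ, b1, b2⟩
  exact ⟨c, (congrArg Subtype.val hc).symm⟩

theorem V_or_W3 (hn : Fintype.card ι = 3) (he : e ≠ 0) (hε : ε ≠ 0) (h : ε ⬝ᵥ e = 0)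
    {Q : Subgroup (SpecialLinearGroup ι F)} (hQ : El Q) (q1 : Q ≤ Sb e ε) :
    Q ≤ Vs e ∨ ∀ x ∈ Q, ∃ u, ε ⬝ᵥ u = 0 ∧ tv u ε = x := by
  have key : ∀ x ∈ Q, x ∈ Vs e ∨ ∃ u, (∀ a : F, u ≠ a • e) ∧ ε ⬝ᵥ u = 0 ∧ tv u ε = x := by
    intro x hx
    obtain ⟨f1, f2⟩ := Sb.fix_sq he (q1 hx) (hQ x hx)
    obtain ⟨ρ, u, b1, b2, b3⟩ := exists_Q he hε f1 h f2 fun u hu => by
      by_cases h0 : ∃ a : F, u = a • e
      · obtain ⟨a, rfl⟩ := h0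
        exact ⟨0, by simp [mulVec_smul, f1]⟩
      push Not at h0
      obtain ⟨a, b, hab⟩ := span2_of_dot (e := e) (f := u) (u := dl x *ᵥ u) fun θ t1 t2 => by
        obtain ⟨c, rfl⟩ := smul_of_three hn he h0 hε h hu t1 t2
        rw [← vecMul_dot, smul_vecMul, f2, smul_zero, zero_dotProduct]
      have := dl_dl (hQ x hx) u
      rw [hab, mulVec_add, mulVec_smul, mulVec_smul, f1, hab, smul_zero, zero_add, smul_add, smul_smul,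
        smul_smul] at this
      exact ⟨a, by rw [hab, mul_self_eq_zero.1 (indep_eq he h0 this).2, zero_smul, add_zero]⟩
    by_cases h0 : ∃ a : F, u = a • e
    · obtain ⟨a, rfl⟩ := h0
      refine Or.inl ⟨ρ + a • ε, by simp [b1, h], (eq_tv (by simp [b1, h]) fun y => ?_).symm⟩
      rw [b3]; simp only [add_dotProduct, smul_dotProduct, smul_eq_mul]; module
    push Not at h0
    have b4 : ρ ⬝ᵥ u = 0 := by
      obtain ⟨w, hw⟩ := exists_dot0 hε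
      have := dl_dl (hQ x hx) w
      rw [b3 w, mulVec_add, mulVec_smul, mulVec_smul, f1, b3 u, b2, dotProduct_comm ε, hw] at this
      simpa [he] using this
    obtain ⟨c, rfl⟩ := smul_of_three hn he h0 hε h b2 b1 b4
    refine Or.inr ⟨c • e + u, fun a ha => h0 (a - c) (by rw [sub_smul, ← ha, add_sub_cancel_left]),
      by simp [h, b2], (eq_tv (by simp [b2, h]) fun y => ?_).symm⟩
    rw [b3]; simp only [smul_dotProduct, smul_eq_mul]; module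
  refine or_iff_not_imp_left.2 fun hV x hx => ?_
  obtain ⟨y, hy, hyV⟩ := SetLike.not_le_iff_exists.1 hV
  obtain ⟨u, u1, u2, rfl⟩ := (key y hy).resolve_left hyV
  rcases key x hx with ⟨φ, p1, rfl⟩ | ⟨v, -, v2, rfl⟩
  · have := (comm_tv_iff u2).1 (hQ.comm hx hy)
    obtain ⟨w, hw⟩ := exists_dot0 hε
    have := this w
    rw [tv_mulVec p1, tv_mulVec p1, dotProduct_add, dotProduct_smul, h, dotProduct_comm ε, hw] at this
    obtain ⟨c, rfl⟩ := smul_of_three hn he u1 hε h u2 p1 (by simpa [he] using this)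
    exact ⟨c • e, by simp [h], tv_smul c h⟩
  · exact ⟨v, v2, rfl⟩

end Cfsg.Agent.StdL
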