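import Cfsg.Agent.StdL.Bas

/-! Outer involutions of field type and of unitary type. -/

set_option autoImplicit false

namespace Cfsg.Agent.StdL

open Matrix Subgroup Cfsg.Agent.LnT Cfsg.Agent.PLocal.Amb
open scoped commutatorElement

variable {F ι G : Type*} [Field F] [Fintype ι] [DecidableEq ι] [Group G] [CharP F 2] [Finite F]
  {r : SpecialLinearGroup ι F →* G}

/-- `s` is conjugate to `s w` for an involution `w` in the derived group of `C(s)` -/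
def Ou (r : SpecialLinearGroup ι F →* G) (s : G) : Prop :=
  ∃ w l : SpecialLinearGroup ι F, w * w = 1 ∧ w ≠ 1 ∧ r w * s = s * r w ∧
    r w ∈ ⁅centralizer {s}, centralizer {s}⁆ ∧ r l * s * (r l)⁻¹ = s * r w

namespace Out

omit [CharP F 2] [Finite F] in
theorem cent_of {s : G} {a : SpecialLinearGroup ι F} (ha : s * r a * s⁻¹ = r a) :
    r a ∈ centralizer {s} := by
  rw [mem_centralizer_singleton_iff]
  exact (mul_inv_eq_iff_eq_mul.1 ha).symm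

omit [CharP F 2] [Finite F] in
theorem fix_mul {s : G} {a b a' b' : SpecialLinearGroup ι F} (ha : s * r a * s⁻¹ = r a')
    (hb : s * r b * s⁻¹ = r b') : s * r (a * b) * s⁻¹ = r (a' * b') := by
  rw [map_mul, map_mul, ← ha, ← hb]; group

omit [CharP F 2] [Finite F] in
theorem ou_of {s : G} (hs : s * s = 1) {w l l' a b : SpecialLinearGroup ι F} (hw : w * w = 1)
    (hw1 : w ≠ 1) (ha : s * r a * s⁻¹ = r a) (hb : s * r b * s⁻¹ = r b)
    (hab : a * b * a⁻¹ * b⁻¹ = w) (hl : s * r l * s⁻¹ = r l') (e : l' * l⁻¹ = w) : Ou r s := by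
  have h1 := cent_of ha
  have h2 := cent_of hb
  have h3 : r w = ⁅r a, r b⁆ := by
    rw [← hab, commutatorElement_def, map_mul, map_mul, map_mul, map_inv, map_inv]
  have h4 : r w ∈ centralizer {s} := by
    rw [h3]; exact mul_mem (mul_mem (mul_mem h1 h2) (inv_mem h1)) (inv_mem h2)
  refine ⟨w, l, hw, hw1, mem_centralizer_singleton_iff.1 h4, h3 ▸ commutator_mem_commutator h1 h2,
    ?_⟩
  rw [← e, map_mul, map_inv, ← hl, inv_eq_of_mul_eq_one_right hs, ← mul_assoc, ← mul_assoc,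
    ← mul_assoc, hs, one_mul]

omit [Finite F] in
theorem tv_cmt {u χ x φ : ι → F} (h1 : χ ⬝ᵥ u = 0) (h2 : φ ⬝ᵥ x = 0) (h3 : φ ⬝ᵥ u = 0) :
    tv u χ * tv x φ * (tv u χ)⁻¹ * (tv x φ)⁻¹ = tv u ((χ ⬝ᵥ x) • φ) := by
  rw [tv_conj, tv_inv, tv_mulVec h1, vecMul_tv h1, h3, zero_smul, add_zero, add_comm,
    add_tv (by rw [dotProduct_smul, h3, smul_zero]) h2, mul_inv_cancel_right, tv_smul _ h3]

omit [DecidableEq ι] [CharP F 2] [Finite F] in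
theorem exists_11 (h : 3 ≤ Fintype.card ι) (φ e : ι → F) :
    ∃ u, φ ⬝ᵥ u = 0 ∧ ∀ a : F, u ≠ a • e := by
  obtain ⟨u, h1, h2⟩ := exists_ker_notMem (a := 1) (b := 1) (by omega) ![φ] ![e]
  refine ⟨u, h1 0, fun a hu => h2 ?_⟩
  rw [hu]
  exact Submodule.smul_mem _ _ (Submodule.subset_span ⟨0, rfl⟩)

omit [DecidableEq ι] [CharP F 2] [Finite F] in
theorem exists_20 (h : 3 ≤ Fintype.card ι) (φ ψ : ι → F) :
    ∃ u, φ ⬝ᵥ u = 0 ∧ ψ ⬝ᵥ u = 0 ∧ u ≠ 0 := by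
  obtain ⟨u, h1, h2⟩ := exists_ker_notMem (a := 2) (b := 0) (by omega) ![φ, ψ] ![]
  exact ⟨u, h1 0, h1 1, fun hu => h2 (hu ▸ zero_mem _)⟩

omit [Finite F] in
theorem exists_tr {σ : F ≃+* F} (h2 : ∀ a, σ (σ a) = a) (hσ : σ ≠ RingEquiv.refl F) :
    ∃ a, a + σ a = 1 := by
  obtain ⟨b, hb⟩ : ∃ b, σ b ≠ b := by
    by_contra hc
    push Not at hc
    exact hσ (RingEquiv.ext hc)
  have h0 : b + σ b ≠ 0 := fun e => hb (CharTwo.add_eq_zero.1 e).symm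
  refine ⟨b / (b + σ b), ?_⟩
  rw [map_div₀, map_add, h2, add_comm (σ b), ← add_div, div_self h0]

theorem exists_sqrt (d : F) : ∃ c : F, c * c = d := by
  obtain ⟨c, hc⟩ := (frobeniusEquiv F 2).surjective d
  exact ⟨c, by rw [← hc, frobeniusEquiv_apply, frobenius_def, sq]⟩

omit [Finite F] in
theorem sq_inj {a b : F} (h : a * a = b * b) : a = b := by
  rcases mul_self_eq_mul_self_iff.1 h with e | e
  · exact e
  · rw [e, CharTwo.neg_eq]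

omit [Fintype ι] [DecidableEq ι] [Finite F] in
/-- real vectors span -/
theorem exists_real {σ : F ≃+* F} {T : (ι → F) ≃+ (ι → F)} (hT : ∀ (a : F) u, T (a • u) = σ a • T u)
    (TT : ∀ u, T (T u) = u) {a : F} (ha : a + σ a = 1) (P Q : (ι → F) → Prop)
    (P1 : ∀ x y, P x → P y → P (x + y)) (P2 : ∀ (c : F) x, P x → P (c • x))
    (P3 : ∀ x, P x → P (T x)) (Q1 : ∀ x y, Q x → Q y → Q (x + y))
    (Q2 : ∀ (c : F) x, Q x → Q (c • x)) {y : ι → F} (hy : P y) (hy' : ¬ Q y) :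
    ∃ z, P z ∧ ¬ Q z ∧ T z = z := by
  by_contra hc
  push Not at hc
  have h : ∀ x, P x → Q (x + T x) := fun x hx => by
    by_contra h1
    exact hc _ (P1 _ _ hx (P3 _ hx)) h1 (by rw [map_add, TT, add_comm])
  have e : y = (a • y + T (a • y)) + σ a • (y + T y) := by
    rw [hT, smul_add, add_add_add_comm, vadd_self, add_zero, ← add_smul, ha, one_smul]
  exact hy' (e ▸ Q1 _ _ (h _ (P2 _ _ hy)) (Q2 _ _ (h _ hy)))

/-- the elements of the unipotent radical -/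
noncomputable def ys (u φ v χ : ι → F) (b : F) : SpecialLinearGroup ι F :=
  tv u χ * tv v φ * tv u (b • φ)

omit [CharP F 2] [Finite F] in
theorem ys_mulVec {u φ v χ : ι → F} (h1 : φ ⬝ᵥ u = 0) (h2 : φ ⬝ᵥ v = 0) (h3 : χ ⬝ᵥ u = 0) (b : F)
    (x : ι → F) : (ys u φ v χ b).1 *ᵥ x =
      x + (φ ⬝ᵥ x) • v + (χ ⬝ᵥ x + (b + χ ⬝ᵥ v) * (φ ⬝ᵥ x)) • u := by
  rw [ys, mul_mulVec', mul_mulVec', tv_mulVec h3, tv_mulVec h2,
    tv_mulVec (by rw [smul_dotProduct, h1, smul_zero])]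
  simp only [dotProduct_add, dotProduct_smul, smul_dotProduct, h1, h3, smul_eq_mul, mul_zero,
    add_zero]
  module

omit [Finite F] in
theorem ys_swap {u φ v χ : ι → F} (h1 : φ ⬝ᵥ u = 0) (h2 : φ ⬝ᵥ v = 0) (h3 : χ ⬝ᵥ u = 0) {b b' : F}
    (hb : b + b' = χ ⬝ᵥ v) : tv v φ * tv u χ * tv u (b' • φ) = ys u φ v χ b := slext fun x => by
  rw [ys_mulVec h1 h2 h3, mul_mulVec', mul_mulVec', tv_mulVec h3, tv_mulVec h2,
    tv_mulVec (by rw [smul_dotProduct, h1, smul_zero]), ← hb, ← add_assoc b,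
    CharTwo.add_self_eq_zero, zero_add]
  simp only [dotProduct_add, dotProduct_smul, smul_dotProduct, h1, h3, smul_eq_mul, mul_zero,
    add_zero]
  module

omit [Finite F] in
theorem ys_cmt {u φ v χ v' χ' : ι → F} (h1 : φ ⬝ᵥ u = 0) (h2 : φ ⬝ᵥ v = 0) (h3 : χ ⬝ᵥ u = 0)
    (h4 : φ ⬝ᵥ v' = 0) (h5 : χ' ⬝ᵥ u = 0) (b b' : F) (h : χ ⬝ᵥ v' + χ' ⬝ᵥ v = 1) :
    ys u φ v χ b * ys u φ v' χ' b' * (ys u φ v χ b)⁻¹ * (ys u φ v' χ' b')⁻¹ = tv u φ := by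
  rw [mul_inv_eq_iff_eq_mul, mul_inv_eq_iff_eq_mul]
  refine slext fun x => ?_
  have e : χ ⬝ᵥ v' = 1 + χ' ⬝ᵥ v := by rw [← h, add_assoc, CharTwo.add_self_eq_zero, add_zero]
  rw [mul_mulVec', mul_mulVec', mul_mulVec', tv_mulVec h1]
  simp only [ys_mulVec h1 h2 h3, ys_mulVec h1 h4 h5, dotProduct_add, dotProduct_smul, h1, h2, h3, h4,
    h5, smul_eq_mul, mul_zero, add_zero, e]
  module

end Out

open Out

theorem outA (h : Rp r) {s : G} (hs : s * s = 1) {σ : F ≃+* F} (hA : AcI r s σ)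
    (hσ : σ ≠ RingEquiv.refl F) : Ou r s := by
  obtain ⟨h2, T, S, hS, hT, TT, SS⟩ := AcI.nf h (fun y => by rw [hs, one_mul, mul_one]) hA
  obtain ⟨a, ha⟩ := exists_tr h2 hσ
  have z1 : ∀ x y : ι → F, x = 0 → y = 0 → x + y = 0 := fun x y e e' => by rw [e, e', add_zero]
  have z2 : ∀ (c : F) (x : ι → F), x = 0 → c • x = 0 := fun c x e => by rw [e, smul_zero]
  have d1 : ∀ u x y : ι → F, x ⬝ᵥ u = 0 → y ⬝ᵥ u = 0 → (x + y) ⬝ᵥ u = 0 := fun u x y e e' => by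
    rw [add_dotProduct, e, e', add_zero]
  have d2 : ∀ (u : ι → F) (c : F) (x : ι → F), x ⬝ᵥ u = 0 → (c • x) ⬝ᵥ u = 0 := fun u c x e => by
    rw [smul_dotProduct, e, smul_zero]
  obtain ⟨u0, -, -, hu0⟩ := exists_20 h.three (0 : ι → F) 0
  obtain ⟨u, -, hu, Tu⟩ := exists_real hS.smT TT ha (fun _ => True) (· = 0) (fun _ _ _ _ => trivial)
    (fun _ _ _ => trivial) (fun _ _ => trivial) z1 z2 trivial hu0
  have d3 : ∀ x, x ⬝ᵥ u = 0 → S x ⬝ᵥ u = 0 := fun x e => by rw [← Tu, hS.dot, e, map_zero]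
  obtain ⟨φ0, e0, -, hφ0⟩ := exists_20 h.three u 0
  obtain ⟨φ, φu, hφ, Sφ⟩ := exists_real hS.smS SS ha (· ⬝ᵥ u = 0) (· = 0) (d1 u) (d2 u) d3 z1 z2
    (by rwa [dotProduct_comm]) hφ0
  obtain ⟨x0, e1, hx0⟩ := exists_11 h.three φ u
  obtain ⟨x, φx, hx, Tx⟩ := exists_real hS.smT TT ha (φ ⬝ᵥ · = 0) (fun x => ∃ c : F, x = c • u)
    (fun x y e e' => by rw [dotProduct_add, e, e', add_zero])
    (fun c x e => by rw [dotProduct_smul, e, smul_zero])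
    (fun x e => by rw [← Sφ, hS.dot, e, map_zero])
    (fun _ _ ⟨c, e⟩ ⟨c', e'⟩ => ⟨c + c', by rw [e, e', add_smul]⟩)
    (fun c _ ⟨c', e⟩ => ⟨c * c', by rw [e, smul_smul]⟩) e1 (not_exists.2 hx0)
  obtain ⟨χ0, e2, e3⟩ := exists_dot1 (not_exists.1 hx)
  obtain ⟨χ, χu, χx, Sχ⟩ := exists_real hS.smS SS ha (· ⬝ᵥ u = 0) (· ⬝ᵥ x = 0) (d1 u) (d2 u) d3
    (d1 x) (d2 x) e3 (by rw [e2]; exact one_ne_zero)
  have hc : σ (χ ⬝ᵥ x) = χ ⬝ᵥ x := by rw [← hS.dot, Sχ, Tx]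
  have f1 := d2 u (χ ⬝ᵥ x) φ φu
  refine ou_of hs (l := tv u (a • (χ ⬝ᵥ x) • φ)) (l' := tv u (σ a • (χ ⬝ᵥ x) • φ)) (tv_sq _ _)
    (fun e => ?_) (by rw [hT _ _ χu, Tu, Sχ]) (by rw [hT _ _ φx, Tx, Sφ]) (tv_cmt χu φx φu)
    (by rw [hT _ _ (d2 u _ _ f1), Tu, hS.smS, hS.smS, hc, Sφ]) ?_
  · rcases (tv_eq_one f1).1 e with e | e
    · exact hu e
    · exact (smul_ne_zero χx hφ) e
  · rw [tv_inv, ← tv_add (d2 u _ _ f1) (d2 u _ _ f1), ← add_smul, add_comm, ha, one_smul]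

theorem outB (h : Rp r) {s : G} (hs : s * s = 1) {σ : F ≃+* F} (hA : AcII r s σ)
    (hσ : σ ≠ RingEquiv.refl F) : Ou r s := by
  obtain ⟨h2, T, S, hS, hT, ST, her⟩ := AcII.nf h (fun y => by rw [hs, one_mul, mul_one]) hA
  obtain ⟨a, ha⟩ := exists_tr h2 hσ
  have sy : ∀ u v, T u ⬝ᵥ v = 0 → T v ⬝ᵥ u = 0 := fun u v e => by rw [her, e, map_zero]
  obtain ⟨u, hu, uu⟩ : ∃ u, u ≠ 0 ∧ T u ⬝ᵥ u = 0 := by
    by_contra hc
    push Not at hc
    obtain ⟨x, -, -, hx⟩ := exists_20 h.three (0 : ι → F) 0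
    obtain ⟨y, xy, -, hy⟩ := exists_20 h.three (T x) 0
    obtain ⟨c, e⟩ := exists_sqrt (T x ⬝ᵥ x / (T y ⬝ᵥ y))
    have e1 : σ c = c := sq_inj (by rw [← map_mul, e, map_div₀, ← her, ← her])
    refine hc (x + c • y) (fun e2 => hc x hx ?_) ?_
    · have := congrArg (T x ⬝ᵥ ·) e2
      simpa only [dotProduct_add, dotProduct_smul, xy, smul_zero, add_zero, dotProduct_zero]
        using this
    · simp only [map_add, hS.smT, e1, dotProduct_add, add_dotProduct, dotProduct_smul,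
        smul_dotProduct, xy, sy _ _ xy, smul_eq_mul, mul_zero, add_zero, zero_add]
      rw [← mul_assoc, e, div_mul_cancel₀ _ (hc y hy), CharTwo.add_self_eq_zero]
  have cu : ∀ c : F, (c • T u) ⬝ᵥ u = 0 := fun c => by rw [smul_dotProduct, uu, smul_zero]
  have hZ : ∀ c : F, s * r (tv u (c • T u)) * s⁻¹ = r (tv u (σ c • T u)) := fun c => by
    rw [hT _ _ (cu c), hS.smS, ST, tv_smul _ uu]
  have hY : ∀ v, T u ⬝ᵥ v = 0 → s * r (ys u (T u) v (T v) (a * (T v ⬝ᵥ v))) * s⁻¹ =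
      r (ys u (T u) v (T v) (a * (T v ⬝ᵥ v))) := fun v e => by
    have := fix_mul (fix_mul (hT _ _ (sy _ _ e)) (hT _ _ e)) (hZ (a * (T v ⬝ᵥ v)))
    rwa [ST, ST, ys_swap uu e (sy _ _ e) (b := a * (T v ⬝ᵥ v))
      (by rw [map_mul, ← her, ← add_mul, ha, one_mul])] at this
  obtain ⟨v, uv, hv⟩ := exists_11 h.three (T u) u
  obtain ⟨x, e1, e2⟩ := exists_dot1 (e := T u) (u := T v) fun c e => hv (σ c) (T.injective (by
    rw [hS.smT, h2, e]))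
  rw [dotProduct_comm] at e1 e2
  have e3 : T u ⬝ᵥ a • x = 0 := by rw [dotProduct_smul, e2, smul_zero]
  refine ou_of hs (l := tv u (a • T u)) (tv_sq _ _) (fun e => ?_) (hY v uv) (hY _ e3)
    (ys_cmt uu uv (sy _ _ uv) e3 (sy _ _ e3) _ _ ?_) (hZ a) ?_
  · rcases (tv_eq_one uu).1 e with e | e
    · exact hu e
    · exact hu (T.map_eq_zero_iff.1 e)
  · rw [her (a • x), dotProduct_smul, e1, smul_eq_mul, mul_one, ha]
  · rw [tv_inv, ← tv_add (cu _) (cu _), ← add_smul, add_comm, ha, one_smul]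

end Cfsg.Agent.StdL
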