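import Cfsg.Agent.StdL.OutA

/-! Outer involutions of symmetric type: `β u v = T u ⬝ᵥ v` is symmetric, `β u u = (ν ⬝ᵥ u)²`. -/

set_option autoImplicit false

namespace Cfsg.Agent.StdL

open Matrix Subgroup Cfsg.Agent.LnT Cfsg.Agent.PLocal.Amb
open scoped commutatorElement

variable {F ι G : Type*} [Field F] [Fintype ι] [DecidableEq ι] [Group G] [CharP F 2] [Finite F]
  {r : SpecialLinearGroup ι F →* G}

namespace Out

/-- a symmetric polarity -/
structure Sy (r : SpecialLinearGroup ι F →* G) (s : G) (T : (ι → F) ≃+ (ι → F)) : Prop where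
  sm : ∀ (a : F) u, T (a • u) = a • T u
  sy : ∀ u v, T u ⬝ᵥ v = T v ⬝ᵥ u
  ac : ∀ u v, T v ⬝ᵥ u = 0 → s * r (tv u (T v)) * s⁻¹ = r (tv v (T u))

/-- isometries centralised by `s` -/
def Gd (r : SpecialLinearGroup ι F →* G) (s : G) (T : (ι → F) ≃+ (ι → F))
    (k : SpecialLinearGroup ι F) : Prop :=
  s * r k * s⁻¹ = r k ∧ ∀ x, T x ᵥ* (k⁻¹).1 = T (k.1 *ᵥ x)

variable {s : G} {T : (ι → F) ≃+ (ι → F)}

omit [CharP F 2] [Finite F] in
theorem Gd.mul {a b : SpecialLinearGroup ι F} (ha : Gd r s T a) (hb : Gd r s T b) :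
    Gd r s T (a * b) :=
  ⟨fix_mul ha.1 hb.1, fun x => by rw [_root_.mul_inv_rev, vecMul_mul', hb.2, ha.2, mul_mulVec']⟩

omit [CharP F 2] [Finite F] in
theorem Gd.conj {k : SpecialLinearGroup ι F} (h : Gd r s T k) (u v : ι → F) :
    k * tv u (T v) * k⁻¹ = tv (k.1 *ᵥ u) (T (k.1 *ᵥ v)) := by rw [tv_conj, h.2]

omit [Finite F] in
theorem Sy.k1 (h : Sy r s T) {a b : ι → F} (ha : T a ⬝ᵥ a = 0) (hb : T b ⬝ᵥ b = 0)
    (hab : T a ⬝ᵥ b ≠ 0) : ∃ k, Gd r s T k ∧ k.1 *ᵥ a = b ∧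
      ∀ x, T a ⬝ᵥ x = 0 → T b ⬝ᵥ x = 0 → k.1 *ᵥ x = x := by
  have h1 : T (a + b) ⬝ᵥ (a + b) = 0 := by
    rw [map_add, add_dotProduct, dotProduct_add, dotProduct_add, ha, hb, h.sy b a, zero_add,
      add_zero, CharTwo.add_self_eq_zero]
  have h2 : T ((T a ⬝ᵥ b)⁻¹ • (a + b)) ⬝ᵥ (a + b) = 0 := by
    rw [h.sm, smul_dotProduct, h1, smul_zero]
  refine ⟨tv (a + b) (T ((T a ⬝ᵥ b)⁻¹ • (a + b))), ⟨?_, fun x => ?_⟩, ?_, fun x e e' => ?_⟩
  · rw [h.ac _ _ h2, tv_smul _ h1, h.sm]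
  · rw [tv_inv, vecMul_tv h2, tv_mulVec h2, map_add T x, h.sm, h.sm, smul_dotProduct,
      h.sy x, smul_smul, smul_eq_mul, mul_comm]
  · rw [tv_mulVec h2, h.sm, smul_dotProduct, map_add, add_dotProduct, ha, zero_add, h.sy b a,
      smul_eq_mul, inv_mul_cancel₀ hab, one_smul, ← add_assoc, vadd_self, zero_add]
  · rw [tv_mulVec h2, h.sm, smul_dotProduct, map_add, add_dotProduct, e, e', add_zero, smul_zero,
      zero_smul, add_zero]

omit [Finite F] in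
theorem Sy.k2 (h : Sy r s T) {a b c : ι → F} (ha : T a ⬝ᵥ a = 0) (hb : T b ⬝ᵥ b = 0)
    (hc : T c ⬝ᵥ c = 0) (h1 : T a ⬝ᵥ c ≠ 0) (h2 : T b ⬝ᵥ c ≠ 0) : ∃ k, Gd r s T k ∧ k.1 *ᵥ a = b ∧
      ∀ x, T a ⬝ᵥ x = 0 → T b ⬝ᵥ x = 0 → T c ⬝ᵥ x = 0 → k.1 *ᵥ x = x := by
  obtain ⟨k, g1, e1, f1⟩ := h.k1 ha hc h1
  obtain ⟨k', g2, e2, f2⟩ := h.k1 hc hb (by rwa [h.sy])
  exact ⟨k' * k, g2.mul g1, by rw [mul_mulVec', e1, e2], fun x a1 a2 a3 => by
    rw [mul_mulVec', f1 x a1 a3, f2 x a3 a2]⟩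

omit [Finite F] in
theorem Sy.caseN (h : Sy r s T) (hs : s * s = 1) {x u v c : ι → F} (hx : T x ⬝ᵥ x = 1)
    (hu : T u ⬝ᵥ u = 0) (hv : T v ⬝ᵥ v = 0) (hc : T c ⬝ᵥ c = 0) (xu : T x ⬝ᵥ u = 0)
    (xv : T x ⬝ᵥ v = 0) (uv : T u ⬝ᵥ v = 0) (uc : T u ⬝ᵥ c ≠ 0) (vc : T v ⬝ᵥ c ≠ 0)
    (hne : tv v (T v) ≠ tv u (T u)) : Ou r s := by
  obtain ⟨k, g, e, -⟩ := h.k2 hu hv hc uc vc
  have ux := (h.sy u x).trans xu
  have vx := (h.sy v x).trans xv
  have vu := (h.sy v u).trans uv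
  have c1 := tv_comm_tv hv hu vu uv
  have c2 : tv x (T v) * tv v (T x) * tv u (T u) = tv u (T u) * (tv x (T v) * tv v (T x)) := by
    rw [mul_assoc, tv_comm_tv xv hu xu uv, ← mul_assoc, tv_comm_tv vx hu vu ux, mul_assoc]
  have m1 := tv_cmt xu ux hu
  have m2 := tv_cmt xv vx hv
  rw [hx, one_smul] at m1 m2
  refine ou_of hs (w := tv v (T v) * tv u (T u))
    (l := tv x (T v) * tv v (T x) * (tv x (T u) * tv u (T x))) ?_ (fun e => hne ?_) g.1 (h.ac u u hu)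
    (by rw [g.conj, e, tv_inv])
    (fix_mul (fix_mul (h.ac _ _ vx) (h.ac _ _ xv)) (fix_mul (h.ac _ _ ux) (h.ac _ _ xu))) ?_
  · rw [mul_assoc, ← mul_assoc (tv u _), ← c1, mul_assoc, tv_sq, mul_one, tv_sq]
  · rw [mul_eq_one_iff_eq_inv.1 e, tv_inv]
  · calc _ = tv v (T x) * tv x (T v) * (tv v (T x))⁻¹ * (tv x (T v))⁻¹ *
          ((tv x (T v) * tv v (T x)) * (tv u (T x) * tv x (T u) * (tv u (T x))⁻¹ * (tv x (T u))⁻¹) *
            (tv x (T v) * tv v (T x))⁻¹) := by group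
      _ = _ := by rw [m1, m2, c2, mul_inv_cancel_right]

omit [Finite F] in
theorem Sy.caseA (h : Sy r s T) (hs : s * s = 1) (al : ∀ x, T x ⬝ᵥ x = 0) {u v v' c : ι → F}
    (hu : u ≠ 0) (uv : T u ⬝ᵥ v = 0) (uv' : T u ⬝ᵥ v' = 0) (uc : T u ⬝ᵥ c = 0)
    (vv : T v ⬝ᵥ v' = 0) (vc : T v ⬝ᵥ c ≠ 0) (vc' : T v' ⬝ᵥ c ≠ 0) (hne : ∀ a : F, v' + v ≠ a • u) :
    Ou r s := by
  have vu := (h.sy v u).trans uv
  have vu' := (h.sy v' u).trans uv'
  obtain ⟨k, g, e, f⟩ := h.k2 (al v) (al v') (al c) vc vc'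
  have ku := f u vu vu' ((h.sy c u).trans uc)
  have p1 : T u ⬝ᵥ (v' + v) = 0 := by rw [dotProduct_add, uv, uv', add_zero]
  have p2 := (h.sy _ u).trans p1
  have c1 := tv_comm_tv p1 p2 (al u) (al _)
  have c2 := tv_comm_tv uv vu (al u) (al _)
  refine ou_of hs (w := tv (v' + v) (T u) * tv u (T (v' + v))) (l := tv u (T (v' + v)))
    (b := tv v (T u) * tv u (T v)) ?_ (fun e => ?_) g.1 ?_ ?_ (h.ac _ _ p2) (by rw [tv_inv])
  · rw [mul_assoc, ← mul_assoc (tv u _), ← c1, mul_assoc, tv_sq, mul_one, tv_sq]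
  · obtain ⟨z, hz⟩ := exists_dot0 (T.map_ne_zero_iff.2 hu)
    have := (tv_eq_iff p1 p2).1 ((mul_eq_one_iff_eq_inv.1 e).trans (tv_inv _ _)) z
    rw [dotProduct_comm, hz, one_smul] at this
    exact hne _ this
  · rw [fix_mul (h.ac _ _ uv) (h.ac _ _ vu), c2]
  · have : k * (tv v (T u) * tv u (T v)) * k⁻¹ = tv v' (T u) * tv u (T v') := by
      rw [← conj_mul, g.conj, g.conj, e, ku]
    rw [this, c2, _root_.mul_inv_rev, tv_inv, tv_inv, add_tv uv' uv, map_add, tv_add vu' vu,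
      mul_assoc, mul_assoc, ← mul_assoc (tv u _), ← mul_assoc (tv v _),
      tv_comm_tv vu' uv ((h.sy v' v).trans vv) (al u)]

theorem Sy.exists_nu (h : Sy r s T) : ∃ ν : ι → F, ∀ x, T x ⬝ᵥ x = ν ⬝ᵥ x * (ν ⬝ᵥ x) := by
  choose f hf using exists_sqrt (F := F)
  let g : (ι → F) →ₗ[F] F :=
    { toFun := fun x => f (T x ⬝ᵥ x)
      map_add' := fun x y => sq_inj (by
        rw [hf, CharTwo.add_mul_self, hf, hf, map_add, add_dotProduct, dotProduct_add,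
          dotProduct_add, h.sy y x, add_assoc, ← add_assoc (T x ⬝ᵥ y), CharTwo.add_self_eq_zero,
          zero_add])
      map_smul' := fun a x => sq_inj (by
        rw [hf, RingHom.id_apply, smul_eq_mul, mul_mul_mul_comm, hf, h.sm, smul_dotProduct,
          dotProduct_smul, smul_eq_mul, smul_eq_mul, mul_assoc]) }
  obtain ⟨ν, hν⟩ := (dotProductEquiv F ι).surjective g
  refine ⟨ν, fun x => ?_⟩
  have : ν ⬝ᵥ x = f (T x ⬝ᵥ x) := LinearMap.congr_fun hν x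
  rw [this, hf]

end Out

open Out

theorem outC (h : Rp r) {s : G} (hs : s * s = 1) (hA : AcII r s (RingEquiv.refl F)) : Ou r s := by
  obtain ⟨-, T, S, hS, hT, ST, her⟩ := AcII.nf h (fun y => by rw [hs, one_mul, mul_one]) hA
  have y : Sy r s T := ⟨hS.smT, her, fun u v e => by rw [hT _ _ e, ST]⟩
  obtain ⟨ν, hν⟩ := y.exists_nu
  have iso : ∀ x, ν ⬝ᵥ x = 0 → T x ⬝ᵥ x = 0 := fun x e => by rw [hν, e, mul_zero]
  by_cases h0 : ν = 0
  · have al : ∀ x, T x ⬝ᵥ x = 0 := fun x => iso x (by rw [h0, zero_dotProduct])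
    obtain ⟨u, -, -, hu⟩ := exists_20 h.three (0 : ι → F) 0
    obtain ⟨v, uv, hv⟩ := exists_11 h.three (T u) u
    have i1 : ∀ a : F, T v ≠ a • T u := fun a e => hv a (T.injective (by rw [y.sm, e]))
    rcases h.hq with hq | hq
    · obtain ⟨μ, m0, m1⟩ := exists_ne01 hq
      obtain ⟨c, e1, e2⟩ := exists_dot1 i1
      rw [dotProduct_comm] at e1 e2
      have m2 : μ + 1 ≠ 0 := fun e => m1 (CharTwo.add_eq_zero.1 e)
      refine y.caseA hs al (v' := μ • v) hu uv (by rw [dotProduct_smul, uv, smul_zero]) e2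
        (by rw [dotProduct_smul, al, smul_zero]) (by rw [e1]; exact one_ne_zero)
        (by rwa [y.sm, smul_dotProduct, e1, smul_eq_mul, mul_one]) fun a e => hv ((μ + 1)⁻¹ * a) ?_
      rw [mul_smul, ← e, eq_inv_smul_iff₀ m2, add_smul, one_smul]
    · obtain ⟨v', a1, a2, a3⟩ := exists_22 hq (T u) (T v) u v
      obtain ⟨c, e1, e2, e3⟩ := exists_dot11 i1 (v := T v') fun a b e =>
        a3 a b (T.injective (by rw [map_add, y.sm, y.sm, e]))
      rw [dotProduct_comm] at e1 e2 e3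
      refine y.caseA hs al hu uv a1 e1 a2 (by rw [e2]; exact one_ne_zero)
        (by rw [e3]; exact one_ne_zero) fun a e => a3 a 1 ?_
      rw [← e, one_smul, add_assoc, vadd_self, add_zero]
  · obtain ⟨x, hx⟩ := exists_dot0 h0
    rw [dotProduct_comm] at hx
    have xx : T x ⬝ᵥ x = 1 := by rw [hν, hx, mul_one]
    obtain ⟨u, a1, a2, hu⟩ := exists_20 h.three ν (T x)
    have i1 : ∀ a : F, T u ≠ a • ν := fun a e => by
      have := (y.sy u x).trans a2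
      rw [e, smul_dotProduct, hx, smul_eq_mul, mul_one] at this
      rw [this, zero_smul] at e
      exact hu (T.map_eq_zero_iff.1 e)
    rcases h.hq with hq | hq
    · obtain ⟨μ, m0, m1⟩ := exists_ne01 hq
      obtain ⟨c, e1, e2⟩ := exists_dot1 i1
      rw [dotProduct_comm] at e1 e2
      have b1 : T (μ • u) ⬝ᵥ μ • u = 0 := iso _ (by rw [dotProduct_smul, a1, smul_zero])
      refine y.caseN hs (v := μ • u) xx (iso _ a1) b1 (iso _ e2) a2
        (by rw [dotProduct_smul, a2, smul_zero]) (by rw [dotProduct_smul, iso _ a1, smul_zero])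
        (by rw [e1]; exact one_ne_zero) (by rwa [y.sm, smul_dotProduct, e1, smul_eq_mul, mul_one])
        fun e => m1 (sq_inj ?_)
      have := (tv_eq_iff b1 (iso _ a1)).1 e c
      rw [y.sm, smul_dotProduct, e1, smul_eq_mul, mul_one, smul_smul] at this
      rw [smul_left_injective F hu this, mul_one]
    · obtain ⟨v, b1, b2, b3, b4⟩ := exists_31 hq ν (T x) (T u) u
      obtain ⟨c, e1, e2, e3⟩ := exists_dot11 i1 (v := T v) fun a b e => by
        have := (y.sy v x).trans b2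
        rw [e, add_dotProduct, smul_dotProduct, smul_dotProduct, hx, (y.sy u x).trans a2, smul_zero,
          add_zero, smul_eq_mul, mul_one] at this
        rw [this, zero_smul, zero_add, ← y.sm] at e
        exact b4 b (T.injective e)
      rw [dotProduct_comm] at e1 e2 e3
      refine y.caseN hs xx (iso _ a1) (iso _ b1) (iso _ e1) a2 b2 b3 (by rw [e2]; exact one_ne_zero)
        (by rw [e3]; exact one_ne_zero) fun e => ?_
      have := (tv_eq_iff (iso _ b1) (iso _ a1)).1 e c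
      rw [e3, one_smul] at this
      exact b4 _ this

end Cfsg.Agent.StdL
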