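import Cfsg.Agent.StdL.RingB
import Cfsg.Agent.KSG.WeightBound
import Cfsg.Agent.Class.LinearBasic

/-! The doubled root groups generate an image of `SL ι K`, `|K| = |F|²`, or a central product of two
images of `SL ι F`. -/

set_option autoImplicit false

namespace Cfsg.Agent.StdL

open Matrix Subgroup Cfsg.Agent.LnT Cfsg.Agent.PLocal.Amb Cfsg.Agent.KSG
open scoped commutatorElement

universe u

variable {F : Type u} {ι G : Type*} [Field F] [Fintype ι] [DecidableEq ι] [Group G] [CharP F 2]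
  [Finite F] [Finite G] {r : SpecialLinearGroup ι F →* G} {t : G}

theorem Ds.th_mul (h : Ds r t) {e : ι → F} (he : e ≠ 0) {a b : G} (ha : a ∈ Wg (Vg r e) t)
    (hb : b ∈ Wg (Vg r e) t) : a * b * t * (a * b) * t = a * t * a * t * (b * t * b * t) := by
  have h1 := (((h.dbl e he).mem b).1 hb).2.1 _ (h.th he ha)
  calc _ = a * b * (a * a) * t * a * (t * t) * b * t := by rw [h.sq he ha, h.tt]; group
    _ = a * (b * a) * (a * t * a * t) * t * b * t := by group
    _ = _ := by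
      rw [← (h.dbl e he).com a ha b hb, ← mul_assoc a, h.sq he ha, one_mul, h1]; group

theorem Hs.W_le (h : Hs r t) {H : Subgroup G} (hL : r.range ≤ H)
    (hX : ∀ i k, i ≠ k → Xg r t i k ≤ H) {e : ι → F} (he : e ≠ 0) : Wc (Vg r e) t ⊆ H := by
  obtain ⟨i⟩ : Nonempty ι := Fintype.card_pos_iff.1 (by have := h.three; omega)
  have key : ∀ φ : ι → F, φ i = 0 → ∃ x ∈ Wg (Vg r (Pi.single i 1)) t ⊓ H,
      x * t * x * t = r (tv (Pi.single i 1) φ) := fun φ hφ => by
    rw [← Finset.univ_sum_single φ]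
    refine (Finset.sum_induction _ (fun ψ : ι → F => ψ i = 0 ∧ ∃ x ∈ Wg (Vg r (Pi.single i 1)) t ⊓ H,
      x * t * x * t = r (tv (Pi.single i 1) ψ)) ?_ ⟨rfl, 1, one_mem _, by simp [h.tt, tv_zero]⟩
      fun k _ => ?_).2
    · rintro a b ⟨a0, x, hx, e1⟩ ⟨b0, y, hy, e2⟩
      refine ⟨by simp [a0, b0], x * y, mul_mem hx hy, ?_⟩
      rw [h.th_mul (single_ne i) hx.1 hy.1, e1, e2, ← map_mul, LnT.tv_add (by simpa) (by simpa)]
    · by_cases hk : i = k
      · subst hk
        exact ⟨by simpa, 1, one_mem _, by simp [h.tt, tv_zero, hφ]⟩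
      obtain ⟨x, hx, e1⟩ := h.cov _ _ (single_ne i) (single_ne k) (single_dot hk) (φ k)
      exact ⟨by simp [hk], x, ⟨hx.1, hX i k hk hx⟩, by rw [e1, ← Pi.single_smul, smul_eq_mul, mul_one]⟩
  have base : Wg (Vg r (Pi.single i 1)) t ≤ H := fun w hw => by
    obtain ⟨φ, h1, h2⟩ := mem_Vg.1 (h.th (single_ne i) hw)
    obtain ⟨x, hx, e1⟩ := key φ (by simpa using h1)
    have := h.kerW (single_ne i) (mul_mem hw hx.1) (by
      rw [h.th_mul (single_ne i) hw hx.1, e1, ← h2, ← map_mul, tv_sq, map_one])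
    exact (Subgroup.mul_mem_cancel_right _ hx.2).1 (hL (map_le_range _ _ this))
  intro w hw
  obtain ⟨g, hg⟩ := h.toRp.trans he (single_ne i)
  have := base (hg ▸ h.conj_W he (subset_closure hw) g)
  rwa [Subgroup.mul_mem_cancel_right _ (inv_mem (hL ⟨g, rfl⟩)),
    Subgroup.mul_mem_cancel_left _ (hL ⟨g, rfl⟩)] at this

theorem Hs.W_le' (h : Hs r t) {H : Subgroup G} (hL : r.range ≤ H)
    (hX : ∀ i k, i ≠ k → Xg r t i k ≤ H) {e : ι → F} (he : e ≠ 0) :
    Wc (Vg (StdL.du r) e) t ⊆ H :=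
  h.du.W_le (by rwa [range_du]) (fun i k e => by rw [Xg_du]; exact hX k i e.symm) he

theorem Hs.conj_mem (h : Hs r t) {H : Subgroup G} (hL : r.range ≤ H)
    (hX : ∀ i k, i ≠ k → Xg r t i k ≤ H) {c x : G} (hc : c * t = t * c) {i k : ι}
    (hx : x ∈ Xg r t i k) : c * x * c⁻¹ ∈ H := by
  have h1 := conj_Wc hc (((h.dbl _ (single_ne i)).mem x).1 hx.1)
  have key : ∀ {σ : F ≃+* F} {T S : (ι → F) ≃+ (ι → F)} {r' : SpecialLinearGroup ι F →* G},
      Semi σ T S → (∀ u φ, φ ⬝ᵥ u = 0 → c * r (tv u φ) * c⁻¹ = r' (tv (T u) (S φ))) →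
      ∀ e, cj(c, Vg r e) = Vg r' (T e) := fun {σ T S r'} hS hT e => by
    ext y
    rw [mem_cj_iff_exists, mem_Vg]
    constructor
    · rintro ⟨_, hy, rfl⟩
      obtain ⟨φ, h0, rfl⟩ := mem_Vg.1 hy
      exact ⟨S φ, by rw [hS.dot, h0, map_zero], (hT e φ h0).symm⟩
    · rintro ⟨φ, h0, rfl⟩
      obtain ⟨φ, rfl⟩ := S.surjective φ
      rw [hS.dot, map_eq_zero] at h0
      exact ⟨_, mem_Vg.2 ⟨φ, h0, rfl⟩, hT e φ h0⟩
  obtain ⟨σ, ⟨T, S, hS, hT⟩ | ⟨T, S, hS, hT⟩⟩ := h.toRp.exists_ac (h.nrm c hc)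
  · rw [key hS hT] at h1
    exact h.W_le hL hX (by simp) h1
  · rw [key (r' := StdL.du r) hS fun u φ e => by rw [hT u φ e, du_tv]] at h1
    exact h.W_le' hL hX (by simp) h1

theorem hom_ext {K M : Type*} [Field K] [Finite K] [Group M] {f g : SpecialLinearGroup ι K →* M}
    (h : ∀ i k, i ≠ k → ∀ a, f (tvE i k a) = g (tvE i k a)) (x : SpecialLinearGroup ι K) :
    f x = g x := (eq_top_of_tvE (f.eqLocus g) h).ge (mem_top x)

theorem range_le {K M : Type*} [Field K] [Finite K] [Group M] {f : SpecialLinearGroup ι K →* M}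
    {H : Subgroup M} (h : ∀ i k, i ≠ k → ∀ a, f (tvE i k a) ∈ H) : f.range ≤ H := by
  rintro _ ⟨x, rfl⟩
  exact (eq_top_of_tvE (H.comap f) h).ge (mem_top x)

theorem map_tvE {K K' : Type*} [Field K] [Field K'] (f : K →+* K') {i k : ι} (h : i ≠ k) (a : K) :
    SpecialLinearGroup.map f (tvE i k a) = tvE i k (f a) := by
  refine Subtype.ext ?_
  change f.mapMatrix (tvE i k a).1 = _
  rw [tvE_coe h, tvE_coe h, map_add, map_one, RingHom.mapMatrix_apply, Matrix.map_single]

theorem Rg.fld (h : Hs r t) {β : F} [Fact (∀ c : F, c ^ 2 ≠ β + 1 * c)]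
    {y : ι → ι → QuadraticAlgebra F β 1 → G} (R : Rg r t y) [Finite (QuadraticAlgebra F β 1)] :
    ∃ ρ, Fld r t (starRingAut : QuadraticAlgebra F β 1 ≃+* _) (algebraMap F _) ρ := by
  obtain ⟨ρ, hρ⟩ := StSL.exists_hom (x := y) ⟨R.add, R.comm, R.cmt⟩ h.three
  have ext : ∀ g, ρ (SpecialLinearGroup.map (algebraMap F _) g) = r g :=
    hom_ext (f := ρ.comp (SpecialLinearGroup.map (algebraMap F _))) fun i k e a => by
      rw [MonoidHom.comp_apply, map_tvE _ e, hρ i k e, R.ext i k e]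
  have hL : r.range ≤ ρ.range := by
    rintro _ ⟨g, rfl⟩
    exact ⟨_, ext g⟩
  have hX : ∀ i k, i ≠ k → Xg r t i k ≤ ρ.range := fun i k e g hg => by
    obtain ⟨a, rfl⟩ := (R.mem i k e g).1 hg
    exact ⟨_, hρ i k e a⟩
  have card : Nat.card (QuadraticAlgebra F β 1) = Nat.card F ^ 2 := by
    rw [Nat.card_congr (QuadraticAlgebra.equivProd β 1), Nat.card_prod, sq]
  refine ⟨ρ, h.toSu, h.nsq, card, star_star, fun a => ⟨fun e => ⟨a.re, ?_⟩, ?_⟩,
    ⟨h.three, Or.inl ?_, fun g hg => ?_⟩, ext, hom_ext (f := cjh t ρ)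
      (g := ρ.comp (SpecialLinearGroup.map _)) fun i k e a => ?_,
    fun e he => h.W_le hL hX he, fun e he => h.W_le' hL hX he, fun c hc => ?_⟩
  · have := congrArg QuadraticAlgebra.re e
    exact QuadraticAlgebra.ext rfl (by simpa [eq_comm] using this)
  · rintro ⟨c, rfl⟩
    exact QuadraticAlgebra.ext (by simp) (by simp)
  · have := Finite.one_lt_card (α := F)
    rw [card]; nlinarith
  · by_contra hn
    have := Class.PSL_isSimpleGroup (F := QuadraticAlgebra F β 1) h.three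
    have := normal_eq_top_of_not_le_center (Class.SL_commutator_eq_top h.three) ρ.ker
      fun hle => hn (hle hg)
    obtain ⟨i, k, -, e, -⟩ := Fintype.two_lt_card_iff.1 h.three
    have e1 : r (tvE i k 1) = r (tvE i k 0) := by
      rw [← ext, ← ext, (this.ge (mem_top _) : ρ _ = 1), (this.ge (mem_top _) : ρ _ = 1)]
    exact one_ne_zero (h.z_inj e e1)
  · rw [cjh_apply, MonoidHom.comp_apply, map_tvE _ e, hρ i k e, hρ i k e, R.act i k e]; rfl
  · refine mem_normalizer_of_cj_le (range_cjh c ρ ▸ range_le fun i k e a => ?_)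
    rw [cjh_apply, hρ i k e]
    exact h.conj_mem hL hX hc ((R.mem i k e _).2 ⟨a, rfl⟩)

theorem Rg.spl (h : Hs r t) {β c : F} (hc : c ^ 2 = β + 1 * c)
    {y : ι → ι → QuadraticAlgebra F β 1 → G} (R : Rg r t y) : ∃ r₁, Spl r t r₁ := by
  let u : F → QuadraticAlgebra F β 1 := fun a => ⟨a * c, a⟩
  let v : F → QuadraticAlgebra F β 1 := fun a => ⟨a * c + a, a⟩
  have two : (2 : F) = 0 := CharTwo.two_eq_zero
  have uv : ∀ a b, u a * v b = 0 := fun a b => QuadraticAlgebra.ext
    (by simp only [u, v, QuadraticAlgebra.re_mul, QuadraticAlgebra.re_zero]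
        linear_combination a * b * hc + a * b * (β + c) * two)
    (by simp only [u, v, QuadraticAlgebra.im_mul, QuadraticAlgebra.im_zero]
        linear_combination a * b * (1 + c) * two)
  have vv : ∀ a, v a * v 1 = v a := fun a => QuadraticAlgebra.ext
    (by simp only [v, QuadraticAlgebra.re_mul]; linear_combination a * hc + a * (β + c) * two)
    (by simp only [v, QuadraticAlgebra.im_mul]; linear_combination a * (1 + c) * two)
  obtain ⟨r₁, h1⟩ := StSL.exists_hom (x := fun i k a => y i k (u a))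
    ⟨fun i k e a b => (R.add i k e _ _).trans (congrArg _ (QuadraticAlgebra.ext
        (by simp only [u, QuadraticAlgebra.re_add]; ring) rfl)),
      fun i k i' k' h1 h2 h3 h4 a b => R.comm i k i' k' h1 h2 h3 h4 _ _,
      fun i k l h1 h2 h3 a b => (R.cmt i k l h1 h2 h3 _ _).trans (congrArg _ (QuadraticAlgebra.ext
        (by simp only [u, QuadraticAlgebra.re_mul]; linear_combination a * b * hc + a * b * β * two)
        (by simp only [u, QuadraticAlgebra.im_mul]; linear_combination a * b * c * two)))⟩ h.three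
  have h2 : ∀ i k, i ≠ k → ∀ a, cjh t r₁ (tvE i k a) = y i k (v a) := fun i k e a => by
    rw [cjh_apply, h1 i k e, R.act i k e]
    exact congrArg _ (QuadraticAlgebra.ext (by simp [u, v]) (by simp [u, v, CharTwo.neg_eq]))
  have y0 : ∀ i k, i ≠ k → y i k 0 = 1 := fun i k e => by simpa using R.add i k e 0 0
  have c1 : ∀ i k l, i ≠ k → k ≠ l → i ≠ l → ∀ a b, a * b = 0 → Commute (y i k a) (y k l b) :=
    fun i k l h1 h2 h3 a b e => by
      have := R.cmt i k l h1 h2 h3 a b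
      rwa [e, y0 i l h3, mul_inv_eq_one, mul_inv_eq_iff_eq_mul] at this
  have c2 : ∀ i k i' k', i ≠ k → i' ≠ k' → ∀ a b, Commute (y i k (u a)) (y i' k' (v b)) := by
    intro i k i' k' e e' a b
    by_cases h3 : i = k' <;> by_cases h4 : k = i'
    · subst h3 h4
      obtain ⟨n, n1, n2⟩ := exists_third h.three i k
      have a1 := c1 i k n e n2.symm n1.symm _ _ (uv a b)
      have a2 := (c1 n i k n1 e n2 _ _ ((mul_comm _ _).trans (uv a 1))).symm
      rw [← vv, ← R.cmt k n i n2.symm n1 e']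
      exact ((a1.mul_right a2).mul_right a1.inv_right).mul_right a2.inv_right
    · subst h3
      exact (c1 i' i k e' e (Ne.symm h4) _ _ ((mul_comm _ _).trans (uv a b))).symm
    · subst h4
      exact c1 i k k' e e' h3 _ _ (uv a b)
    · exact R.comm i k i' k' e e' h3 h4 _ _
  have com : ∀ g g', r₁ g * cjh t r₁ g' = cjh t r₁ g' * r₁ g := fun g g' =>
    mem_centralizer_singleton_iff.1 (range_le (H := centralizer {cjh t r₁ g'}) (fun i k e a =>
      mem_centralizer_singleton_iff.2 (mem_centralizer_singleton_iff.1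
        (range_le (f := cjh t r₁) (H := centralizer {r₁ (tvE i k a)}) (fun i' k' e' b =>
          mem_centralizer_singleton_iff.2 (by
            rw [h1 i k e, h2 i' k' e']; exact (c2 i k i' k' e e' a b).symm)) ⟨g', rfl⟩)).symm) ⟨g, rfl⟩)
  have dec : ∀ g, r g = r₁ g * cjh t r₁ g := hom_ext (g := MonoidHom.mk'
    (fun g => r₁ g * cjh t r₁ g) fun a b => by
      rw [map_mul, map_mul, mul_assoc, ← mul_assoc (r₁ b), com b a]; group) fun i k e a => by
    rw [MonoidHom.mk'_apply, h1 i k e, h2 i k e, R.add i k e, ← R.ext i k e]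
    exact congrArg _ (QuadraticAlgebra.ext
      (by simp only [u, v, QuadraticAlgebra.re_add, QuadraticAlgebra.algebraMap_re]
          linear_combination (-a * c) * two)
      (by simp only [u, v, QuadraticAlgebra.im_add, QuadraticAlgebra.algebraMap_im]
          linear_combination (-a) * two))
  have hL : r.range ≤ G0 r₁ t := by
    rintro _ ⟨g, rfl⟩
    rw [dec]
    exact mul_mem (mem_sup_left ⟨g, rfl⟩) (mem_sup_right ⟨g, rfl⟩)
  have hX : ∀ i k, i ≠ k → Xg r t i k ≤ G0 r₁ t := fun i k e g hg => by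
    obtain ⟨a, rfl⟩ := (R.mem i k e g).1 hg
    have : a = u (a.im + (a.re + a.im * c)) + v (a.re + a.im * c) := QuadraticAlgebra.ext
      (by simp only [u, v, QuadraticAlgebra.re_add]
          linear_combination (-(a.im * c) - (a.re + a.im * c) * c) * two)
      (by simp only [u, v, QuadraticAlgebra.im_add]
          linear_combination (-(a.re + a.im * c)) * two)
    rw [this, ← R.add i k e, ← h1 i k e, ← h2 i k e]
    exact mul_mem (mem_sup_left ⟨_, rfl⟩) (mem_sup_right ⟨_, rfl⟩)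
  refine ⟨r₁, h.toSu, h.nsq, ⟨h.three, h.hq, fun g hg => h.ker g ?_⟩, com, dec,
    fun e he => h.W_le hL hX he, fun e he => h.W_le' hL hX he, fun d hd => ?_⟩
  · rw [dec, cjh_apply, hg]; group
  · refine mem_normalizer_of_cj_le ?_
    rw [G0, cj_sup, ← range_cjh, ← range_cjh]
    refine sup_le (range_le fun i k e a => ?_) (range_le fun i k e a => ?_)
    · rw [cjh_apply, h1 i k e]
      exact h.conj_mem hL hX hd ((R.mem i k e _).2 ⟨_, rfl⟩)
    · rw [cjh_apply, h2 i k e]
      exact h.conj_mem hL hX hd ((R.mem i k e _).2 ⟨_, rfl⟩)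

theorem Hs.cases (h : Hs r t) :
    (∃ (K : Type u) (_ : Field K) (_ : Finite K) (_ : CharP K 2) (τ : K ≃+* K) (j : F →+* K)
      (ρ : SpecialLinearGroup ι K →* G), Fld r t τ j ρ) ∨ ∃ r₁, Spl r t r₁ := by
  obtain ⟨β, y, R⟩ := h.exists_rg
  by_cases hc : ∃ c : F, c ^ 2 = β + 1 * c
  · obtain ⟨c, hc⟩ := hc
    exact Or.inr (R.spl h hc)
  have : Fact (∀ c : F, c ^ 2 ≠ β + 1 * c) := ⟨not_exists.1 hc⟩
  have : Finite (QuadraticAlgebra F β 1) := Finite.of_equiv _ (QuadraticAlgebra.equivProd β 1).symm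
  obtain ⟨ρ, hρ⟩ := R.fld h
  exact Or.inl ⟨_, _, this, charP_of_injective_algebraMap QuadraticAlgebra.algebraMap_injective 2,
    _, _, ρ, hρ⟩

end Cfsg.Agent.StdL
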