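import Mathlib
import Cfsg.Agent.KSG.StSL2

/-! Steinberg relations over an additive group `E` of order `q²` containing `F`: `E` is a quadratic
algebra over `F`. -/

set_option autoImplicit false
set_option linter.unusedSectionVars false

namespace Cfsg.Agent.StdL

open Cfsg.Agent.KSG

variable {F E : Type*} [Field F] [CharP F 2] [Finite F] [AddCommGroup E]

theorem exists_sq (a : F) : ∃ b : F, b * b = a := by
  obtain ⟨b, hb⟩ := surjective_frobenius F 2 a
  exact ⟨b, by rw [← hb, frobenius_def, sq]⟩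

/-- the algebraic data -/
structure Pre (j : F → E) (θ : E → F) (m : E → E → E) : Prop where
  two : ∀ a : E, a + a = 0
  jadd : ∀ c d, j (c + d) = j c + j d
  inj : ∀ c d, j c = j d → c = d
  θadd : ∀ a b, θ (a + b) = θ a + θ b
  θj : ∀ c, θ (j c) = 0
  ker : ∀ a, θ a = 0 → ∃ c, j c = a
  sur : ∃ a, θ a = 1
  addl : ∀ a a' b, m (a + a') b = m a b + m a' b
  addr : ∀ a b b', m a (b + b') = m a b + m a b'
  jj : ∀ c d, m (j c) (j d) = j (c * d)
  R1 : ∀ a, m a (j 1) = a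
  L1 : ∀ a, m (j 1) a = a
  Rm : ∀ a c d, m (m a (j c)) (j d) = m a (j (c * d))
  Lm : ∀ a c d, m (j c) (m (j d) a) = m (j (c * d)) a
  LR : ∀ a c d, m (j c) (m a (j d)) = m (m (j c) a) (j d)
  tor : ∀ a b c, m (m (j c) a) (m b (j c)) = m (j c) (m (m a b) (j c))
  tau : ∀ a b, m (a + j (θ a)) (b + j (θ b)) = m a b + j (θ (m a b))

namespace Pre

variable {j : F → E} {θ : E → F} {m : E → E → E} (h : Pre j θ m)
include h

theorem j0 : j 0 = 0 := by simpa using h.jadd 0 0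

theorem θL (c : F) (a : E) : θ (m (j c) a) = c * θ a := by
  have := h.tau (j c) a
  rw [h.θj, h.j0, add_zero, h.addr, h.jj] at this
  exact (h.inj _ _ (add_left_cancel this)).symm

theorem θR (c : F) (a : E) : θ (m a (j c)) = c * θ a := by
  have := h.tau a (j c)
  rw [h.θj, h.j0, add_zero, h.addl, h.jj, mul_comm] at this
  exact (h.inj _ _ (add_left_cancel this)).symm

theorem eq_of {a b : E} (e : a + b = 0) : a = b :=
  add_right_cancel (e.trans (h.two b).symm)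

theorem LeqR (c : F) (a : E) : m (j c) a = m a (j c) := by
  obtain ⟨c, rfl⟩ := exists_sq c
  obtain ⟨d, hd⟩ := h.ker (m (j c) a + m a (j c))
    (by rw [h.θadd, h.θL, h.θR, CharTwo.add_self_eq_zero])
  have e : m (j c) a = m a (j c) + j d := by
    rw [hd, add_comm (m (j c) a), ← add_assoc, h.two, zero_add]
  rw [← h.Lm, ← h.Rm, e, h.addr, h.LR, e, h.addl, h.jj, h.jj, mul_comm d, add_assoc, h.two, add_zero]

theorem bil (c : F) (a b : E) : m (m (j c) a) b = m a (m (j c) b) := by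
  have e := h.tor a b (c + 1)
  simp only [h.jadd, h.addl, h.addr, h.R1, h.L1, ← h.LeqR] at e
  have e2 := h.tor a b c
  rw [← h.LeqR, ← h.LeqR] at e2
  rw [e2, add_assoc, add_assoc, add_right_inj, ← add_assoc, ← add_assoc, h.two, add_left_inj] at e
  exact h.eq_of e

theorem bil' (c : F) (a b : E) : m (m (j c) a) b = m (j c) (m a b) := by
  obtain ⟨c, rfl⟩ := exists_sq c
  rw [← h.Lm, h.bil, h.LeqR c b, h.tor, ← h.LeqR, h.Lm]

theorem exists_quad : ∃ (β : F) (φ : QuadraticAlgebra F β 1 → E), Function.Surjective φ ∧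
    (∀ a b, φ (a + b) = φ a + φ b) ∧ (∀ a b, φ (a * b) = m (φ a) (φ b)) ∧
    (∀ c, φ (algebraMap F _ c) = j c) ∧ ∀ a, φ (star a) = φ a + j (θ (φ a)) := by
  obtain ⟨e, he⟩ := h.sur
  have dec : ∀ a, ∃ u, a = j u + m (j (θ a)) e := fun a => by
    obtain ⟨u, hu⟩ := h.ker (a + m (j (θ a)) e)
      (by rw [h.θadd, h.θL, he, mul_one, CharTwo.add_self_eq_zero])
    exact ⟨u, by rw [hu, add_assoc, h.two, add_zero]⟩
  have h1 : θ (m e e) = 1 := by
    have := h.tau e e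
    rw [he, h.addl, h.addr, h.addr, h.R1, h.L1, h.L1, add_assoc, add_right_inj, ← add_assoc, h.two,
      zero_add] at this
    exact (h.inj _ _ this).symm
  obtain ⟨β, hβ⟩ := dec (m e e)
  rw [h1, h.L1] at hβ
  have m0 : m (j 0) e = 0 := by simpa [← h.jadd] using (h.addl (j 0) (j 0) e).symm
  refine ⟨β, fun a => j a.re + m (j a.im) e, fun a => ?_, fun a b => ?_, fun a b => ?_,
    fun c => ?_, fun a => ?_⟩
  · obtain ⟨u, hu⟩ := dec a
    exact ⟨⟨u, θ a⟩, hu.symm⟩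
  · simp only [QuadraticAlgebra.re_add, QuadraticAlgebra.im_add, h.jadd, h.addl]
    abel
  · simp only [QuadraticAlgebra.re_mul, QuadraticAlgebra.im_mul, h.jadd, h.addl, h.addr, h.jj, h.Lm,
      h.bil', ← h.LeqR _ e, ← h.bil, hβ, one_mul]
    rw [mul_comm a.im b.re, show a.im * (b.im * β) = β * a.im * b.im by ring]
    abel
  · simp only [QuadraticAlgebra.algebraMap_eq, m0, add_zero]
  · simp only [QuadraticAlgebra.re_star, QuadraticAlgebra.im_star, h.jadd, h.θadd, h.θj, h.θL, he,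
      CharTwo.neg_eq, one_mul, mul_one, zero_add]
    abel

end Pre

variable {ι Γ : Type*} [Fintype ι] [DecidableEq ι] [Group Γ]

/-- the relations -/
structure Rel (x : ι → ι → E → Γ) (j : F → E) (m : E → E → E) : Prop where
  two : ∀ a : E, a + a = 0
  jadd : ∀ c d, j (c + d) = j c + j d
  jj : ∀ c d, m (j c) (j d) = j (c * d)
  add : ∀ i k, i ≠ k → ∀ a b, x i k a * x i k b = x i k (a + b)
  comm : ∀ i k i' k', i ≠ k → i' ≠ k' → i ≠ k' → k ≠ i' → ∀ a b, Commute (x i k a) (x i' k' b)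
  cmt : ∀ i k l, i ≠ k → k ≠ l → i ≠ l → ∀ a b,
    x i k a * x k l b * (x i k a)⁻¹ * (x k l b)⁻¹ = x i l (m a b)
  inj : ∀ i k, i ≠ k → ∀ a b, x i k a = x i k b → a = b
  disR : ∀ i k l, i ≠ k → k ≠ l → i ≠ l → ∀ a b, x i k a = x i l b → a = 0
  disC : ∀ i k l, i ≠ k → k ≠ l → i ≠ l → ∀ a b, x k i a = x l i b → a = 0
  monR : ∀ i k l, i ≠ k → k ≠ l → i ≠ l → ∀ c : F, c ≠ 0 → ∀ a, ∃ b, (c = 1 → b = a) ∧
    wE (fun i k c => x i k (j c)) k l c * x i k a * (wE (fun i k c => x i k (j c)) k l c)⁻¹ = x i l b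
  monC : ∀ i k l, i ≠ k → k ≠ l → i ≠ l → ∀ c : F, c ≠ 0 → ∀ a, ∃ b, (c = 1 → b = a) ∧
    wE (fun i k c => x i k (j c)) l k c * x k i a * (wE (fun i k c => x i k (j c)) l k c)⁻¹ = x l i b

namespace Rel

variable {x : ι → ι → E → Γ} {j : F → E} {m : E → E → E} (h : Rel x j m)
include h

theorem zero {i k : ι} (e : i ≠ k) : x i k 0 = 1 := by simpa using h.add i k e 0 0

theorem inv {i k : ι} (e : i ≠ k) (a : E) : (x i k a)⁻¹ = x i k a := by
  rw [inv_eq_iff_mul_eq_one, h.add i k e, h.two, h.zero e]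

theorem st : StSL fun i k (c : F) => x i k (j c) where
  add i k e a b := by rw [h.add i k e, h.jadd]
  comm i k i' k' h1 h2 h3 h4 a b := h.comm i k i' k' h1 h2 h3 h4 _ _
  cmt i k l h1 h2 h3 a b := by rw [h.cmt i k l h1 h2 h3, h.jj]

theorem dual : Rel (fun i k => x k i) j fun a b => m b a where
  two := h.two
  jadd := h.jadd
  jj c d := by rw [h.jj, mul_comm]
  add i k e := h.add k i e.symm
  comm i k i' k' h1 h2 h3 h4 := h.comm k i k' i' h1.symm h2.symm h4 h3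
  cmt i k l h1 h2 h3 a b := by
    rw [← h.inv h3.symm, ← h.cmt l k i h2.symm h1.symm h3.symm]; group
  inj i k e := h.inj k i e.symm
  disR := h.disC
  disC := h.disR
  monR := h.monC
  monC := h.monR

section
variable {i k l : ι} (h1 : i ≠ k) (h2 : k ≠ l) (h3 : i ≠ l)
include h1 h2 h3

theorem conj (c a b : E) :
    x k l c * (x i k a * x i l b) * (x k l c)⁻¹ = x i k a * x i l (b + m a c) := by
  have e := h.cmt i k l h1 h2 h3 a c
  rw [h.inv h1] at e
  rw [← conj_mul, (h.comm k l i l h2 h3 h2 h3.symm c b).eq, mul_inv_cancel_right, add_comm,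
    ← h.add _ _ h3, ← e, ← mul_assoc, ← mul_assoc, ← mul_assoc, ← mul_assoc, h.add _ _ h1, h.two,
    h.zero h1, one_mul]

theorem swap (a b : E) : x i k a * x i l b = x i l b * x i k a :=
  h.comm i k i l h1 h3 h3 h1.symm a b

theorem addl (a a' b : E) : m (a + a') b = m a b + m a' b := by
  have e := h.conj h1 h2 h3 b (a + a') 0
  rw [h.zero h3, mul_one, ← h.add _ _ h1, ← conj_mul, ← mul_one (x i k a), ← mul_one (x i k a'),
    ← h.zero h3, h.conj h1 h2 h3, h.conj h1 h2 h3, h.zero h3, mul_one, mul_one, mul_assoc,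
    ← mul_assoc (x i l _), ← h.swap h1 h2 h3, mul_assoc, h.add _ _ h3, mul_assoc] at e
  simpa using (h.inj _ _ h3 _ _ (mul_left_cancel (mul_left_cancel e))).symm

theorem w_conj (c : F) (a b : E) :
    wE (fun i k c => x i k (j c)) k l c * (x i k a * x i l b) *
      (wE (fun i k c => x i k (j c)) k l c)⁻¹ = x i k (a + m (b + m a (j c)) (j c⁻¹)) *
        x i l (b + m a (j c) + m (a + m (b + m a (j c)) (j c⁻¹)) (j c)) := by
  calc _ = x k l (j c) * (x l k (j c⁻¹) * (x k l (j c) * (x i k a * x i l b) * (x k l (j c))⁻¹) *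
        (x l k (j c⁻¹))⁻¹) * (x k l (j c))⁻¹ := by rw [wE, CharTwo.neg_eq]; group
    _ = _ := by
      rw [h.conj h1 h2 h3, h.swap h1 h2 h3, h.conj h3 h2.symm h1, ← h.swap h1 h2 h3, h.conj h1 h2 h3]

theorem m0 (b : E) : m 0 b = 0 := by simpa using h.addl h1 h2 h3 0 0 b

theorem w_aux {c : F} (hc : c ≠ 0) (a : E) : m (m a (j c)) (j c⁻¹) = a ∧
    wE (fun i k c => x i k (j c)) k l c * x i k a *
      (wE (fun i k c => x i k (j c)) k l c)⁻¹ = x i l (m a (j c)) := by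
  obtain ⟨b, -, e⟩ := h.monR i k l h1 h2 h3 c hc a
  have e1 := h.w_conj h1 h2 h3 c a 0
  rw [h.zero h3, mul_one, zero_add] at e1
  have e2 := h.disR i k l h1 h2 h3 _ _ (by
    rw [e, eq_comm, ← eq_mul_inv_iff_mul_eq, h.inv h3, h.add _ _ h3] at e1
    exact e1)
  rw [e2, h.zero h1, one_mul, h.m0 h1 h2 h3, add_zero] at e1
  exact ⟨(add_right_cancel (e2.trans (h.two _).symm)).symm, e1⟩

theorem R1 (a : E) : m a (j 1) = a := by
  obtain ⟨b, e1, e⟩ := h.monR i k l h1 h2 h3 1 one_ne_zero a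
  rw [(h.w_aux h1 h2 h3 one_ne_zero a).2, e1 rfl] at e
  exact h.inj _ _ h3 _ _ e

theorem w_row {c : F} (hc : c ≠ 0) (b : E) : wE (fun i k c => x i k (j c)) k l c * x i l b *
    (wE (fun i k c => x i k (j c)) k l c)⁻¹ = x i k (m b (j c⁻¹)) := by
  have e1 := h.w_conj h1 h2 h3 c 0 b
  have e2 := (h.w_aux h1 h2 h3 (inv_ne_zero hc) b).1
  rw [inv_inv] at e2
  rwa [h.zero h1, one_mul, h.m0 h1 h2 h3, add_zero, zero_add, e2, h.two, h.zero h3, mul_one] at e1

theorem h_row {c : F} (hc : c ≠ 0) (a : E) : hE (fun i k c => x i k (j c)) k l c * x i l a *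
    (hE (fun i k c => x i k (j c)) k l c)⁻¹ = x i l (m a (j c)) := by
  have e := (h.w_aux h1 h2 h3 one_ne_zero a).2
  rw [h.R1 h1 h2 h3] at e
  rw [← (h.w_aux h1 h2 h3 hc a).2, ← e, hE]
  group

theorem Rm (a : E) (c d : F) : m (m a (j c)) (j d) = m a (j (c * d)) := by
  have j0 : j 0 = 0 := by simpa using h.jadd 0 0
  have z : ∀ a, m a 0 = 0 := h.dual.m0 h1 h2 h3
  by_cases hc : c = 0
  · rw [hc, zero_mul, j0, z, h.m0 h1 h2 h3]
  by_cases hd : d = 0
  · rw [hd, mul_zero, j0, z, z]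
  have h3' : 3 ≤ Fintype.card ι := Fintype.two_lt_card_iff.2 ⟨i, k, l, h1, h3, h2⟩
  refine h.inj _ _ h3 _ _ ?_
  rw [← h.h_row h1 h2 h3 hd, ← h.h_row h1 h2 h3 hc, mul_comm c, ← h.h_row h1 h2 h3 (mul_ne_zero hd hc),
    h.st.h_mul h3' h2 hd hc]
  group

theorem h_col {c : F} (hc : c ≠ 0) (a : E) : hE (fun i k c => x i k (j c)) i k c * x i l a *
    (hE (fun i k c => x i k (j c)) i k c)⁻¹ = x i l (m (j c) a) := by
  have h3' : 3 ≤ Fintype.card ι := Fintype.two_lt_card_iff.2 ⟨i, k, l, h1, h3, h2⟩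
  have e := h.dual.h_row h2.symm h1.symm h3.symm hc a
  exact e

theorem pre {t : Γ} {θ : E → F} (inj : ∀ c d, j c = j d → c = d) (θj : ∀ c, θ (j c) = 0)
    (ker : ∀ a, θ a = 0 → ∃ c, j c = a) (sur : ∃ a, θ a = 1)
    (act : ∀ i k, i ≠ k → ∀ a, t * x i k a * t⁻¹ = x i k (a + j (θ a))) : Pre j θ m := by
  have h3' : 3 ≤ Fintype.card ι := Fintype.two_lt_card_iff.2 ⟨i, k, l, h1, h3, h2⟩
  have j0 : j 0 = 0 := by simpa using h.jadd 0 0
  have z : ∀ a, m a 0 = 0 := h.dual.m0 h1 h2 h3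
  have z' := h.m0 h1 h2 h3
  refine ⟨h.two, h.jadd, inj, fun a b => inj _ _ ?_, θj, ker, sur, h.addl h1 h2 h3,
    fun a b b' => h.dual.addl h1 h2 h3 b b' a, h.jj, h.R1 h1 h2 h3, h.dual.R1 h1 h2 h3,
    h.Rm h1 h2 h3, fun a c d => ?_, fun a c d => ?_, fun a b c => ?_, fun a b => ?_⟩
  · have := act i k h1 (a + b)
    rw [← h.add _ _ h1, ← conj_mul, act i k h1, act i k h1, h.add _ _ h1] at this
    have := h.inj _ _ h1 _ _ this
    rw [add_add_add_comm, add_right_inj] at this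
    rw [h.jadd, this]
  · rw [mul_comm]; exact h.dual.Rm h1 h2 h3 a d c
  · by_cases hc : c = 0
    · rw [hc, j0, z', z', z']
    by_cases hd : d = 0
    · rw [hd, j0, z, z, z]
    refine h.inj _ _ h3 _ _ ?_
    rw [← h.h_col h1 h2 h3 hc, ← h.h_row h1 h2 h3 hd, ← h.h_row h1 h2 h3 hd, ← h.h_col h1 h2 h3 hc,
      ← mul_assoc, ← mul_assoc, (h.st.h_comm h3' h1 h2 hc hd).eq, mul_assoc _ _⁻¹, ← mul_inv_rev,
      (h.st.h_comm h3' h1 h2 hc hd).eq]
    group
  · by_cases hc : c = 0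
    · rw [hc, j0, z', z', z']
    refine h.inj _ _ h3 _ _ ?_
    rw [← h.cmt i k l h1 h2 h3, ← h.h_col h3 h2.symm h1 hc, ← h.h_row h1.symm h3 h2 hc,
      ← h.h_col h1 h2 h3 hc, ← h.h_row h1 h2 h3 hc, ← h.cmt i k l h1 h2 h3,
      ← h.st.h_trans h3' h1 h2 h3 hc]
    group
  · refine h.inj _ _ h3 _ _ ?_
    rw [← h.cmt i k l h1 h2 h3, ← act _ _ h1, ← act _ _ h2, ← act _ _ h3, ← h.cmt i k l h1 h2 h3]
    group

end

end Rel

end Cfsg.Agent.StdL
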