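import Cfsg.Agent.StdL.Bas
import Cfsg.Agent.StdL.RingA

/-! The doubled root groups satisfy the Steinberg relations over a quadratic algebra. -/

set_option autoImplicit false
set_option linter.unusedSectionVars false

namespace Cfsg.Agent.StdL

open Matrix Subgroup Cfsg.Agent.LnT Cfsg.Agent.PLocal.Amb Cfsg.Agent.KSG Equiv

variable {F ι G : Type*} [Field F] [Fintype ι] [DecidableEq ι] [Group G] [CharP F 2]
  [Finite F] [Finite G] {r : SpecialLinearGroup ι F →* G} {t : G}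

theorem conj_Wc {V : Subgroup G} {c g : G} (hc : c * t = t * c) (hg : g ∈ Wc V t) :
    c * g * c⁻¹ ∈ Wc cj(c, V) t := by
  obtain ⟨h1, h2, h3, h4⟩ := hg
  have e : c * t * c⁻¹ = t := by rw [hc, mul_inv_cancel_right]
  refine ⟨by rw [conj_mul, h1]; group, fun v hv => ?_, ?_, fun f => h4 ?_⟩
  · obtain ⟨u, hu, rfl⟩ := mem_cj_iff_exists.1 hv
    rw [conj_mul, conj_mul, h2 u hu]
  · have := conj_mem_cj c h3
    rwa [← conj_mul, ← conj_mul, ← conj_mul, e] at this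
  · rwa [← conj_mem_cj_iff (g := c), ← conj_mul, e]

theorem Vg_smul {a : F} (ha : a ≠ 0) (e : ι → F) : Vg r (a • e) = Vg r e := by
  have : ∀ {a : F} (e : ι → F), a ≠ 0 → Vg r (a • e) ≤ Vg r e := fun {a} e ha x hx => by
    obtain ⟨φ, h, rfl⟩ := mem_Vg.1 hx
    have h' : φ ⬝ᵥ e = 0 := by simpa [ha] using h
    exact mem_Vg.2 ⟨a • φ, by simp [h'], by rw [tv_smul a h']⟩
  refine le_antisymm (this e ha) ?_
  simpa [smul_smul, ha] using this (a • e) (inv_ne_zero ha)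

theorem single_ne (i : ι) : (Pi.single i 1 : ι → F) ≠ 0 := fun e => by simpa using congrFun e i

theorem single_dot {i k : ι} (h : i ≠ k) : (Pi.single k 1 : ι → F) ⬝ᵥ Pi.single i 1 = 0 := by
  simp [h.symm]

theorem tvE_tv {i k : ι} (h : i ≠ k) (c : F) :
    tvE i k c = tv (Pi.single i 1) (c • Pi.single k 1) := by
  refine Subtype.ext ?_
  rw [tvE_coe h, tv_val (by simp [h.symm])]
  congr 1
  ext a b
  simp only [vecMulVec_apply, single_apply, Pi.single_apply, Pi.smul_apply, smul_eq_mul]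
  by_cases h1 : a = i <;> by_cases h2 : b = k <;> simp [h1, h2, eq_comm (a := i), eq_comm (a := k)]

theorem tr_mon {g : SpecialLinearGroup ι F} {σ : Perm ι} {c : ι → F} (hg : g.1 = mon σ c) :
    (tr g).1 = mon σ fun k => (c k)⁻¹ := by
  ext a b
  change (g⁻¹).1 b a = _
  rw [inv_mon hg, mon_apply, mon_apply]
  by_cases h : a = σ b
  · simp [h]
  · rw [if_neg h, if_neg fun e => h (by simp [e])]

/-- permutation matrices -/
def pm : Perm ι →* SpecialLinearGroup ι F where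
  toFun σ := ⟨mon σ 1, by
    rw [det_mon]
    rcases Int.units_eq_one_or (Perm.sign σ) with h | h <;> simp [h, CharTwo.neg_eq]⟩
  map_one' := Subtype.ext (by simp [mon_one])
  map_mul' σ τ := Subtype.ext (by
    change mon _ _ = mon _ _ * mon _ _
    rw [mon_mul_mon]; congr 1; ext; simp)

theorem pm_swap {i k : ι} (h : i ≠ k) : (pm (swap i k) : SpecialLinearGroup ι F) = wE tvE i k 1 := by
  refine Subtype.ext ?_
  rw [wE_tvE_coe h one_ne_zero]
  change mon _ _ = _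
  congr 1
  ext a
  simp [wC, CharTwo.neg_eq]

theorem exists_perm {a b c a' b' c' : ι} (h1 : a ≠ b) (h2 : b ≠ c) (h3 : a ≠ c) (h1' : a' ≠ b')
    (h2' : b' ≠ c') (h3' : a' ≠ c') : ∃ σ : Perm ι, σ a = a' ∧ σ b = b' ∧ σ c = c' := by
  have k : ∀ {a b c : ι}, a ≠ b → b ≠ c → a ≠ c → Function.Injective ![a, b, c] :=
    fun h1 h2 h3 x y => by
      fin_cases x <;> fin_cases y <;> simp [h1, h2, h3, h1.symm, h2.symm, h3.symm]
  obtain ⟨σ, hσ⟩ := Perm.exists_extending_pair _ _ (k h1 h2 h3) (k h1' h2' h3')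
  exact ⟨σ, hσ 0, hσ 1, hσ 2⟩

/-- the doubled root groups -/
def Xg (r : SpecialLinearGroup ι F →* G) (t : G) (i k : ι) : Subgroup G :=
  Wg (Vg r (Pi.single i 1)) t ⊓ Wg (Vg (du r) (Pi.single k 1)) t

theorem Xg_du (i k : ι) : Xg (du r) t i k = Xg r t k i := by rw [Xg, du_du, inf_comm, Xg]

theorem Hs.du (h : Hs r t) : Hs (du r) t := by
  refine ⟨h.toDs.du, fun e ε he hε h0 c => ?_, fun e ε he hε h0 a ha b hb => ?_⟩
  · rw [dotProduct_comm] at h0
    obtain ⟨x, hx, e1⟩ := h.cov ε e hε he h0 c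
    exact ⟨x, by rwa [du_du, inf_comm], by rw [e1, du_tv, tv_smul c h0]⟩
  · rw [du_du] at hb ⊢
    have := inv_mem (h.cmt ε e hε he (by rwa [dotProduct_comm]) b hb a ha)
    rwa [inf_comm, show (b * a * b * a)⁻¹ = a⁻¹ * b⁻¹ * a⁻¹ * b⁻¹ by group,
      inv_eq_of_mul_eq_one_right (((h.dbl' e he).mem a).1 ha).1,
      inv_eq_of_mul_eq_one_right (((h.dbl ε hε).mem b).1 hb).1] at this

namespace Ds

variable (h : Ds r t) {e : ι → F} {w : G} {i k l : ι}
include h

theorem V_le : Vg r e ≤ Wg (Vg r e) t := fun v hv => by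
  have c : t * v = v * t := by
    obtain ⟨g, -, rfl⟩ := hv
    exact h.tc g
  refine subset_closure ⟨el_Vg e v hv, fun u hu => (el_Vg e).comm hv hu, ?_, fun f => h.notMem ?_⟩
  · rw [mul_assoc v t v, c, ← mul_assoc, el_Vg e v hv, one_mul, h.tt]
    exact one_mem _
  · exact map_le_range _ _ ((Subgroup.mul_mem_cancel_left _ hv).1 f)

theorem kerW (he : e ≠ 0) (hw : w ∈ Wg (Vg r e) t) (h1 : w * t * w * t = 1) : w ∈ Vg r e := by
  obtain ⟨a1, a2, -, a4⟩ := ((h.dbl e he).mem w).1 hw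
  refine (h.cent_V_sq ?_ a1 he a2).resolve_right a4
  rw [mul_assoc] at h1
  rw [eq_inv_of_mul_eq_one_left h1, _root_.mul_inv_rev, inv_eq_of_mul_eq_one_right a1,
    inv_eq_of_mul_eq_one_right h.tt]

theorem sq (he : e ≠ 0) (hw : w ∈ Wg (Vg r e) t) : w * w = 1 := (((h.dbl e he).mem w).1 hw).1

theorem th (he : e ≠ 0) (hw : w ∈ Wg (Vg r e) t) : w * t * w * t ∈ Vg r e :=
  (((h.dbl e he).mem w).1 hw).2.2.1

theorem V_inf (hik : i ≠ k) (h1 : w ∈ Vg r (Pi.single i 1)) (h2 : w ∈ Vg r (Pi.single k 1)) :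
    w = 1 := by
  obtain ⟨φ, a1, rfl⟩ := mem_Vg.1 h1
  obtain ⟨ψ, a2, e⟩ := mem_Vg.1 h2
  have := (tv_eq_iff a2 a1).1 (h.toRp.eq_of_sq (tv_sq _ _) (tv_sq _ _) e)
  rw [show φ = 0 from dext fun x => by simpa [hik] using (congrFun (this x) i).symm, tv_zero, map_one]

theorem V_inf' (hik : i ≠ k) (h1 : w ∈ Vg r (Pi.single i 1))
    (h2 : w ∈ Vg (StdL.du r) (Pi.single k 1)) : ∃ c, r (tvE i k c) = w := by
  obtain ⟨φ, a1, rfl⟩ := mem_Vg.1 h1
  obtain ⟨u, a2, e⟩ := mem_Vg'.1 h2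
  have := (tv_eq_iff a2 a1).1 (h.toRp.eq_of_sq (tv_sq _ _) (tv_sq _ _) e) (Pi.single k 1)
  rw [single_dotProduct, Pi.single_eq_same, mul_one, one_smul] at this
  exact ⟨_, by rw [tvE_tv hik, ← e, this, tv_smul _ (single_dot hik)]⟩

theorem W_inf (hik : i ≠ k) (h1 : w ∈ Wg (Vg r (Pi.single i 1)) t)
    (h2 : w ∈ Wg (Vg r (Pi.single k 1)) t) : w = 1 :=
  have := h.V_inf hik (h.th (single_ne i) h1) (h.th (single_ne k) h2)
  h.V_inf hik (h.kerW (single_ne i) h1 this) (h.kerW (single_ne k) h2 this)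

theorem conj_W (he : e ≠ 0) (hw : w ∈ Wg (Vg r e) t) (g : SpecialLinearGroup ι F) :
    r g * w * (r g)⁻¹ ∈ Wg (Vg r (g.1 *ᵥ e)) t :=
  subset_closure (cj_Vg (r := r) g e ▸ conj_Wc (h.tc g).symm (((h.dbl e he).mem w).1 hw))

theorem conj_mon {g : SpecialLinearGroup ι F} {σ : Perm ι} {c : ι → F} (hg : g.1 = mon σ c)
    (hw : w ∈ Wg (Vg r (Pi.single i 1)) t) :
    r g * w * (r g)⁻¹ ∈ Wg (Vg r (Pi.single (σ i) 1)) t := by
  have := h.conj_W (single_ne i) hw g
  rwa [hg, mon_mulVec_single, ← smul_eq_mul, Pi.single_smul, Vg_smul (ne_zero_of_mon hg i)] at this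

theorem conj_X {g : SpecialLinearGroup ι F} {σ : Perm ι} {c : ι → F} (hg : g.1 = mon σ c)
    (hw : w ∈ Xg r t i k) : r g * w * (r g)⁻¹ ∈ Xg r t (σ i) (σ k) :=
  mem_inf.2 ⟨h.conj_mon hg hw.1, by
    simpa only [du_apply, tr_tr] using h.du.conj_mon (tr_mon hg) hw.2⟩

theorem z_mem (hik : i ≠ k) (c : F) : r (tvE i k c) ∈ Xg r t i k := by
  rw [tvE_tv hik]
  exact ⟨h.V_le (mem_Vg.2 ⟨_, by simp [hik.symm], rfl⟩), h.du.V_le
    (mem_Vg'.2 ⟨c • Pi.single i 1, by simp [hik.symm], by rw [tv_smul _ (single_dot hik)]⟩)⟩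

theorem z_inj (hik : i ≠ k) {c d : F} (e : r (tvE i k c) = r (tvE i k d)) : c = d := by
  rw [tvE_tv hik, tvE_tv hik] at e
  simpa using congrFun (tv_inj (single_ne i) (by simp [hik.symm]) (by simp [hik.symm])
    (h.toRp.eq_of_sq (tv_sq _ _) (tv_sq _ _) e)) k

end Ds

namespace Hs

variable (h : Hs r t) {i k l i' k' : ι} {a b : G}
include h

theorem cmtX (hil : i ≠ l) (ha : a ∈ Xg r t i k) (hb : b ∈ Xg r t i' l) :
    a * b * a * b ∈ Xg r t i l :=
  h.cmt _ _ (single_ne i) (single_ne l) (single_dot hil) a ha.1 b hb.2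

theorem commX (h1 : i ≠ k') (h2 : k ≠ i') (ha : a ∈ Xg r t i k) (hb : b ∈ Xg r t i' k') :
    Commute a b := by
  by_cases e : i = i'
  · exact (h.dbl _ (single_ne i)).com a ha.1 b (e ▸ hb.1)
  have a2 := inv_eq_of_mul_eq_one_right (h.sq (single_ne i) ha.1)
  have b2 := inv_eq_of_mul_eq_one_right (h.sq (single_ne i') hb.1)
  have := h.W_inf e (h.cmtX h1 ha hb).1 (by
    simpa only [_root_.mul_inv_rev, a2, b2, mul_assoc] using
      inv_mem (mem_inf.1 (h.cmtX h2.symm hb ha)).1)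
  rw [mul_assoc] at this
  exact (eq_inv_of_mul_eq_one_left this).trans (by rw [_root_.mul_inv_rev, a2, b2])

theorem pm_comm {σ : Perm ι} (h1 : σ i = i) (h2 : σ k = k) (ha : a ∈ Xg r t i k) :
    Commute (r (pm σ)) a := by
  induction hn : σ.support.card using Nat.strong_induction_on generalizing σ with
  | _ n ih =>
  by_cases e : σ = 1
  · simp [e]
  obtain ⟨x, hx⟩ : ∃ x, σ x ≠ x := by
    by_contra hc
    push Not at hc
    exact e (Equiv.ext hc)
  have xi : x ≠ i := fun f => hx (f ▸ h1)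
  have xk : x ≠ k := fun f => hx (f ▸ h2)
  have yi : σ x ≠ i := fun f => xi (σ.injective (f.trans h1.symm))
  have yk : σ x ≠ k := fun f => xk (σ.injective (f.trans h2.symm))
  have := ih _ (hn ▸ Perm.card_support_swap_mul hx) (σ := swap x (σ x) * σ)
    (by rw [Perm.mul_apply, h1, swap_apply_of_ne_of_ne xi.symm yi.symm])
    (by rw [Perm.mul_apply, h2, swap_apply_of_ne_of_ne xk.symm yk.symm]) rfl
  rw [← swap_mul_self_mul x (σ x) σ, map_mul, map_mul]
  refine Commute.mul_left ?_ this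
  have c1 := fun c => h.commX xk yi (h.z_mem hx.symm c) ha
  rw [pm_swap hx.symm, wE, map_mul, map_mul]
  exact ((c1 _).mul_left (h.commX yk xi (h.z_mem hx _) ha)).mul_left (c1 _)

end Hs

/-- Steinberg relations over the quadratic algebra -/
structure Rg (r : SpecialLinearGroup ι F →* G) (t : G) {β : F}
    (y : ι → ι → QuadraticAlgebra F β 1 → G) : Prop where
  add : ∀ i k, i ≠ k → ∀ a b, y i k a * y i k b = y i k (a + b)
  comm : ∀ i k i' k', i ≠ k → i' ≠ k' → i ≠ k' → k ≠ i' → ∀ a b, Commute (y i k a) (y i' k' b)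
  cmt : ∀ i k l, i ≠ k → k ≠ l → i ≠ l → ∀ a b,
    y i k a * y k l b * (y i k a)⁻¹ * (y k l b)⁻¹ = y i l (a * b)
  ext : ∀ i k, i ≠ k → ∀ c, y i k (algebraMap F _ c) = r (tvE i k c)
  act : ∀ i k, i ≠ k → ∀ a, t * y i k a * t⁻¹ = y i k (star a)
  mem : ∀ i k, i ≠ k → ∀ g, g ∈ Xg r t i k ↔ ∃ a, y i k a = g

theorem Hs.exists_rg (h : Hs r t) :
    ∃ (β : F) (y : ι → ι → QuadraticAlgebra F β 1 → G), Rg r t y := by
  obtain ⟨i₀, k₀, l₀, n1, n3, n2⟩ := Fintype.two_lt_card_iff.1 h.three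
  have hs : ∀ i l, i ≠ l → ∃ σ : Perm ι, σ i₀ = i ∧ σ l₀ = l := fun i l e => by
    obtain ⟨k, h1, h2⟩ := exists_third h.three i l
    obtain ⟨σ, a, -, b⟩ := exists_perm n1 n2 n3 h1.symm h2 e
    exact ⟨σ, a, b⟩
  choose! s s1 s2 using hs
  let _ : CommGroup (Xg r t i₀ l₀) :=
    { mul_comm := fun a b => Subtype.ext (h.commX n3 n3.symm a.2 b.2) }
  let E := Additive (Xg r t i₀ l₀)
  let x : ι → ι → E → G := fun i l a => r (pm (s i l)) * a.toMul * (r (pm (s i l)))⁻¹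
  let z : ι → ι → F → G := fun i l c => r (tvE i l c)
  let j : F → E := fun c => Additive.ofMul ⟨z i₀ l₀ c, h.z_mem n3 c⟩
  have xm : ∀ {i l}, i ≠ l → ∀ a, x i l a ∈ Xg r t i l := fun {i l} e a => by
    simpa only [s1 i l e, s2 i l e] using h.conj_X (g := pm (s i l)) rfl a.toMul.2
  have xe : ∀ (σ : Perm ι) (a : E), r (pm σ) * a.toMul * (r (pm σ))⁻¹ = x (σ i₀) (σ l₀) a :=
    fun σ a => by
      have e := σ.injective.ne n3
      have := (h.pm_comm (σ := (s (σ i₀) (σ l₀))⁻¹ * σ)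
        (by rw [Perm.mul_apply, Perm.inv_eq_iff_eq, s1 _ _ e])
        (by rw [Perm.mul_apply, Perm.inv_eq_iff_eq, s2 _ _ e]) a.toMul.2).eq
      simp only [map_mul, map_inv] at this
      calc _ = r (pm (s (σ i₀) (σ l₀))) * ((r (pm (s (σ i₀) (σ l₀))))⁻¹ * r (pm σ) * a.toMul) *
          (r (pm σ))⁻¹ := by group
        _ = _ := by rw [this]; simp only [x]; group
  have eqv : ∀ (σ : Perm ι) {i l}, i ≠ l → ∀ a,
      r (pm σ) * x i l a * (r (pm σ))⁻¹ = x (σ i) (σ l) a := fun σ {i l} e a => by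
    have := xe (σ * s i l) a
    rw [Perm.mul_apply, Perm.mul_apply, s1 i l e, s2 i l e] at this
    rw [← this]; simp only [x, map_mul]; group
  have x0 : ∀ a : E, x i₀ l₀ a = a.toMul := fun a => by simpa using (xe 1 a).symm
  have xs : ∀ {i l}, i ≠ l → ∀ g ∈ Xg r t i l, ∃ a, x i l a = g := fun {i l} e g hg => by
    have := h.conj_X (g := pm (s i l)⁻¹) rfl hg
    rw [Perm.inv_eq_iff_eq.2 (s1 i l e).symm, Perm.inv_eq_iff_eq.2 (s2 i l e).symm] at this
    exact ⟨Additive.ofMul ⟨_, this⟩, by simp only [x, map_inv, toMul_ofMul]; group⟩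
  have xz : ∀ i l, i ≠ l → ∀ c, x i l (j c) = z i l c := fun i l e c => by
    have := (act_tvE (g := pm (s i l)) rfl).2 i₀ l₀ n3 c
    rw [s1 i l e, s2 i l e] at this
    change r _ * r _ * (r _)⁻¹ = r _
    rw [← map_inv, ← map_mul, ← map_mul, this]
    simp
  have xinj : ∀ i l (a b : E), x i l a = x i l b → a = b := fun i l a b e =>
    Additive.toMul.injective (Subtype.ext (mul_left_cancel (mul_right_cancel e)))
  have xi : ∀ {i l}, i ≠ l → ∀ a, (x i l a)⁻¹ = x i l a := fun e a =>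
    inv_eq_of_mul_eq_one_right (h.sq (single_ne _) (xm e a).1)
  have x1 : ∀ i l (a : E), x i l a = 1 → a = 0 := fun i l a e =>
    xinj i l a 0 (e.trans (by simp [x]))
  let m : E → E → E := fun a b => Additive.ofMul ⟨_, h.cmtX n3 (xm n1 a) (xm n2 b)⟩
  have cmt : ∀ i k l, i ≠ k → k ≠ l → i ≠ l → ∀ a b,
      x i k a * x k l b * (x i k a)⁻¹ * (x k l b)⁻¹ = x i l (m a b) := fun i k l h1 h2 h3 a b => by
    obtain ⟨σ, rfl, rfl, rfl⟩ := exists_perm n1 n2 n3 h1 h2 h3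
    rw [xi h1, xi h2, ← xe, ← eqv σ n1, ← eqv σ n2]
    simp only [m, toMul_ofMul]; group
  have wz : ∀ {i l}, i ≠ l → ∀ c, wE (fun i l c => x i l (j c)) i l c = r (wE tvE i l c) :=
    fun e c => (map_wE r (fun i l e c => (xz i l e c).symm) e c).symm
  have R : Rel x j m :=
    { two := fun a => Additive.toMul.injective (Subtype.ext (h.sq (single_ne _) a.toMul.2.1))
      jadd := fun c d => Additive.toMul.injective (Subtype.ext (by
        change r _ = r _ * r _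
        rw [← map_mul, stSL_tvE.add _ _ n3]))
      jj := fun c d => xinj i₀ l₀ _ _ (by
        rw [← cmt _ _ _ n1 n2 n3, xz _ _ n1, xz _ _ n2, xz _ _ n3]
        simp only [z, ← map_inv, ← map_mul, stSL_tvE.cmt _ _ _ n1 n2 n3])
      add := fun i k _ a b => conj_mul
      comm := fun i k i' k' h1 h2 h3 h4 a b => h.commX h3 h4 (xm h1 a) (xm h2 b)
      cmt := cmt
      inj := fun i k _ => xinj i k
      disR := fun i k l h1 h2 h3 a b e =>
        x1 _ _ _ (h.toDs.du.W_inf h2 (xm h1 a).2 (e ▸ (xm h3 b).2))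
      disC := fun i k l h1 h2 h3 a b e =>
        x1 _ _ _ (h.W_inf h2 (xm h1.symm a).1 (e ▸ (xm h3.symm b).1))
      monR := fun i k l h1 h2 h3 c hc a => by
        have := h.conj_X (wE_tvE_coe h2 hc) (xm h1 a)
        rw [swap_apply_left, swap_apply_of_ne_of_ne h1 h3] at this
        obtain ⟨b, hb⟩ := xs h3 _ this
        refine ⟨b, fun e => xinj i l _ _ ?_, by rw [wz h2, hb]⟩
        rw [hb, e, ← pm_swap h2, eqv _ h1, swap_apply_left, swap_apply_of_ne_of_ne h1 h3]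
      monC := fun i k l h1 h2 h3 c hc a => by
        have := h.conj_X (wE_tvE_coe h2.symm hc) (xm h1.symm a)
        rw [swap_apply_right, swap_apply_of_ne_of_ne h3 h1] at this
        obtain ⟨b, hb⟩ := xs h3.symm _ this
        refine ⟨b, fun e => xinj l i _ _ ?_, by rw [wz h2.symm, hb]⟩
        rw [hb, e, ← pm_swap h2.symm, eqv _ h1.symm, swap_apply_right,
          swap_apply_of_ne_of_ne h3 h1] }
  have hθ : ∀ a : E, ∃ c, z i₀ l₀ c = a.toMul * t * a.toMul * t := fun a =>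
    h.V_inf' n3 (h.th (single_ne _) a.toMul.2.1) (h.toDs.du.th (single_ne _) a.toMul.2.2)
  choose θ hθ using hθ
  have z0 : z i₀ l₀ 0 = 1 := by simp only [z, stSL_tvE.zero n3, map_one]
  have ti : t⁻¹ = t := inv_eq_of_mul_eq_one_right h.tt
  have act : ∀ i k, i ≠ k → ∀ a, t * x i k a * t⁻¹ = x i k (a + j (θ a)) := fun i k _ a => by
    have e : t * a.toMul * t⁻¹ = (a + j (θ a)).toMul := by
      change _ = (a.toMul : G) * z i₀ l₀ (θ a)
      simp only [hθ, ti, ← mul_assoc, h.sq (single_ne _) a.toMul.2.1, one_mul]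
    simp only [x]
    rw [← e, ← mul_assoc, ← mul_assoc, h.tc, mul_assoc _ _ t⁻¹, ← _root_.mul_inv_rev, h.tc]
    group
  obtain ⟨β, φ, p1, p2, p3, p4, p5⟩ := (R.pre n1 n2 n3 (t := t) (θ := θ)
    (fun c d e => h.z_inj n3 (congrArg (fun a : E => (a.toMul : G)) e))
    (fun c => h.z_inj n3 ((hθ (j c)).trans (by
      change r _ * t * r _ * t = z i₀ l₀ 0
      rw [z0, ← h.tc, mul_assoc t, h.sq (single_ne _) (h.z_mem n3 c).1, mul_one, h.tt])))
    (fun a e => by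
      have := hθ a
      rw [e, z0] at this
      obtain ⟨c, hc⟩ := h.V_inf' n3 (h.kerW (single_ne _) a.toMul.2.1 this.symm)
        (h.toDs.du.kerW (single_ne _) a.toMul.2.2 this.symm)
      exact ⟨c, Additive.toMul.injective (Subtype.ext hc)⟩)
    (by
      obtain ⟨w, hw, e⟩ := h.cov _ _ (single_ne i₀) (single_ne l₀) (single_dot n3) 1
      exact ⟨Additive.ofMul ⟨w, hw⟩, h.z_inj n3 ((hθ _).trans (e.trans (by rw [tvE_tv n3])))⟩)
    act).exists_quad
  exact ⟨β, fun i k a => x i k (φ a), fun i k e a b => by rw [p2, R.add i k e],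
    fun i k i' k' h1 h2 h3 h4 a b => R.comm i k i' k' h1 h2 h3 h4 _ _,
    fun i k l h1 h2 h3 a b => by rw [p3, cmt i k l h1 h2 h3],
    fun i k e c => by rw [p4, xz i k e], fun i k e a => by rw [p5, act i k e],
    fun i k e g => ⟨fun hg => by
      obtain ⟨a, rfl⟩ := xs e g hg
      obtain ⟨a, rfl⟩ := p1 a
      exact ⟨a, rfl⟩, fun ⟨a, ha⟩ => ha ▸ xm e _⟩⟩

end Cfsg.Agent.StdL
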