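import Cfsg.Agent.StdL.InA

/-! Linear algebra for `StdL/Syl`. -/

set_option autoImplicit false

namespace Cfsg.Agent.StdL.Sy

open Matrix Subgroup Cfsg.Agent.LnT Cfsg.Agent.PLocal.Amb

variable {F K ι G : Type*} [Field F] [Field K] [Fintype ι] [DecidableEq ι] [Group G]
  {r : SpecialLinearGroup ι F →* G}

theorem map_tv (f : F →+* K) {u φ : ι → F} (h : φ ⬝ᵥ u = 0) :
    SpecialLinearGroup.map f (tv u φ) = tv (f ∘ u) (f ∘ φ) := by
  have h' : (f ∘ φ) ⬝ᵥ (f ∘ u) = 0 := by rw [← RingHom.map_dotProduct, h, map_zero]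
  refine Subtype.ext ?_
  rw [SpecialLinearGroup.map_apply_coe, tv_val h, tv_val h', map_add, map_one]
  congr 1
  ext a b
  simp [vecMulVec_apply]

theorem Vg_smul {a : F} (ha : a ≠ 0) (e : ι → F) : Vg r (a • e) = Vg r e := by
  ext x
  simp only [mem_Vg]
  constructor
  · rintro ⟨φ, h, rfl⟩
    have h1 : φ ⬝ᵥ e = 0 := by simpa [ha] using h
    exact ⟨a • φ, by simp [h1], by rw [tv_smul a h1]⟩
  · rintro ⟨φ, h, rfl⟩
    exact ⟨a⁻¹ • φ, by simp [h], by rw [tv_smul a (by simp [h]), smul_inv_smul₀ ha]⟩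

theorem cj_of {r' : SpecialLinearGroup ι F →* G} {g : G} {σ : F ≃+* F} {T S : (ι → F) ≃+ (ι → F)}
    (hS : Semi σ T S) (h : ∀ u φ, φ ⬝ᵥ u = 0 → g * r (tv u φ) * g⁻¹ = r' (tv (T u) (S φ)))
    (e : ι → F) : cj(g, Vg r e) = Vg r' (T e) := by
  ext x
  simp only [mem_cj_iff_exists, mem_Vg]
  constructor
  · rintro ⟨_, ⟨φ, h1, rfl⟩, rfl⟩
    exact ⟨S φ, by rw [hS.dot, h1, map_zero], (h e φ h1).symm⟩
  · rintro ⟨φ, h1, rfl⟩
    obtain ⟨φ, rfl⟩ := S.surjective φ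
    rw [hS.dot, map_eq_zero] at h1
    exact ⟨_, ⟨φ, h1, rfl⟩, h e φ h1⟩

/-- Elements stabilising the standard frame. -/
def Dg (r : SpecialLinearGroup ι F →* G) : Subgroup G where
  carrier := {g | ∀ i : ι, (cj(g, Vg r (Pi.single i 1)) = Vg r (Pi.single i 1) ∧
    cj(g, Vg (du r) (Pi.single i 1)) = Vg (du r) (Pi.single i 1)) ∨
    (cj(g, Vg r (Pi.single i 1)) = Vg (du r) (Pi.single i 1) ∧
      cj(g, Vg (du r) (Pi.single i 1)) = Vg r (Pi.single i 1))}
  one_mem' := fun _ => .inl ⟨cj_one _, cj_one _⟩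
  mul_mem' := fun {a b} ha hb i => by
    rw [cj_mul, cj_mul]
    rcases ha i with ⟨a1, a2⟩ | ⟨a1, a2⟩ <;> rcases hb i with ⟨b1, b2⟩ | ⟨b1, b2⟩ <;>
      rw [b1, b2, a1, a2] <;> simp
  inv_mem' := fun {a} ha i => by
    have e : ∀ {A B : Subgroup G}, cj(a, A) = B → cj(a⁻¹, B) = A := fun h => h ▸ cj_inv_cj _ _
    exact (ha i).imp (fun h => ⟨e h.1, e h.2⟩) fun h => ⟨e h.2, e h.1⟩

variable [CharP F 2]

theorem TyI.du {g : G} {T S : (ι → F) ≃+ (ι → F)} (h : TyI r g T S) : TyI (du r) g S T :=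
  fun u φ e => by rw [du_tv, du_tv, h φ u (by rwa [dotProduct_comm])]

theorem mem_Dg_I {g : G} {σ : F ≃+* F} {T S : (ι → F) ≃+ (ι → F)} (hS : Semi σ T S)
    (h : TyI r g T S) (h1 : ∀ i, T (Pi.single i 1) = Pi.single i 1)
    (h2 : ∀ i, S (Pi.single i 1) = Pi.single i 1) : g ∈ Dg r := fun i =>
  .inl ⟨by rw [cj_of hS h, h1], by rw [cj_of (A.symm hS) (TyI.du h), h2]⟩

theorem exists_Dg {g : G} {σ : F ≃+* F} {T S : (ι → F) ≃+ (ι → F)} (hS : Semi σ T S)
    (h : TyII r g T S) (i₀ : ι) : ∃ l, r l * g ∈ Dg r := by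
  let D : Matrix ι ι F := Matrix.of fun i => T (Pi.single i 1)
  have h1 : ∀ j, D *ᵥ S (Pi.single j 1) = Pi.single j 1 := fun j => funext fun i => by
    change T (Pi.single i 1) ⬝ᵥ _ = _
    rw [dotProduct_comm, hS.dot]
    by_cases c : i = j <;> simp [c]
  have h2 : D.det ≠ 0 := by
    refine (Matrix.isUnit_det_of_right_inverse
      (B := (Matrix.of fun j => S (Pi.single j 1))ᵀ) ?_).ne_zero
    ext i j
    exact (congrFun (h1 j) i).trans (by simp [one_apply, Pi.single_apply])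
  let d : ι → F := Function.update 1 i₀ D.det⁻¹
  have h3 : ∀ i, d i ≠ 0 := fun i => by
    by_cases c : i = i₀ <;> simp [d, c, h2]
  let l : SpecialLinearGroup ι F := ⟨diagonal d * D, by
    rw [det_mul, det_diagonal, Finset.prod_update_of_mem (Finset.mem_univ _)]; simp [h2]⟩
  refine ⟨l, fun i => .inr ⟨?_, ?_⟩⟩
  · rw [cj_mul, cj_of (r' := du r) hS (fun u φ e => by rw [du_tv, h u φ e]),
      show r l = du r (tr l) by rw [du_apply, tr_tr], cj_Vg, tr_mulVec, ← Vg_smul (h3 i),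
      ← smul_vecMul, vecMul_inv_of (x := Pi.single i 1)]
    funext j
    simp [l, D, diagonal_mul]
  · rw [cj_mul, cj_of (r := du r) (r' := r) (A.symm hS) (fun u φ e => by
      rw [du_tv, h φ u (by rwa [dotProduct_comm])]), cj_Vg, ← Vg_smul (h3 i) (Pi.single i 1)]
    congr 1
    change (diagonal d * D) *ᵥ _ = _
    rw [← mulVec_mulVec, h1]
    funext j
    by_cases c : j = i <;> simp [mulVec_diagonal, c]

theorem smul_of_mem (h : Rp r) [Finite F] {u ψ e : ι → F} (h1 : ψ ⬝ᵥ u = 0) (h2 : ψ ≠ 0)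
    (h3 : r (tv u ψ) ∈ Vg r e) : ∃ a : F, u = a • e := by
  obtain ⟨χ, h4, h5⟩ := mem_Vg.1 h3
  obtain ⟨x, hx⟩ := exists_dot0 h2
  have := (tv_eq_iff h4 h1).1 (h.eq_of_sq (tv_sq _ _) (tv_sq _ _) h5) x
  rw [dotProduct_comm ψ, hx, one_smul] at this
  exact ⟨_, this.symm⟩

theorem eq_one_of_Dg (h : Rp r) [Finite F] {y : SpecialLinearGroup ι F} {k : ℕ}
    (hy : y ^ 2 ^ k = 1) (hD : r y ∈ Dg r) : y = 1 := by
  refine Subtype.ext (Matrix.ext_of_mulVec_single fun i => ?_)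
  have h0 : (Pi.single i 1 : ι → F) ≠ 0 := Pi.single_ne_zero_iff.2 one_ne_zero
  have h1 : y.1 *ᵥ Pi.single i 1 ≠ 0 := fun c => h0 (by rw [← inv_mulVec_of c, mulVec_zero])
  have h2 := hD i
  generalize (Pi.single i 1 : ι → F) = e at h0 h1 h2
  rw [cj_Vg] at h2
  obtain ⟨φ, φ1, φ2⟩ := exists_11 h.three (y.1 *ᵥ e) 0
  obtain ⟨ψ, ψ1, ψ2⟩ := exists_11 h.three (y.1 *ᵥ e) φ
  replace φ2 : φ ≠ 0 := by simpa using φ2
  rcases h2 with h2 | h2
  · rw [dotProduct_comm] at φ1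
    obtain ⟨a, ha⟩ := smul_of_mem h φ1 φ2 (h2.1 ▸ mem_Vg.2 ⟨φ, φ1, rfl⟩)
    rw [ha, fix_of_pow ha h0 hy]; simp
  · have h3 : ∀ χ, y.1 *ᵥ e ⬝ᵥ χ = 0 → ∃ a : F, χ = a • e := fun χ c => smul_of_mem h.du c h1
      (h2.1 ▸ mem_Vg.2 ⟨χ, by rwa [dotProduct_comm], (du_tv r _ _).symm⟩)
    obtain ⟨a, rfl⟩ := h3 φ φ1
    obtain ⟨b, rfl⟩ := h3 ψ ψ1
    exact absurd (by rw [smul_smul, div_mul_cancel₀ _ (left_ne_zero_of_smul φ2)]) (ψ2 (b / a))

/-- Every involution is conjugate to a matrix over the prime field. -/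
theorem exists_real [Finite F] {y : SpecialLinearGroup ι F} (hy : y * y = 1) :
    ∃ x, IsConj x y ∧ ∀ f : F →+* F, SpecialLinearGroup.map f x = x := by
  have h1 : dl y * dl y = 0 := mext fun x => by rw [← mulVec_mulVec, dl_dl hy, zero_mulVec]
  have h2 := rank_add_rank_le_card_of_mul_eq_zero h1
  obtain ⟨f⟩ := Function.Embedding.nonempty_of_card_le (α := Fin (rk y) ⊕ Fin (rk y)) (β := ι)
    (by rw [Fintype.card_sum, Fintype.card_fin]; exact h2)
  have e : ∀ a b : Fin (rk y) → ι, (1 : Matrix ι ι F).submatrix a id * (1 : Matrix ι ι F).submatrix id b =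
      (1 : Matrix ι ι F).submatrix a b := fun a b => by
    simpa using submatrix_mul_equiv (1 : Matrix ι ι F) 1 a (Equiv.refl ι) b
  let A := (1 : Matrix ι ι F).submatrix id (f ∘ Sum.inl)
  let B := (1 : Matrix ι ι F).submatrix (f ∘ Sum.inr) id
  have h3 : B * A = 0 := by
    rw [e]; ext a b; simp [one_apply]
  let x : SpecialLinearGroup ι F := ⟨1 + A * B, by rw [det_one_add_mul_comm, h3]; simp⟩
  have h4 : dl x = A * B := add_sub_cancel_left _ _
  refine ⟨x, isConj_of_rk (Subtype.ext ?_) hy (le_antisymm ?_ ?_), fun g => Subtype.ext ?_⟩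
  · change (1 + A * B) * (1 + A * B) = 1
    rw [mul_add, mul_one, add_mul, one_mul, Matrix.mul_assoc, ← Matrix.mul_assoc B, h3,
      Matrix.zero_mul, Matrix.mul_zero, add_zero, add_assoc]
    ext a b
    simp [CharTwo.add_self_eq_zero]
  · rw [rk, h4]
    simpa using (rank_mul_le_left A B).trans (rank_le_card_width A)
  · have h5 : (1 : Matrix ι ι F).submatrix (f ∘ Sum.inl) id * (A * B) *
        (1 : Matrix ι ι F).submatrix id (f ∘ Sum.inr) = 1 := by
      rw [← Matrix.mul_assoc, e, Matrix.mul_assoc, e,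
        submatrix_one _ (f.injective.comp Sum.inl_injective),
        submatrix_one _ (f.injective.comp Sum.inr_injective), mul_one]
    have h6 := congrArg Matrix.rank h5
    rw [rank_one, Fintype.card_fin] at h6
    rw [← h4] at h6
    exact h6.ge.trans ((rank_mul_le_left _ _).trans (rank_mul_le_right _ _))
  · rw [SpecialLinearGroup.map_apply_coe]
    change g.mapMatrix (1 + A * B) = 1 + A * B
    rw [map_add, map_one, RingHom.mapMatrix_apply, Matrix.map_mul, ← submatrix_map, ← submatrix_map,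
      Matrix.map_one _ (map_zero g) (map_one g)]

end Cfsg.Agent.StdL.Sy
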