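import Cfsg.Agent.StdL.Bas
import Cfsg.Agent.Misc.Zsigmondy
import Cfsg.Agent.Class.U.Simple
import Cfsg.Agent.Class.FormBasis

/-! The unitary case is impossible; a conjugate of `t` acting as a field involution comes from the
normalizer. -/

set_option autoImplicit false
set_option linter.unusedSectionVars false

namespace Cfsg.Agent.StdL

open Matrix Subgroup Cfsg.Agent.LnT Cfsg.Agent.PLocal.Amb
open scoped commutatorElement

namespace UB

variable {F K ι κ : Type*} [Field F] [Field K] [Fintype ι] [DecidableEq ι] [Fintype κ] [DecidableEq κ]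

/-- change of basis -/
noncomputable def cjE (D : (κ → K) ≃ₗ[K] (ι → K)) :
    SpecialLinearGroup κ K →* SpecialLinearGroup ι K where
  toFun x := ⟨LinearMap.toMatrix' (D.toLinearMap ∘ₗ toLin' x.1 ∘ₗ D.symm.toLinearMap), by
    rw [LinearMap.det_toMatrix', LinearMap.det_conj, LinearMap.det_toLin', x.2]⟩
  map_one' := slext fun u => by simp [LinearMap.toMatrix'_mulVec]
  map_mul' x y := slext fun u => Eq.trans (by
    simp [LinearMap.toMatrix'_mulVec, ← mulVec_mulVec]) (mul_mulVec' _ _ _).symm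

theorem cjE_mulVec (D : (κ → K) ≃ₗ[K] (ι → K)) (x : SpecialLinearGroup κ K) (u : ι → K) :
    (cjE D x).1 *ᵥ u = D (x.1 *ᵥ D.symm u) := LinearMap.toMatrix'_mulVec _ _

theorem cjE_surj (D : (κ → K) ≃ₗ[K] (ι → K)) : Function.Surjective (cjE D) := fun y =>
  ⟨cjE D.symm y, slext fun u => by simp [cjE_mulVec]⟩

theorem cjE_cen (D : (κ → K) ≃ₗ[K] (ι → K)) {x : SpecialLinearGroup κ K} (h : cjE D x ∈ center _) :
    ∃ a : K, (∀ u, (cjE D x).1 *ᵥ u = a • u) ∧ ∀ v, x.1 *ᵥ v = a • v := by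
  obtain ⟨a, ha⟩ := mem_center_iff'.1 h
  exact ⟨a, ha, fun v => D.injective (by simpa [cjE_mulVec] using ha (D v))⟩

theorem inv_eq [Finite K] {σ τ : K ≃+* K} (h1 : ∀ a, σ (σ a) = a) (h2 : σ ≠ .refl K)
    (h3 : ∀ a, τ (τ a) = a) (h4 : τ ≠ .refl K) : σ = τ :=
  haveI := KSG.isCyclic_ringAut K
  KSG.eq_of_orderOf_two (G := RingAut K) (orderOf_eq_prime (RingEquiv.ext h1) h2)
    (orderOf_eq_prime (RingEquiv.ext h3) h4)

theorem not_dvd [Finite F] {n p : ℕ} (h : Misc.Zsig.IsPPD (Nat.card F) n p) (hn : Fintype.card ι < n)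
    [Nonempty ι] : ¬ p ∣ Nat.card (SpecialLinearGroup ι F) := fun hd => by
  have := Fintype.ofFinite F
  have := Fintype.card_pos (α := ι)
  have : NeZero (Fintype.card ι) := ⟨by omega⟩
  have h1 := (hd.trans (card_dvd_of_surjective _ (cjE_surj
    (LinearEquiv.funCongrLeft F F (Fintype.equivFin ι))))).trans
    (Dvd.intro_left _ Class.card_units_mul_card_SL)
  rw [card_GL_field, ← Nat.card_eq_fintype_card (α := F)] at h1
  obtain ⟨⟨i, hi'⟩, -, hi⟩ := (h.1.prime.dvd_finsetProd_iff _).1 h1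
  dsimp only at hi
  rw [← Nat.sub_add_cancel hi'.le, pow_add, ← Nat.sub_one_mul] at hi
  rcases h.1.dvd_mul.1 hi with e | e
  · exact h.2.2 _ (by omega) (by omega) e
  · have := (Nat.dvd_sub_iff_right (Nat.one_le_pow _ _ Nat.card_pos)
      (dvd_pow (h.1.dvd_of_dvd_pow e) (n := n) (by omega))).1 h.2.1
    exact h.1.one_lt.ne' (Nat.dvd_one.1 this)

theorem map_tv (j : F →+* K) {u φ : ι → F} (h : φ ⬝ᵥ u = 0) :
    (j ∘ φ) ⬝ᵥ (j ∘ u) = 0 ∧ SpecialLinearGroup.map j (tv u φ) = tv (j ∘ u) (j ∘ φ) := by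
  have e : (j ∘ φ) ⬝ᵥ (j ∘ u) = 0 := by rw [← RingHom.map_dotProduct, h, map_zero]
  refine ⟨e, Subtype.ext ?_⟩
  rw [tv_val e, SpecialLinearGroup.map_apply_coe, tv_val h]
  ext a b
  simp [vecMulVec_apply, one_apply]

theorem exists_real [CharP K 2] {σ : K ≃+* K} (h1 : ∀ a, σ (σ a) = a) (h2 : σ ≠ .refl K)
    {T : (ι → K) ≃+ (ι → K)} (hT : ∀ (a : K) u, T (a • u) = σ a • T u) (TT : ∀ u, T (T u) = u) :
    ∃ D : (ι → K) ≃ₗ[K] (ι → K), ∀ v, T (D v) = D (σ ∘ v) := by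
  obtain ⟨a, ha⟩ : ∃ a, a + σ a ≠ 0 := by
    by_contra! h
    exact h2 (RingEquiv.ext fun a => (CharTwo.add_eq_zero.1 (h a)).symm)
  have hs : ⊤ ≤ Submodule.span K {u | T u = u} := fun u _ => by
    have e : u = (a + σ a)⁻¹ • ((a • u + σ a • T u) + σ a • (u + T u)) := by
      rw [smul_add (σ a), add_add_add_comm, vadd_self, add_zero, ← add_smul, smul_smul,
        inv_mul_cancel₀ ha, one_smul]
    rw [e]
    refine Submodule.smul_mem _ _ (add_mem (Submodule.subset_span ?_)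
      (Submodule.smul_mem _ _ (Submodule.subset_span ?_))) <;>
    simp [hT, TT, h1, add_comm]
  let b := (Module.Basis.ofSpan hs).reindex ((Module.Basis.ofSpan hs).indexEquiv (Pi.basisFun K ι))
  have hb : ∀ i, T (b i) = b i := fun i =>
    Module.Basis.ofSpan_subset hs ⟨_, (Module.Basis.reindex_apply _ _ _).symm⟩
  exact ⟨b.equivFun.symm, fun v => by simp [hT, hb]⟩

theorem wc_cj {G : Type*} [Group G] {V : Subgroup G} {g t w : G} (h : w ∈ Wc cj(g, V) (g * t * g⁻¹)) :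
    g⁻¹ * w * g ∈ Wc V t := by
  obtain ⟨h1, h2, h3, h4⟩ := h
  refine ⟨by simpa [mul_assoc] using congrArg (fun x => g⁻¹ * x * g) h1, fun v hv => ?_,
    by simpa [mul_assoc] using mem_cj.1 h3, fun e => h4 (mem_cj.2 (by simpa [mul_assoc] using e))⟩
  simpa [mul_assoc] using congrArg (fun x => g⁻¹ * x * g) (h2 _ (mem_map_of_mem _ hv))

end UB

open UB

variable {F K ι G : Type*} [Field F] [Field K] [Fintype ι] [DecidableEq ι] [Group G] [CharP F 2]
  [CharP K 2] [Finite F] [Finite K] [Finite G] {r : SpecialLinearGroup ι F →* G} {t s : G}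
  {ρ : SpecialLinearGroup ι K →* G}

theorem Su.not_uni (h : Su r s) (hρ : Rp ρ) (hc : Nat.card K = Nat.card F ^ 2) {σ : K ≃+* K}
    (hσ : σ ≠ RingEquiv.refl K) : ¬ AcII ρ s σ := fun hA => by
  obtain ⟨σσ, T, S, hS, hT, -, sym⟩ := AcII.nf hρ (by simp [h.tt]) hA
  have hU : Class.U.UF K (Nat.card F) := ⟨inferInstance, hc⟩
  have hσq : ∀ a, σ a = a ^ Nat.card F := fun a => by
    rw [inv_eq σσ hσ (τ := RingEquiv.ofBijective (Class.U.conj K (Nat.card F))
      (Finite.injective_iff_bijective.1 Class.U.conj_injective)) Class.U.conj_conj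
      fun e => Class.U.conj_ne_id K _ (RingHom.ext fun a => DFunLike.congr_fun e a)]
    rfl
  let B : (ι → K) →ₛₗ[(σ : K →+* K)] (ι → K) →ₗ[K] K := LinearMap.mk₂'ₛₗ _ (RingHom.id K)
    (fun u v => T u ⬝ᵥ v) (by simp) (by simp [hS.smT]) (by simp) (by simp)
  obtain ⟨b, hb⟩ := Class.exists_orthonormal_basis (σ := σ) (B := B)
    (fun e => hσ (RingEquiv.ext fun a => DFunLike.congr_fun e a)) σσ ⟨fun x y => (sym _ _).symm⟩
    fun x hx => T.injective (dext fun y => (hx y).trans (by simp))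
  have hn := Module.finrank_fintype_fun_eq_card K (η := ι)
  generalize Module.finrank K (ι → K) = n at b hb hn
  have h3 := h.three
  have hq := h.hq
  rw [← hn] at h3 hq
  have hD : ∀ a c, T (b.equivFun.symm a) ⬝ᵥ b.equivFun.symm c = hermForm n K (Nat.card F) c a :=
    fun a c => by
      change B _ _ = _
      simp [hb, hermForm, hσq, LinearMap.sum_apply, mul_comm]
  let f := (ρ.comp (cjE b.equivFun.symm)).comp (SU n K (Nat.card F)).subtype
  have fc : ∀ x, f x * s = s * f x := fun x => by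
    obtain ⟨y, e, -, e2⟩ := hT.conj hS (cjE b.equivFun.symm x)
    have : y = cjE b.equivFun.symm x := slext fun w => dext' fun φ => by
      obtain ⟨u, rfl⟩ := T.surjective φ
      obtain ⟨u, rfl⟩ := b.equivFun.symm.surjective u
      obtain ⟨w, rfl⟩ := b.equivFun.symm.surjective w
      rw [← vecMul_dot, e2, ← map_inv, cjE_mulVec, cjE_mulVec, LinearEquiv.symm_apply_apply,
        LinearEquiv.symm_apply_apply, hD, hD, ← x.2 w]
      exact congrArg _ (mulVec_inv_mulVec _ _)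
    rw [this] at e
    exact (mul_inv_eq_iff_eq_mul.1 e).symm
  obtain ⟨k, k1, k2, k3, k4⟩ : ∃ k, Even k ∧ k < n ∧ n < (k + 1) * 2 ∧
      ¬ (Nat.card F = 2 ∧ (k + 1) * 2 = 6) := by
    rcases n.even_or_odd' with ⟨k, rfl | rfl⟩
    · exact ⟨2 * (k - 1), even_two_mul _, by omega, by omega, by omega⟩
    · exact ⟨2 * k, even_two_mul _, by omega, by omega, by omega⟩
  have q1 : 1 < Nat.card F := Finite.one_lt_card
  obtain ⟨p, hp⟩ := Misc.Zsig.zsigmondy (n := (k + 1) * 2) q1 (by omega) k4 (by omega)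
  have key : ∀ l, l.Prime → ¬ l ∣ Nat.card F + 1 → l ∣ Nat.card (GU n K (Nat.card F)) →
      l ∣ Nat.card (SU n K (Nat.card F)) ∧ ∀ x ∈ center (SU n K (Nat.card F)), orderOf x ≠ l :=
    fun l hl h1 h2 => ⟨(hl.dvd_mul.1 (by rwa [Class.U.card_SU_mul (by omega)])).resolve_left h1,
      fun x hx e => h1 ((e ▸ orderOf_dvd_natCard _ hx).trans (by
        rw [Class.U.card_center (by omega)]; exact Nat.gcd_dvd_right _ _))⟩
  obtain ⟨p1, p2⟩ := key p hp.1 (fun e => hp.2.2 2 (by omega) (by omega)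
    (e.trans (Dvd.intro _ (Nat.sq_sub_sq _ 1).symm))) (by
      rw [Class.U.card_GU]
      refine Dvd.dvd.mul_left (dvd_trans ?_ (Finset.dvd_prod_of_mem _ (Finset.mem_range.2 k2))) _
      have := hp.2.1
      rw [pow_mul, Nat.sq_sub_sq _ 1] at this
      rw [if_pos k1]
      exact (hp.1.dvd_mul.1 this).resolve_right (hp.2.2 _ (by omega) (by omega)))
  have q2 : 2 ∣ Nat.card F := by
    have := Fintype.ofFinite F
    rw [Nat.card_eq_fintype_card]
    exact (prime_dvd_char_iff_dvd_card 2).1 (by rw [ringChar.eq F 2])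
  obtain ⟨t1, t2⟩ := key 2 Nat.prime_two (by omega) (by
    rw [Class.U.card_GU]
    refine (dvd_pow q2 ?_).mul_right _
    have := Nat.mul_le_mul h3 (show 2 ≤ n - 1 by omega)
    omega)
  have := Fact.mk hp.1
  obtain ⟨x, hx⟩ := exists_prime_orderOf_dvd_card' p p1
  obtain ⟨z, hz⟩ := exists_prime_orderOf_dvd_card' 2 t1
  have h32 : ¬ (n = 3 ∧ Nat.card F = 2) := by omega
  have : (Od (⊤ : Subgroup (SU n K (Nat.card F)))).Normal :=
    ⟨fun x hx g => Od.conj (mem_normalizer_iff.2 (by simp)) hx⟩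
  have hM := (Class.U.le_center_or_eq_top h3 h32 (Od ⊤)).resolve_left fun e =>
    p2 x (e (mem_Od trivial (hx ▸ hp.1.odd_of_ne_two (by have := hp.lt (by omega) q1; omega)))) hx
  have : (r.range.comap f).Normal := ⟨fun a ha g => by
    rw [mem_comap, map_mul, map_mul, map_inv]
    exact (mem_normalizer_iff.1 (h.nrm _ (fc g)) _).1 ha⟩
  have hN := (Class.U.le_center_or_eq_top h3 h32 (r.range.comap f)).resolve_left fun e =>
    t2 z (e (h.o2 (k := 1) (Od.map f (H := ⊤) (by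
      rintro _ ⟨y, -, rfl⟩; exact mem_centralizer_singleton_iff.2 (fc y)) ⟨z, hM.ge trivial, rfl⟩)
      (by rw [pow_one, ← map_pow, ← hz, pow_orderOf_eq_one, map_one]))) hz
  have : Nonempty ι := Fintype.card_pos_iff.1 (by omega)
  refine not_dvd (ι := ι) hp (by omega) (dvd_trans ?_ (card_range_dvd r))
  refine dvd_trans ?_ (orderOf_dvd_natCard _ (hN.ge (mem_top x)))
  rw [orderOf_eq_prime (p := p) (by rw [← map_pow, ← hx, pow_orderOf_eq_one, map_one]) fun e => ?_]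
  obtain ⟨a, -, ha⟩ := cjE_cen _ (hρ.ker _ e)
  exact p2 x (Class.U.mem_center_of_scalar ha) hx

theorem Fld.of_field {τ : K ≃+* K} {j : F →+* K} (h : Fld r t τ j ρ) {g : G} {σ : K ≃+* K}
    (hσ : σ ≠ RingEquiv.refl K) (hA : AcI ρ (g * t * g⁻¹) σ) : g ∈ 𝐍[ρ.range] := by
  have hs := h.toSu.cj g
  have sρ : g * t * g⁻¹ ∉ ρ.range := fun ⟨x, e⟩ => by
    obtain ⟨π, hπ⟩ := h.rp.exists_pi
    exact hσ (Prod.ext_iff.1 (((hπ ⟨_, hA.mem⟩ σ).1.1 hA).symm.trans
      ((hπ ⟨_, hA.mem⟩ _).1.1 (e.subst (motive := fun y => AcI ρ y _) (acI_range x))))).1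
  obtain ⟨σσ, T, S, hS, hT, TT, -⟩ := AcI.nf h.rp (by simp only [hs.tt, one_mul, mul_one, forall_const]) hA
  obtain rfl : σ = τ := inv_eq σσ hσ h.ττ (by
    rintro rfl
    have := Nat.card_le_card_of_surjective j fun a => (h.fix a).1 rfl
    have := Finite.one_lt_card (α := F)
    have := h.card
    nlinarith)
  obtain ⟨D, hD⟩ := exists_real σσ hσ hS.smT TT
  let ρ' := ρ.comp (cjE D)
  have act : ∀ x, g * t * g⁻¹ * ρ' x * (g * t * g⁻¹)⁻¹ =
      ρ' (SpecialLinearGroup.map (σ : K →+* K) x) := fun x => by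
    obtain ⟨y, e, e2, -⟩ := hT.conj hS (cjE D x)
    refine e.trans (congrArg ρ (slext fun u => ?_))
    obtain ⟨u, rfl⟩ := T.surjective u
    obtain ⟨u, rfl⟩ := D.surjective u
    rw [e2, cjE_mulVec, cjE_mulVec, hD, hD, D.symm_apply_apply, D.symm_apply_apply]
    exact congrArg D (funext fun i => RingHom.map_mulVec (σ : K →+* K) _ _ i)
  have fx : ∀ a, σ (j a) = j a := fun a => (h.fix _).2 ⟨a, rfl⟩
  let r₁ := ρ'.comp (SpecialLinearGroup.map j)
  have ker : ∀ x, r₁ x = 1 → r x = 1 := fun x e => by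
    obtain ⟨a, a1, a2⟩ := cjE_cen D (h.rp.ker _ e)
    rw [← h.ext, ← e]
    exact congrArg ρ (slext fun u => (a2 u).trans (a1 u).symm)
  have rp : Rp r₁ := ⟨h.three, h.hq, fun x e => h.ker x (ker x e)⟩
  have le : r₁.range ≤ (cjh g r).range := by
    have : (cjh g r).range.comap r₁ = ⊤ := eq_top_of_tv _ fun u φ _ => hs.o2 (k := 1)
      (Od_mono (by
        rintro _ ⟨x, rfl⟩
        refine mem_centralizer_singleton_iff.2 (mul_inv_eq_iff_eq_mul.1 ((act _).trans
          (congrArg ρ' (Subtype.ext ?_)))).symm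
        ext a b
        exact fx _) (rp.range_le_Od ⟨_, rfl⟩)) (by rw [pow_one, pow_two, ← map_mul, tv_sq, map_one])
    rintro _ ⟨x, rfl⟩
    exact this.ge (mem_top x)
  have eq : r₁.range = (cjh g r).range := eq_of_le_of_card_ge le (by
    rw [range_cjh, card_cj, ← index_ker, ← index_ker]
    exact index_antitone ker)
  obtain ⟨σ', T', S', hS', hc⟩ := (h.toRp.cjh g).same rp eq
  have hW : ∀ e, e ≠ 0 → Wc (Vg r₁ e) (g * t * g⁻¹) ⊆ cj(g, ρ.range) := fun e he w hw => by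
    have he' : T' e ≠ 0 := (map_ne_zero_iff _ T'.injective).2 he
    have sur : ∀ φ, φ ⬝ᵥ T' e = 0 → ∃ ψ, ψ ⬝ᵥ e = 0 ∧ S' ψ = φ := fun φ e1 => by
      obtain ⟨ψ, rfl⟩ := S'.surjective φ
      exact ⟨ψ, by rwa [hS'.dot, map_eq_zero] at e1, rfl⟩
    refine mem_cj.2 ?_
    rcases hc with hc | hc
    · refine h.hW _ he' (wc_cj (?_ : w ∈ _))
      rw [← Vg_cjh]
      convert hw using 2
      ext x
      rw [mem_Vg, mem_Vg]
      constructor
      · rintro ⟨φ, e1, rfl⟩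
        obtain ⟨ψ, e2, rfl⟩ := sur φ e1
        exact ⟨ψ, e2, hc _ _ e2⟩
      · rintro ⟨φ, e1, rfl⟩
        exact ⟨_, A.dot0 hS' e1, (hc _ _ e1).symm⟩
    · refine h.hW' _ he' (wc_cj (?_ : w ∈ _))
      rw [← Vg_cjh, ← du_cjh]
      convert hw using 2
      ext x
      rw [mem_Vg', mem_Vg]
      constructor
      · rintro ⟨φ, e1, rfl⟩
        obtain ⟨ψ, e2, rfl⟩ := sur φ ((dotProduct_comm _ _).trans e1)
        exact ⟨ψ, e2, hc _ _ e2⟩
      · rintro ⟨φ, e1, rfl⟩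
        exact ⟨_, (dotProduct_comm _ _).trans (A.dot0 hS' e1), (hc _ _ e1).symm⟩
  have hY : ∀ e : ι → F, e ≠ 0 → ∀ ψ, ψ ⬝ᵥ j ∘ e = 0 → ρ' (tv (j ∘ e) ψ) ∈ cj(g, ρ.range) :=
    fun e he ψ hψ => by
      have hV : ∀ φ, φ ⬝ᵥ e = 0 → r₁ (tv e φ) = ρ' (tv (j ∘ e) (j ∘ φ)) := fun φ e1 =>
        congrArg ρ' (map_tv j e1).2
      refine hW e he ⟨by rw [← map_mul, tv_sq, map_one], fun v hv => ?_, ?_, fun e1 => sρ ?_⟩
      · obtain ⟨φ, e1, rfl⟩ := mem_Vg.1 hv
        rw [hV φ e1, ← map_mul, ← map_mul, tv_comm_tv hψ (map_tv j e1).1 hψ (map_tv j e1).1]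
      · obtain ⟨e1, e2⟩ := map_tv (σ : K →+* K) hψ
        have e3 : (σ : K →+* K) ∘ j ∘ e = j ∘ e := funext fun i => fx _
        rw [e3] at e1 e2
        choose φ hφ using fun i => (h.fix (ψ i + σ (ψ i))).1 (by rw [map_add, σσ, add_comm])
        have e4 : j ∘ φ = ψ + (σ : K →+* K) ∘ ψ := funext hφ
        have e5 : φ ⬝ᵥ e = 0 := j.injective (by
          rw [RingHom.map_dotProduct, e4, add_dotProduct, hψ, e1, add_zero, map_zero])
        refine mem_Vg.2 ⟨φ, e5, ?_⟩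
        rw [hV φ e5, e4, tv_add hψ e1, map_mul, ← e2, ← act, inv_eq_of_mul_eq_one_right hs.tt]
        simp only [mul_assoc]
      · obtain ⟨φ, -, e2⟩ := mem_Vg.1 e1
        exact (mul_mem_cancel_left (show ρ' _ ∈ ρ.range from ⟨_, rfl⟩)).1 ⟨_, e2⟩
  have : cj(g, ρ.range).comap ρ' = ⊤ := Class.SL_eq_top_of_transvection_mem _ fun a b hab c => by
    have e0 : j ∘ (Pi.single a 1 : ι → F) = Pi.single a 1 := funext fun i => by
      simp [Pi.single_apply]
    have e : (Pi.single b c : ι → K) ⬝ᵥ Pi.single a 1 = 0 := by simp [hab.symm]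
    have := hY (Pi.single a 1) (by simp) (Pi.single b c) (e0 ▸ e)
    rw [e0] at this
    rw [mem_comap]
    convert this using 2
    refine Subtype.ext ?_
    rw [tv_val e, SpecialLinearGroup.transvection_coe]
    congr 1
    ext a b
    simp [vecMulVec_apply, Pi.single_apply, single_apply, ite_and, eq_comm]
    split_ifs <;> rfl
  refine mem_normalizer_of_cj_le (eq_of_le_of_card_ge ?_ (card_cj _ _).le).ge
  rintro _ ⟨x, rfl⟩
  obtain ⟨x, rfl⟩ := cjE_surj D x
  exact this.ge (mem_top x)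

end Cfsg.Agent.StdL
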