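import Cfsg.Agent.StdL.UfA
import Cfsg.Agent.StdL.UfB
import Cfsg.Agent.StdL.Syl1
import Cfsg.Agent.StdL.Uq
import Cfsg.Agent.Transfer.ThompsonTransfer

/-! `G0 = ρ.range`, `G1 = N(G0)`: `t` fixes the unique coset `G1`, and `G0` contains a Sylow
`2`-subgroup of every perfect normal subgroup `X ≥ L`. Transfer shows `t ∉ X`. If a Sylow subgroup of
`X` contained an element `u` of type II, multiply it by an element of `G0` so that it stabilises the
standard frame; a Sylow subgroup of `⟨t, u⟩` is then elementary, and Thompson transfer moves an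
involution of type II commuting with `t` into `G0`, against control of fusion. -/

set_option autoImplicit false

namespace Cfsg.Agent.StdL

open Matrix Subgroup Cfsg.Agent.LnT Cfsg.Agent.PLocal.Amb
open scoped commutatorElement

variable {F K ι G : Type*} [Field F] [Field K] [Fintype ι] [DecidableEq ι] [Group G] [CharP F 2]
  [CharP K 2] [Finite F] [Finite K] [Finite G] {r : SpecialLinearGroup ι F →* G} {t s : G}
  {ρ : SpecialLinearGroup ι K →* G}

variable {τ : K ≃+* K} {j : F →+* K}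

omit [CharP F 2] [CharP K 2] [Finite F] [Finite K] [Finite G] in
theorem Fld.sy_ty (h : Fld r t τ j ρ) : ∃ T : (ι → K) ≃+ (ι → K), Semi τ T T ∧ TyI ρ t T T ∧
    ∀ i, T (Pi.single i 1) = Pi.single i 1 :=
  ⟨AddEquiv.piCongrRight fun _ => τ.toAddEquiv, ⟨fun a u => funext fun i => map_mul τ _ _,
    fun a u => funext fun i => map_mul τ _ _, fun φ u =>
      (RingHom.map_dotProduct (τ : K →+* K) φ u).symm⟩,
    fun u φ e => by rw [h.act, Sy.map_tv _ e]; rfl, fun i => funext fun k => by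
      by_cases c : k = i <;> simp [c]⟩

omit [CharP F 2] [CharP K 2] [Finite K] [Finite G] in
theorem Fld.sy_ne (h : Fld r t τ j ρ) : τ ≠ RingEquiv.refl K := fun c => by
  have h1 := Nat.card_le_card_of_surjective j fun a => (h.fix a).1 (by rw [c]; rfl)
  have h2 : 1 < Nat.card F := Finite.one_lt_card
  rw [h.card] at h1
  nlinarith

omit [CharP F 2] [CharP K 2] [Finite F] [Finite K] [Finite G] in
theorem Fld.sy_le (h : Fld r t τ j ρ) : r.range ≤ ρ.range := by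
  rintro _ ⟨g, rfl⟩
  exact ⟨_, h.ext g⟩

omit [CharP F 2] in
theorem Fld.odd_cent (h : Fld r t τ j ρ) : Odd (Nat.card 𝐂[ρ.range]) := by
  have ht := normalizer_le_normalizer_centralizer _ (h.cn t rfl)
  obtain ⟨S, hS, h1⟩ := exists_isSyl_ge (isPGroup_zp h.tt) (le_sup_right (a := 𝐂[ρ.range]))
  have h2 := hS.inf_of_le le_sup_left (sup_le le_normalizer (zpowers_le.2 ht))
  refine Nat.not_even_iff_odd.1 fun c => h2.eq_bot_iff.not.2 (not_not.2 c.two_dvd) ?_
  by_contra h3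
  obtain ⟨⟨x, hx, hx'⟩, h4⟩ := ne_bot_iff_exists_ne_one.1 (inf_centralizer_ne_bot
    (isPGroup_zp h.tt) h2.pgrp (le_normalizer_inf (h1.trans le_normalizer) (zpowers_le.2 ht)) h3)
  obtain ⟨k, hk⟩ := isPGroup_iff.1 hS.pgrp x hx.1
  obtain rfl := (h.inv_pow h.nsq (mem_K0.2 ⟨(hx' t (mem_zpowers t)).symm,
    fun g => (hx.2 _ (h.sy_le ⟨g, rfl⟩)).symm⟩) hk).resolve_left fun c => h4 (Subtype.ext c)
  obtain ⟨π, hπ⟩ := h.rp.exists_pi
  obtain ⟨T, h5, h6, -⟩ := h.sy_ty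
  exact h.sy_ne (congrArg Prod.fst (((hπ ⟨x, h.cn x rfl⟩ _).1.1 ⟨T, T, h5, h6⟩).symm.trans
    ((hπ ⟨x, h.cn x rfl⟩ _).1.1 (acI_cent fun g => (hx.2 _ ⟨g, rfl⟩).symm))))

omit [CharP F 2] in
theorem Fld.sy_mem (h : Fld r t τ j ρ) {c : G} {k : ℕ} (h2 : c ^ 2 ^ k = 1)
    (hA : AcI ρ c (RingEquiv.refl K)) : c ∈ ρ.range := by
  obtain ⟨x, h3, h4⟩ := h.rp.inner hA (k := k) fun y => by rw [h2, one_mul, mul_one]
  have h5 : Commute c (ρ x) := mul_inv_eq_iff_eq_mul.1 (by rw [h4, mul_inv_cancel_right])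
  have h6 : (ρ x)⁻¹ * c ∈ 𝐂[ρ.range] := by
    rintro _ ⟨y, rfl⟩
    rw [mul_assoc, mul_inv_eq_iff_eq_mul.1 (h4 y)]
    simp [mul_assoc]
  exact ⟨x, inv_mul_eq_one.1 (eq_one_of_odd_two (k := k)
    (h.odd_cent.of_dvd_nat (orderOf_dvd_natCard _ h6))
    (by rw [h5.symm.inv_left.mul_pow, h2, inv_pow, ← map_pow, h3]; simp))⟩

theorem Fld.uq (h : Fld r t τ j ρ) : Uq 𝐍[ρ.range] t := by
  refine ⟨h.cn t rfl, h.tt, fun g hg => ?_⟩
  have h1 := h.toSu.cj g
  obtain ⟨σ, hA | hA⟩ := h.rp.exists_ac hg <;> by_cases c : σ = RingEquiv.refl K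
  · exact absurd (h.sy_mem (k := 1) (by rw [pow_one, pow_two, h1.tt]) (c ▸ hA))
      (h1.not_inner h.rp h.card)
  · exact h.of_field c hA
  · exact absurd (c ▸ hA) (h1.not_sym h.rp h.card)
  · exact absurd hA (h1.not_uni h.rp h.card c)

omit [CharP F 2] [Finite F] [Finite K] [Finite G] in
theorem Fld.sy_X (h : Fld r t τ j ρ) {X : Subgroup G} [hX : X.Normal] (hL : r.range ≤ X) :
    ρ.range ≤ X := by
  obtain ⟨a, b, hab⟩ := Fintype.exists_pair_of_one_lt_card (α := ι) (by have := h.three; omega)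
  have e0 : (Pi.single b 1 : ι → F) ⬝ᵥ Pi.single a 1 = 0 := by simp [hab.symm]
  have e1 : ∀ i : ι, j ∘ (Pi.single i 1 : ι → F) = Pi.single i 1 := fun i => funext fun k => by
    by_cases c : k = i <;> simp [c]
  have h0 : ∀ i : ι, (Pi.single i 1 : ι → K) ≠ 0 := fun i => Pi.single_ne_zero_iff.2 one_ne_zero
  have h1 : ρ (tv (Pi.single a 1) (Pi.single b 1)) ∈ X := by
    rw [← e1, ← e1, ← Sy.map_tv j e0, h.ext]; exact hL ⟨_, rfl⟩
  rw [MonoidHom.range_eq_map, map_le_iff_le_comap, eq_top_of_tv (X.comap ρ) fun u φ e => ?_]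
  by_cases c : u = 0 ∨ φ = 0
  · rw [(tv_eq_one e).2 c]; exact one_mem _
  rw [not_or] at c
  obtain ⟨x, -, hx⟩ := trans_ker3 h.three (ε := 0) (by simp) (by simp) (h0 a) c.1
  obtain ⟨k, k1, k2⟩ := trans_ker3 h.three (ε := u) (u := Pi.single b 1 ᵥ* (x⁻¹).1) (v := φ)
    (by rw [dotProduct_comm, ← hx, dot_conj]; simp [hab.symm]) (by rwa [dotProduct_comm])
    (fun e => h0 b (by rw [← vecMul_inv_of e, zero_vecMul])) c.2
  have := (hX.comap ρ).conj_mem _ ((hX.comap ρ).conj_mem _ h1 x) (tr k)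
  rwa [tv_conj, tv_conj, hx, tr_mulVec, vecMul_inv_of k1, ← map_inv, vecMul_tr, inv_inv, k2] at this

theorem Fld.sylow (h : Fld r t τ j ρ) {X : Subgroup G} [X.Normal] (hX : ⁅X, X⁆ = X)
    (hL : r.range ≤ X) : ∃ P ≤ ρ.range, IsSyl 2 P X := by
  classical
  obtain ⟨π, hπ⟩ := h.rp.exists_pi
  obtain ⟨T₀, t1, t2, t3⟩ := h.sy_ty
  have hG := h.sy_X hL
  let t' : 𝐍[ρ.range] := ⟨t, h.cn t rfl⟩
  have πt : π t' = (τ, 1) := (hπ t' τ).1.1 ⟨T₀, T₀, t1, t2⟩
  have tt : t' * t' = 1 := Subtype.ext h.tt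
  have π1 : ∀ g : 𝐍[ρ.range], ∀ k : ℕ, g.1 ^ 2 ^ k = 1 → π g = 1 → g.1 ∈ ρ.range :=
    fun g k e1 e2 => h.sy_mem e1 ((hπ g _).1.2 e2)
  have π2 : ∀ g : 𝐍[ρ.range], g.1 ∈ ρ.range → π g = 1 := fun g ⟨x, e⟩ =>
    (hπ g _).1.1 (e ▸ acI_range x)
  have πe : ∀ m, π t' ^ (2 * m) = 1 := fun m => by
    rw [pow_mul, pow_two, ← map_mul, tt, map_one, one_pow]
  have πc : ∀ a b : 𝐍[ρ.range], π (a * b * a⁻¹) = π b := fun a b => by
    rw [map_mul, map_mul, (pi_comm (π a) (π b)).eq, map_inv, mul_inv_cancel_right]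
  obtain ⟨S, hS, h1⟩ := exists_isSyl_ge (isPGroup_zp h.tt) le_top
  have tS := h1 (mem_zpowers t)
  have h2 := h.uq.le hS.pgrp tS
  have h3 := hS.inf_of_le (N := X) le_top (by rw [normalizer_eq_top])
  have h4 : Odd ((S ⊓ X).subgroupOf X).index :=
    Nat.not_even_iff_odd.1 fun c => h3.not_dvd_relIndex c.two_dvd
  have hp : Group.IsPerfect X := isPerfect_iff.2 hX
  let ι₀ : (S ⊓ X).subgroupOf X →* 𝐍[ρ.range] :=
    (X.subtype.comp ((S ⊓ X).subgroupOf X).subtype).codRestrict _ fun a => h2 a.2.1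
  have tX : t ∉ X := fun c => by
    let _ : CommGroup (RingAut K × Multiplicative (ZMod 2)) := { mul_comm := pi_comm }
    have e1 := Transfer.transfer_eq_pow_of_forall (π.comp ι₀) ⟨t, c⟩ (π t') fun g k hk => by
      rcases Nat.even_or_odd' k with ⟨m, rfl | rfl⟩
      · have e : (⟨t, c⟩ : X) ^ (2 * m) = 1 := Subtype.ext (by simp [pow_mul, pow_two, h.tt])
        simp only [e, mul_one, inv_mul_cancel]
        exact (map_one (π.comp ι₀)).trans (πe m).symm
      · have e : (⟨t, c⟩ : X) ^ (2 * m + 1) = ⟨t, c⟩ :=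
          Subtype.ext (by simp [pow_succ, pow_mul, h.tt])
        have hk' := hk
        rw [e] at hk'
        refine .trans ?_ ((πc ⟨g⁻¹, h.uq.2.2 _ (by simpa using h2 hk'.1)⟩ t').trans
          ((one_mul _).symm.trans ((congrArg (· * _) (πe m)).symm.trans (pow_succ _ _).symm)))
        exact congrArg π (Subtype.ext (by
          change ((g⁻¹ * (⟨t, c⟩ : X) ^ (2 * m + 1) * g : X) : G) = _
          rw [e]; exact congrArg (_ * ·) (inv_inv (g : G)).symm))
    obtain ⟨m, hm⟩ := h4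
    rw [hm, pow_succ, πe, one_mul, πt] at e1
    exact h.sy_ne (congrArg Prod.fst (e1.symm.trans
      (Abelianization.commutator_subset_ker _ Group.IsPerfect.mem_commutator)))
  have h5 : ∀ k : ℕ, ∀ s : 𝐍[ρ.range], s.1 ∈ S ⊓ X → s.1 ^ 2 ^ k = 1 → (π s).2 = 1 → π s = 1 := by
    intro k
    induction k with
    | zero => intro s _ e _; rw [show s = 1 from Subtype.ext (by simpa using e), map_one]
    | succ k ih =>
      intro s hs e1 e2
      have e3 := ih (s ^ 2) (pow_mem hs 2) (by rw [coe_pow, ← pow_mul, ← pow_succ', e1])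
        (by rw [map_pow, Prod.pow_snd, e2, one_pow])
      by_contra c
      have := KSG.isCyclic_ringAut K
      have := Fintype.ofFinite (RingAut K)
      have e4 := IsCyclic.card_pow_eq_one_le (α := RingAut K) two_pos
      have e5 : (π s).1 = τ := by
        by_contra c'
        refine absurd ((Finset.card_le_card (s := {1, (π s).1, τ}) ?_).trans e4) ?_
        · have := congrArg (fun a => (π a).1) tt
          simp only [map_mul, πt, map_one, Prod.fst_mul, Prod.fst_one] at this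
          simp only [Finset.insert_subset_iff, Finset.singleton_subset_iff, Finset.mem_filter,
            Finset.mem_univ, true_and, one_pow]
          exact ⟨by rw [← Prod.pow_fst, ← map_pow, e3]; rfl, (pow_two _).trans this⟩
        · rw [Finset.card_eq_three.2 ⟨1, (π s).1, τ, fun e => c (Prod.ext e.symm e2), h.sy_ne.symm,
            c', rfl⟩]
          omega
      obtain ⟨n, hn⟩ := isPGroup_iff.1 hS.pgrp _ (mul_mem hs.1 tS)
      exact tX ((X.mul_mem_cancel_left hs.2).1 (hG (π1 (s * t') n hn (by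
        rw [map_mul, show π s = π t' from Prod.ext (e5.trans (by rw [πt])) (e2.trans (by rw [πt])),
          ← map_mul, tt, map_one]))))
  have h6 : ∀ s : 𝐍[ρ.range], s.1 ∈ S ⊓ X → (π s).2 = 1 → s.1 ∈ ρ.range := fun s hs e => by
    obtain ⟨k, hk⟩ := isPGroup_iff.1 hS.pgrp _ hs.1
    exact π1 s k hk (h5 k s hs hk e)
  refine ⟨S ⊓ X, fun u hu => by_contra fun hu' => ?_, h3⟩
  have z2 : ∀ a : Multiplicative (ZMod 2), a * a = 1 ∧ (a ≠ 1 → a = .ofAdd 1) := by decide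
  have u1 : (π ⟨u, h2 hu.1⟩).2 ≠ 1 := fun c => hu' (h6 _ hu c)
  obtain ⟨T, T', hT, hT'⟩ := (hπ ⟨u, h2 hu.1⟩ _).2.2 (Prod.ext rfl ((z2 _).2 u1))
  obtain ⟨l, hl⟩ := Sy.exists_Dg hT hT' (Fintype.card_pos_iff.1 (by have := h.three; omega)).some
  let v : 𝐍[ρ.range] := ⟨ρ l, le_normalizer ⟨l, rfl⟩⟩ * ⟨u, h2 hu.1⟩
  have πv : π v = π ⟨u, h2 hu.1⟩ := by rw [map_mul, π2 _ ⟨l, rfl⟩, one_mul]
  let R : Subgroup 𝐍[ρ.range] :=
    { carrier := {a | a.1 ∈ Sy.Dg ρ ∧ π a * π a = 1 ∧ (a.1 ∈ X ∨ a.1 * t ∈ X)}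
      one_mem' := ⟨one_mem _, by rw [map_one, mul_one], .inl (one_mem _)⟩
      mul_mem' := fun {a b} ha hb => ⟨mul_mem ha.1 hb.1, by
        rw [map_mul, (pi_comm _ _).mul_mul_mul_comm, ha.2.1, hb.2.1, mul_one], by
        have n : ∀ x : G, x * t ∈ X → t * x ∈ X := fun x e => Normal.mem_comm inferInstance e
        rcases ha.2.2 with a1 | a1 <;> rcases hb.2.2 with b1 | b1
        · exact .inl (mul_mem a1 b1)
        · exact .inr ((mul_assoc a.1 b.1 t).symm ▸ mul_mem a1 b1)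
        · exact .inr (Normal.mem_comm inferInstance (mul_assoc t a.1 b.1 ▸ mul_mem (n _ a1) b1))
        · refine .inl ?_
          have := mul_mem a1 (n _ b1)
          rwa [mul_assoc, ← mul_assoc t, h.tt, one_mul] at this⟩
      inv_mem' := fun {a} ha => ⟨inv_mem ha.1, by
        rw [map_inv, ← _root_.mul_inv_rev, ha.2.1, inv_one], ha.2.2.imp inv_mem fun e => by
          have := inv_mem e
          rw [_root_.mul_inv_rev, inv_of_sq h.tt] at this
          exact Normal.mem_comm inferInstance this⟩ }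
  have tR : t' ∈ R := ⟨Sy.mem_Dg_I t1 t2 t3 t3, by rw [← map_mul, tt, map_one],
    .inr (h.tt ▸ one_mem _)⟩
  have vR : v ∈ R := ⟨hl, by
    obtain ⟨k, hk⟩ := isPGroup_iff.1 hS.pgrp _ (mul_mem hu.1 hu.1)
    rw [πv, ← map_mul]
    exact h5 k _ (mul_mem hu hu) hk (by rw [map_mul]; exact (z2 _).1),
    .inl (mul_mem (hG ⟨l, rfl⟩) hu.2)⟩
  obtain ⟨P, hP, p1⟩ := exists_isSyl_ge (isPGroup_zp tt) (zpowers_le.2 tR)
  have p2 : ∀ a ∈ P, π a = 1 → a = 1 := fun a ha e => by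
    obtain ⟨k, hk⟩ := isPGroup_iff.1 hP.pgrp a ha
    obtain ⟨x, hx⟩ := π1 a k (congrArg Subtype.val hk) e
    obtain ⟨y, y1, y2⟩ := h.rp.lift (x := x) (k := k) (hx ▸ congrArg Subtype.val hk)
    have := Sy.eq_one_of_Dg h.rp y2 (by rw [y1, hx]; exact (hP.le ha).1)
    exact Subtype.ext (by rw [← hx, ← y1, this, map_one]; rfl)
  obtain ⟨w, w1, w2⟩ := (hP.map π).max _ (pgrp_of_sq (by rintro _ ⟨a, ha, rfl⟩; exact ha.2.1))
    (map_mono hP.le) le_rfl ⟨v, vR, rfl⟩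
  obtain ⟨w, w1, w2, w3⟩ : ∃ w ∈ P, (π w).2 ≠ 1 ∧ w.1 ∈ X := by
    rcases (hP.le w1).2.2 with c | c
    · exact ⟨w, w1, by rwa [w2, πv], c⟩
    · exact ⟨w * t', mul_mem w1 (p1 (mem_zpowers _)), by
        rwa [map_mul, πt, Prod.snd_mul, mul_one, w2, πv], c⟩
  have w4 : w * w = 1 := p2 _ (mul_mem w1 w1) (by rw [map_mul]; exact (hP.le w1).2.1)
  have w5 : t' * w * t'⁻¹ * w⁻¹ = 1 := p2 _ (mul_mem (mul_mem (mul_mem (p1 (mem_zpowers _)) w1)
    (inv_mem (p1 (mem_zpowers _)))) (inv_mem w1)) (by rw [map_mul, πc, map_inv, mul_inv_cancel])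
  have w4' : (w : G) * w = 1 := congrArg Subtype.val w4
  have w5' : t * w * t⁻¹ * (w : G)⁻¹ = 1 := congrArg Subtype.val w5
  let f := (MonoidHom.snd _ _).comp (π.comp ι₀)
  obtain ⟨x, a, ha, hx⟩ := Transfer.exists_conj_mem_of_no_index_two (G := X) (fun H c => by
    have e : H = ⊤ := top_le_iff.1 (hp.commutator_eq_top.ge.trans (commutator_le.2 fun a _ b _ => by
      simp only [commutatorElement_def, mul_mem_iff_of_index_two c, inv_mem_iff]; tauto))
    rw [e, index_top] at c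
    omega) (Q := f.ker.map ((S ⊓ X).subgroupOf X).subtype) h4 (by
      rw [relIndex, map_subtype_subgroupOf, index_ker, show f.range = ⊤ from top_le_iff.1
        fun b _ => by
          by_cases c : b = 1
          · exact c ▸ one_mem _
          · exact ⟨⟨⟨u, hu.2⟩, hu⟩, ((z2 _).2 u1).trans ((z2 _).2 c).symm⟩, card_top]
      simp) (u := ⟨w, w3⟩) (orderOf_eq_prime (Subtype.ext ((pow_two _).trans w4')) fun c => w2 (by
          rw [show w = 1 from Subtype.ext (congrArg (fun a : X => (a : G)) c), map_one]; rfl))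
  obtain ⟨y, hy⟩ := h6 (ι₀ a) a.2 ha
  replace hy : ρ y = x * w * (x : G)⁻¹ := hy.trans (congrArg Subtype.val hx)
  obtain ⟨y, y1, y2⟩ := h.rp.lift_sq (x := y) (hy ▸ sq_conj w4' _)
  obtain ⟨y₀, y3, y4⟩ := Sy.exists_real y2
  obtain ⟨k, rfl⟩ := isConj_iff.1 y3
  obtain ⟨n, hn, e⟩ := h.uq.fus (h.uq.conj (le_normalizer ⟨k, rfl⟩)) (v := w.1) (g := x.1)
    (mul_inv_eq_iff_eq_mul.1 (mul_inv_eq_one.1 w5')) (by
      rw [← hy, ← y1, map_mul, map_mul, map_inv, conj_mul, conj_mul,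
        mul_inv_eq_iff_eq_mul.1 (h.act y₀), y4])
  exact w2 (by rw [← πc ⟨n, hn⟩, π2 _ ⟨_, (y1.trans hy).trans e.symm⟩]; rfl)

end Cfsg.Agent.StdL
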