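import Cfsg.Agent.StdL.Bas

/-! Coordinates on `V = Vg r e`: `Ep e = e^⊥`, `vE r e φ = r (tv e φ)`. -/

set_option autoImplicit false
set_option linter.unusedSectionVars false

namespace Cfsg.Agent.StdL

open Matrix Subgroup Cfsg.Agent.LnT Cfsg.Agent.PLocal.Amb

variable {F ι G : Type*} [Field F] [Fintype ι] [DecidableEq ι] [Group G]

/-- the covectors vanishing on `e` -/
def Ep (e : ι → F) : Submodule F (ι → F) where
  carrier := {φ | φ ⬝ᵥ e = 0}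
  zero_mem' := zero_dotProduct e
  add_mem' := fun {a b} (ha : a ⬝ᵥ e = 0) (hb : b ⬝ᵥ e = 0) => by
    show (a + b) ⬝ᵥ e = 0
    rw [add_dotProduct, ha, hb, add_zero]
  smul_mem' := fun c a (ha : a ⬝ᵥ e = 0) => by
    show (c • a) ⬝ᵥ e = 0
    rw [smul_dotProduct, ha, smul_zero]

/-- evaluation at `u` -/
def fE (e u : ι → F) : Ep e →ₗ[F] F where
  toFun φ := φ.1 ⬝ᵥ u
  map_add' a b := add_dotProduct _ _ _
  map_smul' c a := smul_dotProduct _ _ _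

/-- the transvection with centre `e` and axis `φ` -/
noncomputable def vE (r : SpecialLinearGroup ι F →* G) (e : ι → F) (φ : Ep e) : G := r (tv e φ.1)

variable {r : SpecialLinearGroup ι F →* G} {t : G} {e : ι → F}

theorem fE_apply (u : ι → F) (φ : Ep e) : fE e u φ = φ.1 ⬝ᵥ u := rfl

theorem exists_fE (f : Ep e →ₗ[F] F) : ∃ u, f = fE e u := by
  obtain ⟨g, hg⟩ := f.exists_extend
  obtain ⟨u, rfl⟩ := (dotProductEquiv F ι).surjective g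
  refine ⟨u, LinearMap.ext fun φ => ?_⟩
  rw [← hg, fE_apply, dotProduct_comm]
  rfl

theorem exists_fE_one {u : ι → F} (h : ∀ a : F, u ≠ a • e) : ∃ ψ, fE e u ψ = 1 := by
  obtain ⟨θ, h1, h2⟩ := exists_dot1 h
  exact ⟨⟨θ, h2⟩, h1⟩

theorem card_Ep [Finite F] (he : e ≠ 0) :
    Nat.card (Ep e) = Nat.card F ^ (Fintype.card ι - 1) := by
  have h1 : Nat.card (Ep e) * Nat.card F = Nat.card F ^ Fintype.card ι := card_ker1 he
  haveI : Nonempty ι := by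
    by_contra h
    exact he (funext fun i => absurd ⟨i⟩ h)
  obtain ⟨n, hn⟩ := Nat.exists_eq_succ_of_ne_zero (Fintype.card_ne_zero (α := ι))
  rw [hn, pow_succ] at h1
  rw [hn]
  exact Nat.eq_of_mul_eq_mul_right Nat.card_pos h1

theorem vE_add (φ ψ : Ep e) : vE r e (φ + ψ) = vE r e φ * vE r e ψ := by
  rw [vE, vE, vE, ← map_mul, ← tv_add φ.2 ψ.2]
  rfl

theorem vE_zero : vE r e 0 = 1 := by
  rw [vE, Submodule.coe_zero, tv_zero, map_one]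

theorem vE_mem (φ : Ep e) : vE r e φ ∈ Vg r e := mem_Vg.2 ⟨φ.1, φ.2, rfl⟩

theorem mem_vE {x : G} : x ∈ Vg r e ↔ ∃ φ, vE r e φ = x :=
  ⟨fun h => let ⟨φ, h1, h2⟩ := mem_Vg.1 h; ⟨⟨φ, h1⟩, h2⟩, fun ⟨φ, h⟩ => h ▸ vE_mem φ⟩

theorem vE_comm (φ ψ : Ep e) : vE r e φ * vE r e ψ = vE r e ψ * vE r e φ := by
  rw [← vE_add, ← vE_add, add_comm]

theorem Vg_le_range : Vg r e ≤ r.range := map_le_range _ _

theorem conj_vE {x : SpecialLinearGroup ι F} (hx : x.1 *ᵥ e = e) (φ : Ep e) :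
    ∃ h : (φ.1 ᵥ* (x⁻¹).1) ⬝ᵥ e = 0, r x * vE r e φ * (r x)⁻¹ = vE r e ⟨_, h⟩ := by
  refine ⟨?_, ?_⟩
  · have h1 := dot_conj x φ.1 e
    rw [hx] at h1
    exact h1.trans φ.2
  · show r x * r (tv e φ.1) * (r x)⁻¹ = r (tv e (φ.1 ᵥ* (x⁻¹).1))
    rw [← map_inv, ← map_mul, ← map_mul, tv_conj, hx]

variable [CharP F 2]

theorem Ep_add_self (φ : Ep e) : φ + φ = 0 := Subtype.ext (vadd_self _)

theorem vE_sq (φ : Ep e) : vE r e φ * vE r e φ = 1 := by rw [← vE_add, Ep_add_self, vE_zero]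

theorem vE_inv (φ : Ep e) : (vE r e φ)⁻¹ = vE r e φ := inv_eq_of_mul_eq_one_left (vE_sq φ)

theorem tv_fix {u : ι → F} {φ : Ep e} (h : fE e u φ = 0) : (tv u φ.1).1 *ᵥ e = e := by
  rw [tv_mulVec h, φ.2, zero_smul, add_zero]

theorem conj_tv_vE {u : ι → F} {φ : Ep e} (h : fE e u φ = 0) (ψ : Ep e) :
    r (tv u φ.1) * vE r e ψ * (r (tv u φ.1))⁻¹ = vE r e (ψ + fE e u ψ • φ) := by
  obtain ⟨h1, h2⟩ := conj_vE (r := r) (tv_fix h) ψ
  rw [h2]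
  congr 1
  apply Subtype.ext
  show ψ.1 ᵥ* ((tv u φ.1)⁻¹).1 = _
  rw [tv_inv, vecMul_tv h]
  rfl

variable [Finite F]

theorem Rp.vE_inj (h : Rp r) (he : e ≠ 0) : Function.Injective (vE r e) := fun φ ψ h1 =>
  Subtype.ext (tv_inj he φ.2 ψ.2 (h.eq_of_sq (tv_sq _ _) (tv_sq _ _) h1))

theorem Rp.vE_eq_one (h : Rp r) (he : e ≠ 0) {φ : Ep e} : vE r e φ = 1 ↔ φ = 0 := by
  rw [← vE_zero (r := r) (e := e), (h.vE_inj he).eq_iff]

theorem Su.t_vE (h : Su r t) (φ : Ep e) : t * vE r e φ = vE r e φ * t := h.tc _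

theorem Su.t_inv (h : Su r t) : t⁻¹ = t := inv_eq_of_mul_eq_one_left h.tt

theorem Su.t_ne (h : Su r t) (φ ψ : Ep e) : t * vE r e φ ≠ vE r e ψ := fun h1 =>
  h.notMem (by
    rw [eq_mul_inv_of_mul_eq h1]
    exact mul_mem (Vg_le_range (vE_mem _)) (inv_mem (Vg_le_range (vE_mem _))))

theorem Su.mem_A (h : Su r t) {x : G} :
    x ∈ Vg r e ⊔ zpowers t ↔ ∃ φ, x = vE r e φ ∨ x = t * vE r e φ := by
  constructor
  · intro hx
    let K : Subgroup G :=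
      { carrier := {x | ∃ φ, x = vE r e φ ∨ x = t * vE r e φ}
        one_mem' := ⟨0, Or.inl vE_zero.symm⟩
        mul_mem' := by
          rintro _ _ ⟨φ, rfl | rfl⟩ ⟨ψ, rfl | rfl⟩ <;> refine ⟨φ + ψ, ?_⟩ <;> rw [vE_add]
          · exact Or.inl rfl
          · exact Or.inr (by rw [← mul_assoc, ← h.t_vE, mul_assoc])
          · exact Or.inr (mul_assoc _ _ _)
          · exact Or.inl (by rw [h.t_vE φ, mul_assoc, ← mul_assoc t, h.tt, one_mul])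
        inv_mem' := by
          rintro _ ⟨φ, rfl | rfl⟩
          · exact ⟨φ, Or.inl (vE_inv φ)⟩
          · exact ⟨φ, Or.inr (by rw [_root_.mul_inv_rev, vE_inv, h.t_inv, h.t_vE])⟩ }
    refine (sup_le (b := zpowers t) (c := K) (fun y hy => ?_) (zpowers_le.2 ?_)) hx
    · obtain ⟨φ, rfl⟩ := mem_vE.1 hy
      exact ⟨φ, Or.inl rfl⟩
    · exact ⟨0, Or.inr (by rw [vE_zero, mul_one])⟩
  · rintro ⟨φ, rfl | rfl⟩
    · exact mem_sup_left (vE_mem φ)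
    · exact mul_mem (mem_sup_right (mem_zpowers t)) (mem_sup_left (vE_mem φ))

/-- all nonzero covectors are conjugate, by a linear map -/
theorem Rp.trans_E (h : Rp r) (he : e ≠ 0) {φ ψ : Ep e} (hφ : φ ≠ 0) (hψ : ψ ≠ 0) :
    ∃ (x : SpecialLinearGroup ι F) (L : Ep e →ₗ[F] Ep e), L φ = ψ ∧
      ∀ χ, r x * vE r e χ * (r x)⁻¹ = vE r e (L χ) := by
  obtain ⟨x, h1, h2⟩ := h.trans_V he φ.2 ψ.2 (fun e => hφ (Subtype.ext e))
    fun e => hψ (Subtype.ext e)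
  choose p hp using conj_vE (r := r) h1
  refine ⟨x, ⟨⟨fun χ => ⟨_, p χ⟩, fun a b => Subtype.ext (add_vecMul _ _ _)⟩,
    fun c a => Subtype.ext (smul_vecMul _ _ _)⟩, h.vE_inj he ?_, hp⟩
  show vE r e ⟨_, p φ⟩ = _
  rw [← hp, vE, vE, ← map_inv, ← map_mul, ← map_mul, h2]

theorem exists_11E (h : 3 ≤ Fintype.card ι) (φ e : ι → F) :
    ∃ u, φ ⬝ᵥ u = 0 ∧ ∀ a : F, u ≠ a • e := by
  obtain ⟨u, h1, h2⟩ := exists_ker_notMem (a := 1) (b := 1) (by omega) ![φ] ![e]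
  refine ⟨u, h1 0, fun a hu => h2 ?_⟩
  rw [hu]
  exact Submodule.smul_mem _ _ (Submodule.subset_span ⟨0, rfl⟩)

theorem exists_20E (h : 3 ≤ Fintype.card ι) (e u : ι → F) :
    ∃ φ : Ep e, fE e u φ = 0 ∧ φ ≠ 0 := by
  obtain ⟨φ, h1, h2⟩ := exists_ker_notMem (a := 2) (b := 0) (by omega) ![e, u] ![]
  refine ⟨⟨φ, (dotProduct_comm _ _).trans (h1 0)⟩, (dotProduct_comm _ _).trans (h1 1), fun h3 => h2 ?_⟩
  rw [show φ = 0 from congrArg Subtype.val h3]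
  exact zero_mem _

end Cfsg.Agent.StdL
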