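import Cfsg.Agent.StdL.TrlA
import Cfsg.Agent.StdL.TrlB

/-! `V = Vg r e`, `A = V⟨t⟩`, `Y = N(A)`; `x u φ = r (tv u φ)` (`φ e = 0`) lies in `Y`, acts on
`V ≅ e^⊥` by `ψ ↦ ψ + ψ(u) φ`.
(1) No `g ∈ Y` has `g t g⁻¹ = v = r (tv e φ) ∈ V`: `x = x u φ`, `u ∉ F e`, centralises `v` and `v = ⁅x, a⁆`,
`a ∈ A`; `x' = g⁻¹ x g ∈ C(t)` normalises `L ⊓ A = V`, so `t = ⁅x', a'⁆ ∈ V`: false. With `trans_V` the
orbit of `t` is `t V`, `Y` normalises `V` (`A - t V`), is `2`-transitive on `t V`; `Y ⊓ C(t)` acts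
semilinearly (`norm_V`).
(2) For `a = g t g⁻¹` let `𝓛 a` = images under `g` of the `F`-lines of `V` (independent of `g`).
If `x = x u (c φ)` centralises `w ∈ V` then `x' = g⁻¹ x g ∈ C(t)` (`g t g⁻¹ = t w`) is an involution; if it
is linear, `⁅V, x'⁆` (order `q`) is a line, so `F φ ∈ 𝓛 (t w)`. `m ≥ 4`: `σ ≠ 1` is impossible
(`x'` centralises a subgroup of index `q` of `V`, `dim V ≥ 3`: it contains `ψ` and `ω ψ`; count), and `u`
exists for all `φ, w` (`exists_21`), so `𝓛 a = 𝓛 t`. `m = 3` (`q ≥ 4`): `c ↦ σ` is a hom `F → Aut F` (cyclic),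
so some `c ≠ 0` is linear: the line through `w` is common to `𝓛 t`, `𝓛 (t w)`; by transport the line through
`a b` is common to `𝓛 a`, `𝓛 b`. Affine plane count (`spread`): all `𝓛 a` agree.
(3) If some `1 ≠ v` is translated then all are (`trans_V`). Otherwise `C_Y(V) ≤ C(t)`. `g ∈ Y` with
`g t g⁻¹ ≠ t`, `y = g⁻¹ x g` preserves lines, `⁅V, y⁆` is a line, `C_V(y)` a union of lines of index `q`, so
`y` acts on `V` as some `x'`; `y x' ∈ C_Y(V) ≤ C(t)`, so every `x` centralises `g t g⁻¹ = t w`: `w = 1`.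
(4) `k ∈ K0`, `k² = t`, `g` a translation by `v ≠ 1`: `g k g⁻¹ ∈ C(A)` equals `v' k'` (`cent_V`), its square
is `k'² = t v`, so `v ∈ K0`: false. -/

set_option autoImplicit false

namespace Cfsg.Agent.StdL

open Matrix Subgroup Cfsg.Agent.LnT Cfsg.Agent.PLocal.Amb
open scoped commutatorElement

variable {F ι G : Type*} [Field F] [Fintype ι] [DecidableEq ι] [Group G] [CharP F 2] [Finite F]
  [Finite G] {r : SpecialLinearGroup ι F →* G} {t : G}

/-- spreads in a group of order `q²` -/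
theorem spread {A : Type*} [AddCommGroup A] [Finite A] (h2 : ∀ a : A, a + a = 0) {q : ℕ}
    (hA : Nat.card A = q ^ 2) (l : A → A → AddSubgroup A)
    (hc : ∀ a v, v ≠ 0 → Nat.card (l a v) = q) (hm : ∀ a v, v ∈ l a v)
    (he : ∀ a v w, w ∈ l a v → w ≠ 0 → v ≠ 0 → l a w = l a v)
    (hs : ∀ a b, l a (a + b) = l b (a + b)) (a b v : A) (hv : v ≠ 0) : l a v = l b v :=
  spread' h2 hA l hc hm he hs a b v hv

theorem Su.trl (h : Su r t) {e : ι → F} (he : e ≠ 0) (hm : Mv (Vg r e) t) :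
    Trl (Vg r e) t ∧ Nsq r t := by
  have hinj := h.vE_inj he
  have hA : ∀ g ∈ 𝐍[Vg r e ⊔ zpowers t], ∀ x ∈ Vg r e ⊔ zpowers t,
      g * x * g⁻¹ ∈ Vg r e ⊔ zpowers t := fun g hg x hx => (mem_normalizer_iff.1 hg x).1 hx
  have htA : t ∈ Vg r e ⊔ zpowers t := mem_sup_right (mem_zpowers t)
  have hN : ∀ x : SpecialLinearGroup ι F, (∀ χ, ∃ χ', r x * vE r e χ * (r x)⁻¹ = vE r e χ') →
      r x ∈ 𝐍[Vg r e ⊔ zpowers t] := fun x hx => by
    refine mem_normalizer_fintype fun y hy => ?_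
    obtain ⟨χ, rfl | rfl⟩ := h.mem_A.1 hy <;> obtain ⟨χ', e1⟩ := hx χ
    · exact h.mem_A.2 ⟨χ', Or.inl e1⟩
    · exact h.mem_A.2 ⟨χ', Or.inr (by rw [← mul_assoc, ← h.tc, ← e1]; group)⟩
  -- (1)
  have hth : ∀ g ∈ 𝐍[Vg r e ⊔ zpowers t], ∃ ψ, g * t * g⁻¹ = t * vE r e ψ := by
    intro g hg
    obtain ⟨φ, e1 | e1⟩ := h.mem_A.1 (hA g hg t htA)
    swap
    · exact ⟨φ, e1⟩
    exfalso
    obtain ⟨u, h1, h2⟩ := exists_11E h.three φ.1 e
    obtain ⟨ψ, h3⟩ := exists_fE_one h2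
    have h4 := conj_tv_vE (r := r) (φ := φ) h1 φ
    have h5 := conj_tv_vE (r := r) (φ := φ) h1 ψ
    rw [show fE e u φ = 0 from h1, zero_smul, add_zero, ← e1] at h4
    rw [h3, one_smul, add_comm, vE_add, ← e1] at h5
    have h6 : g⁻¹ * r (tv u φ.1) * g * t = t * (g⁻¹ * r (tv u φ.1) * g) := by
      calc _ = g⁻¹ * (r (tv u φ.1) * (g * t * g⁻¹) * (r (tv u φ.1))⁻¹) * r (tv u φ.1) * g := by group
        _ = _ := by rw [h4]; group
    have h7 : ∀ y ∈ r.range, (g⁻¹ * r (tv u φ.1) * g) * y * (g⁻¹ * r (tv u φ.1) * g)⁻¹ ∈ r.range :=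
      fun y hy => (mem_normalizer_iff.1 (h.nrm _ h6) y).1 hy
    have h8 : ∀ a, g⁻¹ * vE r e ψ * g⁻¹⁻¹ = a →
        t = (g⁻¹ * r (tv u φ.1) * g) * a * (g⁻¹ * r (tv u φ.1) * g)⁻¹ * a⁻¹ := by
      rintro _ rfl
      calc t = g⁻¹ * (g * t * g⁻¹ * vE r e ψ) * (vE r e ψ)⁻¹ * g := by group
        _ = _ := by rw [← h5]; group
    apply h.notMem
    obtain ⟨χ, e2 | e2⟩ := h.mem_A.1 (hA g⁻¹ (inv_mem hg) _ (mem_sup_left (vE_mem ψ)))
    · rw [h8 _ e2]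
      exact mul_mem (h7 _ (Vg_le_range (vE_mem _))) (inv_mem (Vg_le_range (vE_mem _)))
    · have h9 := h8 _ e2
      obtain ⟨y, hy⟩ := h7 _ (Vg_le_range (vE_mem (r := r) χ))
      generalize g⁻¹ * r (tv u φ.1) * g = c at h6 h9 hy
      have h10 : t = r y * (vE r e χ)⁻¹ := by
        calc t = (c * t) * (vE r e χ * c⁻¹) * (t * vE r e χ)⁻¹ := h9.trans (by group)
          _ = t * r y * (vE r e χ * t)⁻¹ := by rw [h6, hy, h.t_vE]; group
          _ = _ := by rw [h.tc]; group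
      rw [h10]
      exact mul_mem ⟨y, rfl⟩ (inv_mem (Vg_le_range (vE_mem _)))
  have hsur : ∀ ψ, ∃ g ∈ 𝐍[Vg r e ⊔ zpowers t], g * t * g⁻¹ = t * vE r e ψ := by
    intro ψ
    by_cases h0 : ψ = 0
    · exact ⟨1, one_mem _, by rw [h0, vE_zero]; group⟩
    obtain ⟨g, hg, hne⟩ := hm
    obtain ⟨w, hw⟩ := hth g hg
    obtain ⟨x, L, h1, h2⟩ := h.trans_E he (φ := w) (fun e1 => hne (by rw [hw, e1, vE_zero, mul_one])) h0
    refine ⟨r x * g, mul_mem (hN x fun χ => ⟨_, h2 χ⟩) hg, ?_⟩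
    calc _ = r x * (g * t * g⁻¹) * (r x)⁻¹ := by group
      _ = _ := by rw [hw, ← h1, ← h2, ← mul_assoc, ← h.tc]; group
  have hact : ∀ g ∈ 𝐍[Vg r e ⊔ zpowers t], ∀ φ, ∃ ψ, g * vE r e φ * g⁻¹ = vE r e ψ := by
    intro g hg φ
    obtain ⟨k, hk, e1⟩ := hsur φ
    obtain ⟨a, ha⟩ := hth g hg
    obtain ⟨b, hb⟩ := hth _ (mul_mem hg hk)
    refine ⟨a + b, ?_⟩
    calc _ = (g * t * g⁻¹)⁻¹ * (g * (t * vE r e φ) * g⁻¹) := by group
      _ = (g * t * g⁻¹)⁻¹ * (g * k * t * (g * k)⁻¹) := by rw [← e1]; group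
      _ = _ := by rw [ha, hb, vE_add, _root_.mul_inv_rev, vE_inv]; group
  choose θ hθ using fun g : 𝐍[Vg r e ⊔ zpowers t] => hth g g.2
  choose α hα using fun g : 𝐍[Vg r e ⊔ zpowers t] => hact g g.2
  letI : DistribMulAction 𝐍[Vg r e ⊔ zpowers t] (Ep e) :=
    { smul := α
      one_smul := fun φ => hinj (by
        show vE r e (α 1 φ) = _
        rw [← hα]; simp)
      mul_smul := fun g k φ => hinj (by
        show vE r e (α (g * k) φ) = vE r e (α g (α k φ))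
        rw [← hα, ← hα, ← hα, coe_mul]; group)
      smul_zero := fun g => hinj (by
        show vE r e (α g 0) = _
        rw [← hα, vE_zero]; group)
      smul_add := fun g φ ψ => hinj (by
        show vE r e (α g (φ + ψ)) = vE r e (α g φ + α g ψ)
        rw [vE_add, ← hα, ← hα, ← hα, vE_add]; group) }
  have hθ0 : ∀ g, θ g = 0 ↔ (g : G) * t = t * g := fun g => by
    rw [← h.vE_eq_one he, ← mul_inv_eq_iff_eq_mul, hθ, mul_eq_left]
  obtain ⟨g, hg0, hg⟩ := aff (F := F) θ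
    (fun g k => hinj (mul_left_cancel (a := t) (by
      show _ = t * vE r e (θ g + α g (θ k))
      rw [← hθ, vE_add, ← mul_assoc, ← hθ, ← hα, coe_mul]
      calc _ = (g : G) * ((k : G) * t * (k : G)⁻¹) * (g : G)⁻¹ := by group
        _ = _ := by rw [hθ]; group)))
    (fun ψ => by
      obtain ⟨g, hg, e1⟩ := hsur ψ
      exact ⟨⟨g, hg⟩, hinj (mul_left_cancel (a := t) (by rw [← hθ, e1]))⟩)
    (fun g hg => by
      obtain ⟨σ, T, S, hS, hT, hTe⟩ := h.norm_V (h.nrm _ ((hθ0 g).1 hg)) he fun v hv => by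
        obtain ⟨φ, rfl⟩ := mem_vE.1 hv
        rw [hα]; exact vE_mem _
      have h1 : ∀ ψ : Ep e, (α g ψ).1 = S ψ.1 := fun ψ => by
        have h2 : S ψ.1 ⬝ᵥ e = 0 := by
          have := hS.dot ψ.1 e
          rwa [hTe, ψ.2, map_zero] at this
        have h3 := hT e ψ.1 ψ.2
        rw [hTe] at h3
        exact congrArg Subtype.val (hinj ((hα g ψ).symm.trans h3) : α g ψ = ⟨_, h2⟩)
      refine ⟨σ, fun c ψ => Subtype.ext ?_⟩
      show (α g (c • ψ)).1 = σ c • (α g ψ).1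
      rw [h1, h1, ← hS.smS]
      rfl)
    (fun f φ hf => by
      obtain ⟨u, rfl⟩ := exists_fE f
      exact ⟨⟨_, hN _ fun χ => ⟨_, conj_tv_vE hf χ⟩⟩, (hθ0 _).2 (h.tc _).symm,
        fun ψ => hinj ((hα _ ψ).symm.trans (conj_tv_vE hf ψ))⟩)
    (fun φ => by
      obtain ⟨u, h1, h2⟩ := exists_11E h.three φ.1 e
      exact ⟨fE e u, h1, exists_fE_one h2⟩)
    (fun w hw => by
      obtain ⟨u, h1⟩ := exists_dot0 (u := w.1) fun e1 => hw (Subtype.ext e1)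
      obtain ⟨φ, h2, h3⟩ := exists_20E h.three e u
      exact ⟨fE e u, φ, (dotProduct_comm _ _).trans h1, h2, h3⟩)
    (by
      rw [card_Ep he]
      rcases h.three.eq_or_lt with e1 | e1
      · exact Or.inr ⟨by rw [← e1], h.hq.resolve_right (by omega)⟩
      · refine Or.inl ⟨fun φ w => ?_, Nat.pow_lt_pow_right Finite.one_lt_card (by omega)⟩
        obtain ⟨u, h1, h2, h3⟩ := exists_21 e1 φ.1 w.1 e
        exact ⟨fE e u, h1, h2, exists_fE_one h3⟩)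
  have hgV : ∀ φ, (g : G) * vE r e φ * (g : G)⁻¹ = vE r e φ := fun φ => by
    rw [hα]; exact congrArg _ (hg φ)
  have hgV' : ∀ v ∈ Vg r e, (g : G) * v * (g : G)⁻¹ = v := fun v hv => by
    obtain ⟨φ, rfl⟩ := mem_vE.1 hv
    exact hgV φ
  refine ⟨fun v hv => ?_, fun k hk hkk => ?_⟩
  · obtain ⟨ψ, rfl⟩ := mem_vE.1 hv
    by_cases h0 : ψ = 0
    · exact ⟨1, fun x _ => by group, by rw [h0, vE_zero]; group⟩
    obtain ⟨x, L, h1, h2⟩ := h.trans_E he hg0 h0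
    have h3 : r x ∈ 𝐍[Vg r e] := mem_normalizer_fintype fun y hy => by
      obtain ⟨φ, rfl⟩ := mem_vE.1 hy
      rw [h2]; exact vE_mem _
    refine ⟨r x * g * (r x)⁻¹, fun y hy => ?_, ?_⟩
    · have h4 := hgV' _ ((mem_normalizer_iff''.1 h3 y).1 hy)
      calc _ = r x * ((g : G) * ((r x)⁻¹ * y * r x) * (g : G)⁻¹) * g * (r x)⁻¹ := by group
        _ = _ := by rw [h4]; group
    · calc _ = r x * ((g : G) * ((r x)⁻¹ * t * r x) * (g : G)⁻¹) * (r x)⁻¹ := by group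
        _ = r x * ((g : G) * t * (g : G)⁻¹) * (r x)⁻¹ := by
          rw [mul_assoc (r x)⁻¹, h.tc, inv_mul_cancel_left]
        _ = _ := by rw [hθ, ← h1, ← h2, ← mul_assoc, ← h.tc]; group
  · have hk' := mem_K0.1 hk
    have h1 : ∀ v ∈ Vg r e, (g : G) * k * (g : G)⁻¹ * v = v * ((g : G) * k * (g : G)⁻¹) := by
      intro v hv
      obtain ⟨y, hy⟩ := Vg_le_range hv
      calc _ = (g : G) * k * (g : G)⁻¹ * ((g : G) * v * (g : G)⁻¹) := by rw [hgV' v hv]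
        _ = (g : G) * (k * v) * (g : G)⁻¹ := by group
        _ = ((g : G) * v * (g : G)⁻¹) * ((g : G) * k * (g : G)⁻¹) := by rw [← hy, hk'.2]; group
        _ = _ := by rw [hgV' v hv]
    have h2 : (g : G) * k * (g : G)⁻¹ * ((g : G) * k * (g : G)⁻¹) = t * vE r e (θ g) := by
      rw [conj_mul, hkk, hθ]
    have h3 : (g : G) * k * (g : G)⁻¹ * t = t * ((g : G) * k * (g : G)⁻¹) := by
      have h4 : t = (g : G) * k * (g : G)⁻¹ * ((g : G) * k * (g : G)⁻¹) * vE r e (θ g) := by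
        rw [h2, mul_assoc, vE_sq, mul_one]
      have h5 := h1 _ (vE_mem (θ g))
      generalize (g : G) * k * (g : G)⁻¹ = c at h4 h5
      rw [h4, mul_assoc (c * c), ← h5]; group
    obtain ⟨v, hv, k', hk1, e1⟩ := h.cent_V h3 he h1
    obtain ⟨φ, rfl⟩ := mem_vE.1 hv
    have h4 : k' * vE r e φ = vE r e φ * k' := (mem_K0.1 hk1).2 _
    rw [e1, mul_assoc, ← mul_assoc k', h4, ← mul_assoc, ← mul_assoc, vE_sq, one_mul] at h2
    have h5 : vE r e (θ g) ∈ K0 r t := by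
      rw [eq_inv_mul_of_mul_eq h2.symm]
      exact mul_mem (inv_mem (mem_K0.2 ⟨rfl, h.tc⟩)) (mul_mem hk1 hk1)
    rcases h.inv h5 (vE_sq _) with e2 | e2
    · exact hg0 ((h.vE_eq_one he).1 e2)
    · exact h.notMem (e2 ▸ Vg_le_range (vE_mem _))

end Cfsg.Agent.StdL
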