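import Mathlib
import Cfsg.Agent.KSG.AutPSL3

/-! Spreads, and affine groups whose point stabiliser is semilinear and contains all transvections. -/

set_option autoImplicit false

namespace Cfsg.Agent.StdL

theorem spread' {A : Type*} [AddCommGroup A] [Finite A] (h2 : ∀ a : A, a + a = 0) {q : ℕ}
    (hA : Nat.card A = q ^ 2) (l : A → A → AddSubgroup A)
    (hc : ∀ a v, v ≠ 0 → Nat.card (l a v) = q) (hm : ∀ a v, v ∈ l a v)
    (he : ∀ a v w, w ∈ l a v → w ≠ 0 → v ≠ 0 → l a w = l a v)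
    (hs : ∀ a b, l a (a + b) = l b (a + b)) (a b v : A) (hv : v ≠ 0) : l a v = l b v := by
  classical
  have h0 : ∀ x y : A, x + y = 0 → x = y := fun x y h => by
    rw [← add_zero x, ← h2 y, ← add_assoc, h, zero_add]
  by_cases hab : a + b ∈ l a v
  · by_cases h1 : a + b = 0
    · rw [h0 a b h1]
    · have h3 : l b (a + b) = l a v := (hs a b).symm.trans (he a v _ hab h1 hv)
      exact h3.symm.trans (he b _ v (h3.ge (hm a v)) hv h1).symm
  have hne : ∀ u ∈ l a v, a + u + b ≠ 0 := fun u hu h => hab (by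
    have : a + b = u := h0 _ _ (by rw [← h]; abel)
    rwa [this])
  have hU : ∀ u ∈ l a v, ∀ w ∈ l a v, w ≠ 0 → l (a + u) w = l a v := by
    intro u hu w hw hw0
    by_cases h1 : u = 0
    · rw [h1, add_zero]; exact he a v w hw hw0 hv
    · have h3 : a + (a + u) = u := by rw [← add_assoc, h2, zero_add]
      have h4 := hs a (a + u)
      rw [h3, he a v u hu h1 hv] at h4
      exact (he _ u w (h4.le hw) hw0 h1).trans h4.symm
  have hW : ∀ u ∈ l a v, ∀ w ∈ l b (a + u + b), w ∈ l a v → w = 0 := by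
    intro u hu w hw hw'
    by_contra h1
    have h3 := he _ _ w ((hs (a + u) b).ge hw) h1 (hne u hu)
    rw [hU u hu w hw' h1] at h3
    have h4 := add_mem (h3.ge (hm _ _)) hu
    apply hab
    have : a + u + b + u = a + b + (u + u) := by abel
    rwa [this, h2, add_zero] at h4
  let Φ : (Σ u : l a v, {w : A // w ∈ l b (a + u + b) ∧ w ≠ 0}) → {w : A // w ∉ l a v} :=
    fun p => ⟨p.2.1, fun h => p.2.2.2 (hW _ p.1.2 _ p.2.2.1 h)⟩
  have hinj : Function.Injective Φ := by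
    rintro ⟨⟨u, hu⟩, w, hw, hw0⟩ ⟨⟨u', hu'⟩, w', hw', hw0'⟩ h
    obtain rfl : w = w' := congrArg Subtype.val h
    have h3 := (he _ _ w hw hw0 (hne u hu)).symm.trans (he _ _ w hw' hw0 (hne u' hu'))
    have h4 := add_mem (hm b (a + u + b)) (h3.ge (hm b (a + u' + b)))
    have h5 : a + u + b + (a + u' + b) = u + u' + (a + a) + (b + b) := by abel
    rw [h5, h2, h2, add_zero, add_zero] at h4
    obtain rfl := h0 _ _ (hW u hu _ h4 (add_mem hu hu'))
    rfl
  have hcard : ∀ U : AddSubgroup A, Nat.card {w : A // w ∈ U ∧ w ≠ 0} + 1 = Nat.card U := by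
    intro U
    have : Nat.card {w : A // w ∈ U ∧ w ≠ 0} = Nat.card {w : U // w ≠ 0} :=
      Nat.card_congr ⟨fun w => ⟨⟨w.1, w.2.1⟩, fun h => w.2.2 (congrArg Subtype.val h)⟩,
        fun w => ⟨w.1.1, w.1.2, fun h => w.2 (Subtype.ext h)⟩, fun _ => rfl, fun _ => rfl⟩
    rw [this]
    haveI := Fintype.ofFinite U
    rw [Nat.card_eq_fintype_card, Nat.card_eq_fintype_card, Fintype.card_subtype_compl,
      Fintype.card_subtype_eq]
    have := Fintype.card_pos (α := U)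
    omega
  have hle : Nat.card {w : A // w ∉ l a v} ≤
      Nat.card (Σ u : l a v, {w : A // w ∈ l b (a + u + b) ∧ w ≠ 0}) := by
    haveI := Fintype.ofFinite A
    haveI := Fintype.ofFinite (l a v)
    have h3 : ∀ u : l a v, Nat.card {w : A // w ∈ l b (a + u + b) ∧ w ≠ 0} = q - 1 := fun u => by
      have := hcard (l b (a + u + b))
      rw [hc _ _ (hne u u.2)] at this
      omega
    rw [Nat.card_sigma, Finset.sum_congr rfl fun u _ => h3 u, Finset.sum_const, Finset.card_univ,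
      smul_eq_mul, Nat.card_eq_fintype_card, Fintype.card_subtype_compl,
      ← Nat.card_eq_fintype_card, ← Nat.card_eq_fintype_card, hA]
    rw [hc a v hv, Nat.mul_sub, pow_two, mul_one]
  have hsur := (hinj.bijective_of_nat_card_le hle).2
  refine (AddSubgroup.eq_of_le_of_card_ge (fun w hw => ?_) (by rw [hc _ _ hv, hc _ _ hv])).symm
  by_contra h1
  obtain ⟨⟨⟨u, hu⟩, w', hw', hw0⟩, h3⟩ := hsur ⟨w, h1⟩
  obtain rfl : w' = w := congrArg Subtype.val h3
  have h4 := (he _ _ w' hw hw0 hv).symm.trans (he _ _ w' hw' hw0 (hne u hu))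
  exact hv (hW u hu v (h4.le (hm b v)) (hm a v))

section

variable {F E Y : Type*} [Field F] [AddCommGroup E] [Module F E] [Group Y] [DistribMulAction Y E]

theorem aff_lin {g y : Y} {f : E →ₗ[F] F} {φ ψ₀ : E} (h0 : f ψ₀ = 1)
    (hy : ∀ ψ : E, y • ψ = ψ + f ψ • φ)
    (hl : ∀ (c : F) (ψ : E), (g⁻¹ * y * g) • c • ψ = c • (g⁻¹ * y * g) • ψ) (c : F) :
    ∃ c' : F, g • c • g⁻¹ • φ = c' • φ := by
  have h1 := hl c (g⁻¹ • ψ₀)
  rw [mul_smul, mul_smul, mul_smul, mul_smul, smul_inv_smul, hy ψ₀, h0, one_smul,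
    inv_smul_eq_iff, hy, smul_add, smul_add, smul_add] at h1
  exact ⟨_, (add_left_cancel h1).symm⟩

variable [CharP F 2] [Finite F] [Finite E]

theorem aff (θ : Y → E) (hθ : ∀ g h, θ (g * h) = θ g + g • θ h) (hs : Function.Surjective θ)
    (h1 : ∀ g, θ g = 0 → ∃ σ : F ≃+* F, ∀ (c : F) (ψ : E), g • c • ψ = σ c • g • ψ)
    (h2 : ∀ (f : E →ₗ[F] F) (φ : E), f φ = 0 → ∃ x, θ x = 0 ∧ ∀ ψ : E, x • ψ = ψ + f ψ • φ)
    (h3 : ∀ φ : E, ∃ f : E →ₗ[F] F, f φ = 0 ∧ ∃ ψ, f ψ = 1)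
    (h4 : ∀ w : E, w ≠ 0 → ∃ (f : E →ₗ[F] F) (φ : E), f w = 1 ∧ f φ = 0 ∧ φ ≠ 0)
    (hd : ((∀ φ w : E, ∃ f : E →ₗ[F] F, f φ = 0 ∧ f w = 0 ∧ ∃ ψ, f ψ = 1) ∧
      Nat.card F ^ 2 < Nat.card E) ∨ (Nat.card E = Nat.card F ^ 2 ∧ 2 < Nat.card F)) :
    ∃ g, θ g ≠ 0 ∧ ∀ ψ : E, g • ψ = ψ := by
  have hE : ∀ a : E, a + a = 0 := fun a => by
    rw [← two_smul F a, CharTwo.two_eq_zero, zero_smul]
  have θ1 : θ 1 = 0 := by
    have := hθ 1 1
    rwa [mul_one, one_smul, hE] at this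
  have θc : ∀ g y, θ y = 0 → y • θ g = θ g → θ (g⁻¹ * y * g) = 0 := fun g y e1 e2 => by
    rw [mul_assoc, hθ, hθ y, e1, zero_add, e2, ← hθ, inv_mul_cancel, θ1]
  obtain ⟨ψ₀, hψ₀⟩ : ∃ ψ : E, ψ ≠ 0 := by
    obtain ⟨f, -, ψ, h⟩ := h3 0
    exact ⟨ψ, fun e => by rw [e, map_zero] at h; exact zero_ne_one h⟩
  have PL : ∀ (g : Y) (c : F) (φ : E), ∃ c' : F, g • c • g⁻¹ • φ = c' • φ := by
    rcases hd with ⟨hf, hc⟩ | ⟨hc, hq⟩
    · intro g c φ
      obtain ⟨f, e1, e2, ψ₁, e3⟩ := hf φ (θ g)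
      obtain ⟨y, hy0, hy⟩ := h2 f φ e1
      obtain ⟨σ, hσ⟩ := h1 _ (θc g y hy0 (by rw [hy, e2, zero_smul, add_zero]))
      refine aff_lin e3 hy (fun ω ψ => ?_) c
      suffices h : σ ω = ω by rw [hσ, h]
      have hn : ¬ Function.Injective fun ψ : E => (f (g • ψ), f (g • ω • ψ)) := fun hi => by
        have := Nat.card_le_card_of_injective _ hi
        rw [Nat.card_prod, ← pow_two] at this
        omega
      obtain ⟨a, b, hab, hne⟩ := Function.not_injective_iff.1 hn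
      simp only [Prod.mk.injEq] at hab
      have hfix : ∀ z : E, f (g • z) = 0 → (g⁻¹ * y * g) • z = z := fun z hz => by
        rw [mul_smul, mul_smul, hy, hz, zero_smul, add_zero, inv_smul_smul]
      have h5 := hσ ω (a - b)
      rw [hfix _ (by rw [smul_sub, smul_sub, map_sub, hab.2, sub_self]),
        hfix _ (by rw [smul_sub, map_sub, hab.1, sub_self])] at h5
      exact (smul_left_injective F (sub_ne_zero.2 hne) h5).symm
    · have step : ∀ (g : Y) (c : F), ∃ c' : F, g • c • g⁻¹ • θ g = c' • θ g := by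
        intro g
        obtain ⟨f, e1, ψ₁, e3⟩ := h3 (θ g)
        obtain ⟨ω, hω0, hω1⟩ : ∃ ω : F, ω ≠ 0 ∧ ω ≠ 1 := by
          by_contra hc
          push Not at hc
          have := Nat.card_le_card_of_surjective (fun b : Bool => if b then (1 : F) else 0)
            fun x => by
              by_cases hx : x = 0
              · exact ⟨false, hx.symm⟩
              · exact ⟨true, (hc x hx).symm⟩
          rw [Nat.card_eq_fintype_card (α := Bool), Fintype.card_bool] at this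
          omega
        have key : ∀ (d : F) (y : Y), d ≠ 0 → (∀ ψ : E, y • ψ = ψ + (d • f) ψ • θ g) →
            (∀ (c : F) (ψ : E), (g⁻¹ * y * g) • c • ψ = c • (g⁻¹ * y * g) • ψ) →
            ∀ c : F, ∃ c' : F, g • c • g⁻¹ • θ g = c' • θ g := fun d y hd hy hl =>
          aff_lin (ψ₀ := d⁻¹ • ψ₁) (by simp [e3, hd]) hy hl
        have ex : ∀ d : F, ∃ (y : Y) (σ : F ≃+* F), (∀ ψ : E, y • ψ = ψ + (d • f) ψ • θ g) ∧
            (∀ (c : F) (ψ : E), (g⁻¹ * y * g) • c • ψ = σ c • (g⁻¹ * y * g) • ψ) ∧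
            ∀ c, σ (σ c) = c := fun d => by
          obtain ⟨y, hy0, hy⟩ := h2 (d • f) (θ g) (by simp [e1])
          obtain ⟨σ, hσ⟩ := h1 _ (θc g y hy0 (by rw [hy]; simp [e1]))
          refine ⟨y, σ, hy, hσ, fun c => ?_⟩
          have h5 : ∀ ψ : E, (g⁻¹ * y * g) • (g⁻¹ * y * g) • ψ = ψ := fun ψ => by
            rw [mul_smul, mul_smul, mul_smul, mul_smul, smul_inv_smul, inv_smul_eq_iff, hy, hy]
            simp [e1, add_assoc, hE]
          have h6 := h5 (c • ψ₀)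
          rw [hσ, hσ, h5] at h6
          exact smul_left_injective F hψ₀ h6
        obtain ⟨y₁, σ₁, a1, b1, c1⟩ := ex 1
        obtain ⟨y₂, σ₂, a2, b2, c2⟩ := ex ω
        by_cases e4 : σ₁ = 1
        · exact key 1 y₁ one_ne_zero a1 fun c ψ => by rw [b1, e4]; rfl
        by_cases e5 : σ₂ = 1
        · exact key ω y₂ hω0 a2 fun c ψ => by rw [b2, e5]; rfl
        haveI := KSG.isCyclic_ringAut F
        have e6 : σ₁ = σ₂ := KSG.eq_of_orderOf_two (G := RingAut F)
          (orderOf_eq_prime (RingEquiv.ext fun c => c1 c) e4)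
          (orderOf_eq_prime (RingEquiv.ext fun c => c2 c) e5)
        refine key (1 + ω) (y₁ * y₂) (fun e => hω1 ?_) (fun ψ => ?_) fun c ψ => ?_
        · exact (CharTwo.add_eq_zero.1 e).symm
        · rw [mul_smul, a2, a1]
          simp only [e1, add_smul, one_smul, map_add, map_smul, LinearMap.smul_apply,
            LinearMap.add_apply, smul_eq_mul, mul_zero, add_zero]
          abel
        · have : g⁻¹ * (y₁ * y₂) * g = (g⁻¹ * y₁ * g) * (g⁻¹ * y₂ * g) := by group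
          rw [this, mul_smul, b2, b1, e6, c2, ← mul_smul (g⁻¹ * y₁ * g)]
      choose s hs using hs
      have ind : ∀ g g' : Y, θ g = θ g' → ∀ (v : E) (c : F), ∃ c' : F,
          g • c • g⁻¹ • v = g' • c' • g'⁻¹ • v := fun g g' e v c => by
        obtain ⟨σ, hσ⟩ := h1 (g'⁻¹ * g) (by rw [hθ, e, ← hθ, inv_mul_cancel, θ1])
        refine ⟨σ c, ?_⟩
        rw [← inv_smul_eq_iff, ← mul_smul, hσ, ← mul_smul, mul_inv_cancel_right]
      let l : E → E → AddSubgroup E := fun a v =>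
        { carrier := {z | ∃ c : F, z = s a • c • (s a)⁻¹ • v}
          zero_mem' := ⟨0, by rw [zero_smul, smul_zero]⟩
          add_mem' := by
            rintro _ _ ⟨c, rfl⟩ ⟨d, rfl⟩
            exact ⟨c + d, by rw [add_smul, smul_add]⟩
          neg_mem' := by
            rintro _ ⟨c, rfl⟩
            exact ⟨-c, by rw [neg_smul, smul_neg]⟩ }
      have hle : ∀ a b, l b (a + b) ≤ l a (a + b) := by
        rintro a b _ ⟨c, rfl⟩
        obtain ⟨d, hd⟩ := ind (s b) (s a * s ((s a)⁻¹ • (a + b)))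
          (by rw [hθ, hs, hs, hs, smul_inv_smul, ← add_assoc, hE, zero_add]) (a + b) c
        obtain ⟨d', hd'⟩ := step (s ((s a)⁻¹ • (a + b))) d
        rw [hs] at hd'
        exact ⟨d', by rw [hd, mul_inv_rev, mul_smul, mul_smul, hd']⟩
      have hl := spread' hE hc l (fun a v hv => ?_) (fun a v => ⟨1, by simp⟩) ?_
        (fun a b => le_antisymm (add_comm b a ▸ hle b a) (hle a b))
      · intro g c φ
        by_cases hφ : φ = 0
        · exact ⟨0, by simp [hφ]⟩
        obtain ⟨d, hd⟩ := ind g (s (θ g)) (hs _).symm φ c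
        obtain ⟨d', hd'⟩ := (hl (θ g) 0 φ hφ).le ⟨d, rfl⟩
        obtain ⟨d'', hd''⟩ := ind (s 0) 1 (by rw [hs, θ1]) φ d'
        exact ⟨d'', by rw [hd, hd', hd'', inv_one, one_smul, one_smul]⟩
      · refine (Nat.card_eq_of_bijective (fun c : F => (⟨_, c, rfl⟩ : l a v)) ⟨fun c d e => ?_, ?_⟩).symm
        · have e' : s a • c • (s a)⁻¹ • v = s a • d • (s a)⁻¹ • v := congrArg Subtype.val e
          exact smul_left_injective F (fun h => hv (by rwa [inv_smul_eq_iff, smul_zero] at h))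
            (MulAction.injective _ e')
        · rintro ⟨_, c, rfl⟩
          exact ⟨c, rfl⟩
      · rintro a v _ ⟨c, rfl⟩ hw -
        have hc0 : c ≠ 0 := fun e => hw (by rw [e, zero_smul, smul_zero])
        apply le_antisymm
        · rintro _ ⟨d, rfl⟩
          exact ⟨d * c, by rw [inv_smul_smul, mul_smul]⟩
        · rintro _ ⟨d, rfl⟩
          exact ⟨d * c⁻¹, by rw [inv_smul_smul, smul_smul (d * c⁻¹), inv_mul_cancel_right₀ hc0]⟩
  have PL' : ∀ (g : Y) (c : F) (φ : E), ∃ c' : F, g • c • φ = c' • g • φ := fun g c φ => by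
    simpa using PL g c (g • φ)
  by_contra hc
  push Not at hc
  have hc' : ∀ g, (∀ ψ : E, g • ψ = ψ) → θ g = 0 := fun g hg => by
    by_contra h
    obtain ⟨ψ, h⟩ := hc g h
    exact h (hg ψ)
  obtain ⟨g, hg⟩ := hs ψ₀
  obtain ⟨f, φ, e1, e2, e3⟩ := h4 ψ₀ hψ₀
  obtain ⟨x, hx0, hx⟩ := h2 f φ e2
  have hφ' : g⁻¹ • φ ≠ 0 := fun h => e3 (by rwa [inv_smul_eq_iff, smul_zero] at h)
  choose f' hf' using fun ψ : E => PL' g⁻¹ (f (g • ψ)) φ
  have hy : ∀ ψ : E, (g⁻¹ * x * g) • ψ = ψ + f' ψ • g⁻¹ • φ := fun ψ => by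
    rw [mul_smul, mul_smul, hx, smul_add, inv_smul_smul, hf']
  have hz : ∀ d : F, f' (d • g⁻¹ • φ) = 0 := fun d => by
    obtain ⟨d', hd'⟩ := PL g d φ
    have := hf' (d • g⁻¹ • φ)
    rw [hd', map_smul, e2, smul_zero, zero_smul, smul_zero] at this
    exact (smul_eq_zero.1 this.symm).resolve_right hφ'
  let f'' : E →ₗ[F] F :=
    { toFun := f'
      map_add' := fun a b => smul_left_injective F hφ' (by
        show f' (a + b) • g⁻¹ • φ = (f' a + f' b) • g⁻¹ • φ
        rw [add_smul, ← hf', ← hf', ← hf', smul_add, map_add, add_smul, smul_add])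
      map_smul' := fun c ψ => by
        show f' (c • ψ) = c * f' ψ
        obtain ⟨c', hc'⟩ := PL' (g⁻¹ * x * g) c ψ
        rw [hy, hy, smul_add, smul_smul c'] at hc'
        by_cases e : c = c'
        · rw [← e] at hc'
          exact smul_left_injective F hφ' (add_left_cancel hc')
        · have h5 : ψ = ((c - c')⁻¹ * (c' * f' ψ - f' (c • ψ))) • g⁻¹ • φ := by
            rw [mul_smul, eq_inv_smul_iff₀ (sub_ne_zero.2 e), sub_smul, sub_smul,
              sub_eq_sub_iff_add_eq_add, hc', add_comm]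
          rw [h5, smul_smul c, hz, hz, mul_zero] }
  obtain ⟨x', hx0', hx'⟩ := h2 f'' (g⁻¹ • φ) (by rw [← one_smul F (g⁻¹ • φ)]; exact hz 1)
  have h5 := hc' (x'⁻¹ * (g⁻¹ * x * g)) fun ψ => by
    rw [mul_smul, inv_smul_eq_iff, hy, hx']; rfl
  have h6 : θ (g⁻¹ * x * g) = 0 := by
    rw [← mul_inv_cancel_left x' (g⁻¹ * x * g), hθ, hx0', h5, smul_zero, add_zero]
  have h7 := hθ g (g⁻¹ * x * g)
  rw [h6, smul_zero, add_zero, mul_assoc, mul_inv_cancel_left, hθ, hx0, zero_add, hx, hg, e1,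
    one_smul] at h7
  exact e3 (add_eq_left.1 h7)

end

end Cfsg.Agent.StdL
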