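import Cfsg.Agent.StdL.Jr
import Cfsg.Agent.Misc.Zsigmondy

/-! `s` (with its own set-up `Su r s`) cannot act on `ρ.range` (`|K| = |F|²`) as an inner or as a
symmetric (graph) automorphism: elementary abelian subgroups of `C(s)` are too small, resp. a
primitive prime divisor of the length of an orbit of the symplectic transvections does not divide
`|SL ι F|`. -/

set_option autoImplicit false

namespace Cfsg.Agent.StdL

open Matrix Subgroup Cfsg.Agent.LnT Cfsg.Agent.PLocal.Amb Cfsg.Agent.Misc.Zsig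
open scoped commutatorElement

namespace UfA

theorem not_dvd_card_SL {F ι : Type*} [Field F] [Finite F] [Fintype ι] [DecidableEq ι] [Nonempty ι]
    {N p : ℕ} (hN : Fintype.card ι < N) (h : IsPPD (Nat.card F) N p) :
    ¬ p ∣ Nat.card (SpecialLinearGroup ι F) := by
  have := Fintype.ofFinite F
  intro hd
  have h1 : p ∣ Nat.card (GL ι F) := Class.card_units_mul_card_SL (ι := ι) (R := F) ▸ hd.mul_left _
  rw [Nat.card_congr (Units.mapEquiv
    (reindexAlgEquiv F F (Fintype.equivFin ι)).toMulEquiv).toEquiv, Matrix.card_GL_field,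
    ← Nat.card_eq_fintype_card (α := F)] at h1
  obtain ⟨i, -, hi⟩ := (h.1.prime.dvd_finsetProd_iff _).1 h1
  have e : Nat.card F ^ Fintype.card ι - Nat.card F ^ (i : ℕ) =
      Nat.card F ^ (i : ℕ) * (Nat.card F ^ (Fintype.card ι - i) - 1) := by
    rw [Nat.mul_sub_one, ← pow_add, Nat.add_sub_cancel' i.2.le]
  rw [e] at hi
  rcases (Nat.Prime.dvd_mul h.1).1 hi with h2 | h2
  · have h3 : p ∣ Nat.card F ^ N := (h.1.dvd_of_dvd_pow h2).trans (dvd_pow_self _ (by omega))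
    have h4 : 0 < Nat.card F ^ N := pow_pos Nat.card_pos _
    exact h.1.one_lt.ne' (Nat.dvd_one.1 ((Nat.dvd_add_right h.2.1).1 (by rwa [Nat.sub_add_cancel h4])))
  · exact h.2.2 _ (by have := i.2; omega) (by omega) h2

variable {F K ι G : Type*} [Field F] [Field K] [Fintype ι] [DecidableEq ι] [Group G] [CharP F 2]
  [CharP K 2] [Finite F] [Finite K] [Finite G] {r : SpecialLinearGroup ι F →* G} {s : G}
  {ρ : SpecialLinearGroup ι K →* G}

omit [Finite G] in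
theorem El.two {A : Subgroup G} (h : El A) : IsPGroup 2 A := fun g =>
  ⟨1, Subtype.ext (by rw [pow_one, sq]; exact h _ g.2)⟩

theorem card_le (h : Su r s) {E : Subgroup G} (hE : El E) (hle : E ≤ centralizer {s}) :
    Nat.card E ≤ 8 * Nat.card F ^ (Fintype.card ι ^ 2 / 4) ∧
      (Nat.card F = 2 → Nat.card E ≤ 4 * Nat.card F ^ (Fintype.card ι ^ 2 / 4)) := by
  have h1 : El (E ⊓ r.range) := fun a ha => hE a ha.1
  obtain ⟨Q, hQ, e, hc⟩ := h.toRp.lift_sub (El.two h1) inf_le_right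
  have h2 : El Q := fun a ha => by
    obtain ⟨k, hk⟩ := hQ ⟨a * a, mul_mem ha ha⟩
    refine h.toRp.eq_of (k := k) (congrArg Subtype.val hk) (one_pow _) ?_
    rw [map_mul, map_one]
    exact h1 _ (e ▸ mem_map_of_mem r ha)
  have h3 := hc ▸ card_el_le h2
  obtain ⟨h4, h5⟩ := h.card_el hE hle
  exact ⟨h4.trans (Nat.mul_le_mul_left _ h3), fun e => (h5 e).trans (Nat.mul_le_mul_left _ h3)⟩

omit [Finite G] [CharP K 2] [Finite K] in
theorem el_map {A : Subgroup (SpecialLinearGroup ι K)} (hA : El A) : El (A.map ρ) := by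
  rintro _ ⟨a, ha, rfl⟩
  rw [← map_mul, hA a ha, map_one]

theorem not_inner (h : Su r s) (hρ : Rp ρ) (hc : Nat.card K = Nat.card F ^ 2) : s ∉ ρ.range := by
  rintro ⟨x, hx⟩
  obtain ⟨y, hy, y2⟩ := hρ.lift_sq (x := x) (by rw [hx, h.tt])
  obtain ⟨M, M', f, hM⟩ := exists_fl_mem y2
  have hM' : y ∈ Rd M M := ⟨hM.1, fun x hx => hM.2 x (sup_le_sup_left f.le _ hx)⟩
  have h1 := (card_le h (el_map (ρ := ρ) (el_Rd M M)) fun a ha => mem_centralizer_singleton_iff.2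
    ((el_map (el_Rd M M)).comm ha (by rw [← hx, ← hy]; exact mem_map_of_mem ρ hM'))).1
  rw [hρ.card_map (El.two (el_Rd M M)), f.card.1, hc, ← pow_mul, two_mul, pow_add] at h1
  have h2 := Nat.le_of_mul_le_mul_right h1 (pow_pos Nat.card_pos _)
  have h3 := h.three
  have h4 : 1 < Nat.card F := Finite.one_lt_card
  rcases h.hq with h5 | h5
  · have : 3 ^ 2 ≤ Fintype.card ι ^ 2 := Nat.pow_le_pow_left h3 2
    have : 3 ^ 2 ≤ Nat.card F ^ (Fintype.card ι ^ 2 / 4) :=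
      (Nat.pow_le_pow_left h5 2).trans (Nat.pow_le_pow_right (by omega) (by omega))
    omega
  · have : 5 ^ 2 ≤ Fintype.card ι ^ 2 := Nat.pow_le_pow_left h5 2
    have : 2 ^ 4 ≤ Nat.card F ^ (Fintype.card ι ^ 2 / 4) :=
      (Nat.pow_le_pow_left h4 4).trans (Nat.pow_le_pow_right (by omega) (by omega))
    omega

/-- the symmetric form `T u ⬝ᵥ v` with `T u ⬝ᵥ u = (T n ⬝ᵥ u)²` -/
structure Sy (ρ : SpecialLinearGroup ι K →* G) (s : G) (T S : (ι → K) ≃+ (ι → K)) (n : ι → K) :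
    Prop where
  semi : Semi (RingEquiv.refl K) T S
  ty : TyII ρ s T S
  ST : ∀ u, S (T u) = u
  sym : ∀ u v, T u ⬝ᵥ v = T v ⬝ᵥ u
  sq : ∀ u, T u ⬝ᵥ u = (T n ⬝ᵥ u) ^ 2

omit [Finite G] in
theorem exists_sy (hρ : Rp ρ) (hs : s * s = 1) (hA : AcII ρ s (RingEquiv.refl K)) :
    ∃ T S n, Sy ρ s T S n := by
  obtain ⟨-, T, S, h1, h2, h3, h4⟩ := hA.nf hρ (fun y => by rw [hs, one_mul, mul_one])
  have : PerfectRing K 2 := PerfectRing.ofFiniteOfIsReduced 2 K
  let ℓ : (ι → K) →ₗ[K] K :=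
    { toFun := fun u => (frobeniusEquiv K 2).symm (T u ⬝ᵥ u)
      map_add' := fun u v => by
        rw [← map_add, map_add T, add_dotProduct, dotProduct_add, dotProduct_add, h4 v u]
        congr 1
        have := CharTwo.add_self_eq_zero (T u ⬝ᵥ v)
        simp only [RingEquiv.refl_apply]
        linear_combination this
      map_smul' := fun a u => by
        apply (frobeniusEquiv K 2).injective
        rw [RingHom.id_apply, smul_eq_mul, map_mul, RingEquiv.apply_symm_apply,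
          RingEquiv.apply_symm_apply, h1.smT, smul_dotProduct, dotProduct_smul,
          frobeniusEquiv_apply, frobenius_def, RingEquiv.refl_apply, smul_eq_mul, smul_eq_mul]
        ring }
  refine ⟨T, S, T.symm fun i => ℓ (Pi.single i 1), h1, h2, h3, h4, fun u => ?_⟩
  have e : (fun i => ℓ (Pi.single i 1)) ⬝ᵥ u = ℓ u := by
    rw [LinearMap.pi_apply_eq_sum_univ ℓ u, dotProduct]
    refine Finset.sum_congr rfl fun i _ => ?_
    rw [smul_eq_mul, mul_comm]
    congr 2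
    ext j
    simp [Pi.single_apply, eq_comm]
  rw [T.apply_symm_apply, e, ← frobenius_def, ← frobeniusEquiv_apply]
  exact ((frobeniusEquiv K 2).apply_symm_apply _).symm

namespace Sy

variable {T S : (ι → K) ≃+ (ι → K)} {n : ι → K} (y : Sy ρ s T S n)
include y

omit [Finite G] [Finite K] [CharP K 2] in
theorem smT (a : K) (u : ι → K) : T (a • u) = a • T u := y.semi.smT a u

omit [Finite G] [Finite K] [CharP K 2] in
theorem iso {u : ι → K} (h : T n ⬝ᵥ u = 0) : T u ⬝ᵥ u = 0 := by rw [y.sq, h]; ring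

omit [Finite G] [Finite K] [CharP K 2] in
theorem iso' {u : ι → K} (h : T n ⬝ᵥ u = 0) (a : K) : (a • T u) ⬝ᵥ u = 0 := by
  rw [smul_dotProduct, y.iso h, smul_zero]

omit [Finite G] [Finite K] [CharP K 2] in
theorem cent {u : ι → K} (h : T n ⬝ᵥ u = 0) (a : K) : ρ (tv u (a • T u)) ∈ centralizer {s} := by
  have := y.ty u _ (y.iso' h a)
  rw [y.semi.smS, y.ST, RingEquiv.refl_apply, tv_smul a (y.iso h), mul_inv_eq_iff_eq_mul] at this
  exact mem_centralizer_singleton_iff.2 this.symm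

omit [Finite G] [Finite K] in
theorem od {u v : ι → K} (hu : T n ⬝ᵥ u = 0) (hv : T n ⬝ᵥ v = 0) (e : T u ⬝ᵥ v = 1) :
    ρ (tv u (T u) * tv v (T v)) ∈ Od (centralizer {s}) := by
  refine mem_Od ?_ ?_
  · rw [map_mul]
    exact mul_mem (by simpa using y.cent hu 1) (by simpa using y.cent hv 1)
  · refine Odd.of_dvd_nat (by decide : Odd 3) (orderOf_dvd_of_pow_eq_one ?_)
    rw [← map_pow, show (tv u (T u) * tv v (T v)) ^ 3 = 1 from slext fun x => ?_, map_one]
    have e' : T v ⬝ᵥ u = 1 := (y.sym v u).trans e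
    have h2 : (2 : K) = 0 := CharTwo.two_eq_zero
    rw [show (1 : SpecialLinearGroup ι K).1 *ᵥ x = x from one_mulVec x]
    simp only [pow_succ, pow_zero, one_mul, mul_mulVec', tv_mulVec (y.iso hu), tv_mulVec (y.iso hv),
      dotProduct_add, dotProduct_smul, e, e', y.iso hu, y.iso hv, smul_eq_mul, mul_one, mul_zero,
      add_zero]
    ext i
    simp only [Pi.add_apply, Pi.smul_apply, smul_eq_mul]
    linear_combination ((4 * (T u ⬝ᵥ x) + 6 * (T v ⬝ᵥ x)) * u i +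
      (2 * (T u ⬝ᵥ x) + 4 * (T v ⬝ᵥ x)) * v i) * h2

omit [Finite G] [Finite K] [CharP K 2] in
theorem partner {u : ι → K} (hu : ∀ a : K, u ≠ a • n) : ∃ v, T n ⬝ᵥ v = 0 ∧ T u ⬝ᵥ v = 1 := by
  obtain ⟨θ, h1, h2⟩ := exists_dot1 hu
  exact ⟨T.symm θ, by rw [y.sym, T.apply_symm_apply, h2], by rw [y.sym, T.apply_symm_apply, h1]⟩

omit [Finite G] in
theorem od' (hK : 2 < Nat.card K) {u : ι → K} (h : T n ⬝ᵥ u = 0) (hu : ∀ a : K, u ≠ a • n) (c : K) :
    ρ (tv u (c • T u)) ∈ Od (centralizer {s}) := by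
  obtain ⟨v, hv, e⟩ := y.partner hu
  have e' : T v ⬝ᵥ u = 1 := (y.sym v u).trans e
  have key : ∀ a b : K, a ≠ 0 → b ≠ 0 →
      ρ (tv u (((a + b) ^ 2) • T u)) ∈ Od (centralizer {s}) := fun a b ha hb => by
    have h1 : T n ⬝ᵥ a • u = 0 := by rw [dotProduct_smul, h, smul_zero]
    have h2 : T n ⬝ᵥ a⁻¹ • v = 0 := by rw [dotProduct_smul, hv, smul_zero]
    have h3 : T n ⬝ᵥ (b⁻¹ • v + a • u) = 0 := by
      rw [dotProduct_add, h1, dotProduct_smul, hv, smul_zero, add_zero]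
    have h4 : T n ⬝ᵥ b • u = 0 := by rw [dotProduct_smul, h, smul_zero]
    have k1 := y.od h1 h2 (by
      rw [y.smT, smul_dotProduct, dotProduct_smul, e]; simp [ha])
    have k2 := y.od h2 h3 (by
      rw [y.smT, smul_dotProduct, dotProduct_add, dotProduct_smul, dotProduct_smul, e', y.iso hv]
      simp [ha])
    have k3 := y.od h3 h4 (by
      rw [map_add, y.smT, y.smT, add_dotProduct, smul_dotProduct, smul_dotProduct, dotProduct_smul,
        dotProduct_smul, e', y.iso h]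
      simp [hb])
    have k4 := mul_mem (mul_mem k1 k2) k3
    rw [← map_mul, ← map_mul, mul_assoc (tv _ _), ← mul_assoc (tv (a⁻¹ • v) _), tv_sq, one_mul,
      mul_assoc (tv _ _), ← mul_assoc (tv (b⁻¹ • v + a • u) _), tv_sq, one_mul, y.smT, y.smT,
      tv_smul a (y.iso' h a), tv_smul b (y.iso' h b), smul_smul, smul_smul,
      ← tv_add (y.iso' h _) (y.iso' h _), ← add_smul] at k4
    rwa [CharTwo.add_sq, pow_two, pow_two]
  have : PerfectRing K 2 := PerfectRing.ofFiniteOfIsReduced 2 K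
  obtain ⟨b, rfl⟩ := (frobeniusEquiv K 2).surjective c
  rcases eq_or_ne b 0 with rfl | hb
  · rw [map_zero, zero_smul, tv_zero, map_one]; exact one_mem _
  obtain ⟨μ, h0, h1⟩ := exists_ne01 hK
  have := key (μ * b) ((μ + 1) * b) (mul_ne_zero h0 hb)
    (mul_ne_zero (fun e => h1 (CharTwo.add_eq_zero.1 e)) hb)
  rwa [← add_mul, ← add_assoc, CharTwo.add_self_eq_zero, zero_add, one_mul] at this

omit [Finite G] [Finite K] [CharP K 2] in
theorem ne_smul {u v : ι → K} (h : T n ⬝ᵥ u = 0) (e : T u ⬝ᵥ v ≠ 0) (a : K) : v ≠ a • n := by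
  rintro rfl
  exact e (by rw [dotProduct_smul, y.sym, h, smul_zero])

theorem step (h : Su r s) (hK : 2 < Nat.card K) {u v : ι → K} (hu : T n ⬝ᵥ u = 0)
    (hv : T n ⬝ᵥ v = 0) (e : T u ⬝ᵥ v ≠ 0) :
    ∃ g ∈ r.range.comap ρ ⊓ Sb n (T n), g.1 *ᵥ u = v := by
  have h1 : T n ⬝ᵥ (u + v) = 0 := by rw [dotProduct_add, hu, hv, add_zero]
  have h2 : T u ⬝ᵥ (u + v) = T u ⬝ᵥ v := by rw [dotProduct_add, y.iso hu, zero_add]
  refine ⟨tv (u + v) ((T u ⬝ᵥ v)⁻¹ • T (u + v)), ⟨h.o2 (k := 1)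
    (y.od' hK h1 (y.ne_smul hu (h2 ▸ e)) _) (by rw [pow_one, pow_two, ← map_mul, tv_sq, map_one]),
    tv_mem_Sb (y.iso' h1 _) (by rw [smul_dotProduct, y.sym (u + v), h1, smul_zero]) h1⟩, ?_⟩
  rw [tv_mulVec (y.iso' h1 _), smul_dotProduct, y.sym (u + v), h2, smul_eq_mul, inv_mul_cancel₀ e, one_smul,
    ← add_assoc, vadd_self, zero_add]

theorem trans (h : Su r s) (hK : 2 < Nat.card K) {u v : ι → K} (hu : T n ⬝ᵥ u = 0)
    (hu' : ∀ a : K, u ≠ a • n) (hv : T n ⬝ᵥ v = 0) (hv' : ∀ a : K, v ≠ a • n) :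
    ∃ g ∈ r.range.comap ρ ⊓ Sb n (T n), g.1 *ᵥ u = v := by
  obtain ⟨z, h1, h2, h3⟩ : ∃ z, T n ⬝ᵥ z = 0 ∧ T u ⬝ᵥ z ≠ 0 ∧ T v ⬝ᵥ z ≠ 0 := by
    obtain ⟨a, a1, a2⟩ := y.partner hu'
    obtain ⟨b, b1, b2⟩ := y.partner hv'
    by_cases ha : T v ⬝ᵥ a = 0
    · by_cases hb : T u ⬝ᵥ b = 0
      · exact ⟨a + b, by simp [a1, b1], by simp [a2, hb], by simp [ha, b2]⟩
      · exact ⟨b, b1, hb, by simp [b2]⟩
    · exact ⟨a, a1, by simp [a2], ha⟩
  obtain ⟨g, hg, e⟩ := y.step h hK hu h1 h2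
  obtain ⟨g', hg', e'⟩ := y.step h hK h1 hv (by rwa [y.sym])
  exact ⟨g' * g, mul_mem hg' hg, by rw [mul_mulVec', e, e']⟩

theorem orbit (h : Su r s) (hρ : Rp ρ) (hc : Nat.card K = Nat.card F ^ 2) {N : ℕ}
    (hN : Fintype.card ι < N) (h6 : ¬ (Nat.card F = 2 ∧ N = 6)) :
    ¬ Nat.card F ^ N - 1 ∣ {u : ι → K | T n ⬝ᵥ u = 0 ∧ ∀ a : K, u ≠ a • n}.ncard := by
  intro hd
  have h3 := h.three
  have hF : 1 < Nat.card F := Finite.one_lt_card
  have hK : 2 < Nat.card K := by rw [hc]; nlinarith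
  have : Nonempty ι := Fintype.card_pos_iff.1 (by omega)
  obtain ⟨p, hp⟩ := zsigmondy hF (by omega : 1 < N) h6 (by omega)
  have := Fact.mk hp.1
  obtain ⟨u, hu, hu'⟩ := exists_ker_notMem (a := 1) (b := 1) (by omega) ![T n] ![n]
  have hu1 : T n ⬝ᵥ u = 0 := hu 0
  have hu2 : ∀ a : K, u ≠ a • n := fun a e =>
    hu' (e ▸ Submodule.smul_mem _ a (Submodule.subset_span ⟨0, rfl⟩))
  let Y : Subgroup (SpecialLinearGroup ι K) := r.range.comap ρ ⊓ Sb n (T n)
  let : MulAction Y (ι → K) := MulAction.compHom _ (SpecialLinearGroup.toLin'.comp Y.subtype)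
  have ho : MulAction.orbit Y u = {u : ι → K | T n ⬝ᵥ u = 0 ∧ ∀ a : K, u ≠ a • n} := by
    ext v
    constructor
    · rintro ⟨g, rfl⟩
      obtain ⟨a, a0, a1, a2⟩ := g.2.2
      refine ⟨?_, fun b e => hu2 (b * a⁻¹) ?_⟩
      · change T n ⬝ᵥ g.1.1 *ᵥ u = 0
        rw [← vecMul_dot, a2, smul_dotProduct, hu1, smul_zero]
      · rw [← inv_mulVec_of e, mulVec_smul, inv_mulVec_smul a0 a1, smul_smul]
    · rintro ⟨h1, h2⟩
      obtain ⟨g, hg, e⟩ := y.trans h hK hu1 hu2 h1 h2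
      exact ⟨⟨g, hg⟩, e⟩
  have hi := (MulAction.index_stabilizer Y u).trans (congrArg Set.ncard ho)
  obtain ⟨g, hg⟩ := exists_prime_orderOf_dvd_card' (G := Y) p
    ((hp.2.1.trans hd).trans (hi ▸ index_dvd_card _))
  obtain ⟨x, hx⟩ := g.2.1
  rw [← orderOf_coe] at hg
  rcases (Nat.dvd_prime hp.1).1 (hg ▸ orderOf_map_dvd ρ g.1) with e | e
  · have h1 := Subgroup.orderOf_dvd_natCard _ (hρ.ker _ (orderOf_eq_one_iff.1 e))
    rw [hg, Class.card_center_SL, hc] at h1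
    exact hp.2.2 2 two_pos (by omega) (h1.trans (Nat.gcd_dvd_right _ _))
  · refine not_dvd_card_SL hN hp (dvd_trans ?_ (orderOf_dvd_natCard x))
    rw [← e, ← hx]
    exact orderOf_map_dvd r x

/-- the unipotent radical of the stabiliser of `n` -/
def E (h0 : T n ⬝ᵥ n = 0) : Subgroup (SpecialLinearGroup ι K) where
  carrier := {g | ∃ (u : ι → K) (c : K), T n ⬝ᵥ u = 0 ∧
    ∀ x, g.1 *ᵥ x = x + (T n ⬝ᵥ x) • u + (T u ⬝ᵥ x + c * T n ⬝ᵥ x) • n}
  one_mem' := ⟨0, 0, by simp, by simp⟩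
  mul_mem' := by
    rintro a b ⟨u, c, h, e⟩ ⟨v, d, h', e'⟩
    refine ⟨u + v, c + d + T u ⬝ᵥ v, by simp [h, h'], fun x => ?_⟩
    simp only [mul_mulVec', e, e', dotProduct_add, dotProduct_smul, h', h0, y.sym u n, h, map_add,
      add_dotProduct, smul_eq_mul]
    module
  inv_mem' := by
    rintro a ⟨u, c, h, e⟩
    refine ⟨u, c, h, fun x => inv_mulVec_of ?_⟩
    simp only [e, dotProduct_add, dotProduct_smul, h0, y.sym u n, h, y.iso h, smul_eq_mul]
    have h2 : (2 : K) = 0 := CharTwo.two_eq_zero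
    ext i
    simp only [Pi.add_apply, Pi.smul_apply, smul_eq_mul]
    linear_combination ((T n ⬝ᵥ x) * u i + (T u ⬝ᵥ x + c * T n ⬝ᵥ x) * n i) * h2

omit [Finite G] [Finite K] in
theorem el_E (h0 : T n ⬝ᵥ n = 0) : El (y.E h0) := by
  rintro a ⟨u, c, h, e⟩
  refine slext fun x => ?_
  rw [show (1 : SpecialLinearGroup ι K).1 *ᵥ x = x from one_mulVec x]
  simp only [mul_mulVec', e, dotProduct_add, dotProduct_smul, h0, y.sym u n, h, y.iso h, smul_eq_mul]
  have h2 : (2 : K) = 0 := CharTwo.two_eq_zero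
  ext i
  simp only [Pi.add_apply, Pi.smul_apply, smul_eq_mul]
  linear_combination ((T n ⬝ᵥ x) * u i + (T u ⬝ᵥ x + c * T n ⬝ᵥ x) * n i) * h2

omit [Finite G] [Finite K] [CharP K 2] in
theorem tv_E (h0 : T n ⬝ᵥ n = 0) {u : ι → K} (h : T n ⬝ᵥ u = 0) (c : K) (x : ι → K) :
    (tv u (T n) * tv n (T u + c • T n)).1 *ᵥ x =
      x + (T n ⬝ᵥ x) • u + (T u ⬝ᵥ x + c * T n ⬝ᵥ x) • n := by
  have h1 : (T u + c • T n) ⬝ᵥ n = 0 := by simp [y.sym u n, h, h0]
  simp only [mul_mulVec', tv_mulVec h, tv_mulVec h1, dotProduct_add, dotProduct_smul, h0,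
    add_dotProduct, smul_dotProduct, smul_eq_mul]
  module

omit [Finite G] [Finite K] in
theorem E_le (h0 : T n ⬝ᵥ n = 0) : (y.E h0).map ρ ≤ centralizer {s} := by
  rintro _ ⟨a, ⟨u, c, h, e⟩, rfl⟩
  have h1 : (T u + c • T n) ⬝ᵥ n = 0 := by simp [y.sym u n, h, h0]
  have h2 : T u ⬝ᵥ n = 0 := by rw [y.sym, h]
  have h3 : T n ⬝ᵥ (u + c • n) = 0 := by simp [h, h0]
  have e1 : a = tv u (T n) * tv n (T u + c • T n) := slext fun x => by rw [e, y.tv_E h0 h]
  have e2 : a = tv n (T u) * tv (u + c • n) (T n) := slext fun x => by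
    simp only [e, mul_mulVec', tv_mulVec h2, tv_mulVec h3, dotProduct_add, dotProduct_smul, h2,
      y.iso h, smul_eq_mul]
    module
  have k1 := y.ty u _ h
  have k2 := y.ty n _ h1
  rw [y.ST] at k1
  rw [← y.smT, ← map_add, y.ST, map_add, y.smT] at k2
  rw [mem_centralizer_singleton_iff, eq_comm, ← mul_inv_eq_iff_eq_mul]
  conv_lhs => rw [e1, map_mul, ← conj_mul, k1, k2, ← map_mul, ← e2]

omit [Finite G] in
theorem card_E (h0 : T n ⬝ᵥ n = 0) (hn : T n ≠ 0) :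
    Nat.card {v : ι → K // v ⬝ᵥ T n = 0} ≤ Nat.card (y.E h0) := by
  obtain ⟨x, hx⟩ := exists_dot0 hn
  rw [dotProduct_comm] at hx
  have : ∀ v : {v : ι → K // v ⬝ᵥ T n = 0}, ∃ g : y.E h0, g.1.1 *ᵥ x = x + v := fun ⟨v, hv⟩ => by
    rw [dotProduct_comm] at hv
    have h1 : T n ⬝ᵥ (v + (T v ⬝ᵥ x) • n) = 0 := by simp [hv, h0]
    refine ⟨⟨_, _, T v ⬝ᵥ x, h1, y.tv_E h0 h1 _⟩, ?_⟩
    rw [y.tv_E h0 h1, map_add, y.smT, add_dotProduct, smul_dotProduct, hx, one_smul, smul_eq_mul,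
      mul_one, CharTwo.add_self_eq_zero, zero_add, add_assoc, add_assoc, vadd_self, add_zero]
  choose f hf using this
  exact Nat.card_le_card_of_injective f fun a b e =>
    Subtype.ext (add_left_cancel ((hf a).symm.trans (e ▸ hf b)))

theorem small (h : Su r s) (hρ : Rp ρ) (hc : Nat.card K = Nat.card F ^ 2) (h0 : T n ⬝ᵥ n = 0)
    (hn : T n ≠ 0) : 5 < Fintype.card ι := by
  by_contra h5
  have hle := y.E_le h0
  have hE := el_map (ρ := ρ) (y.el_E h0)
  have cs : ∀ a ∈ (y.E h0).map ρ, a * s = s * a := fun a ha =>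
    mem_centralizer_singleton_iff.1 (hle ha)
  let A : Subgroup G :=
    { carrier := {x | x ∈ (y.E h0).map ρ ∨ ∃ a ∈ (y.E h0).map ρ, x = a * s}
      one_mem' := Or.inl (one_mem _)
      mul_mem' := by
        rintro a b (ha | ⟨a, ha, rfl⟩) (hb | ⟨b, hb, rfl⟩)
        · exact Or.inl (mul_mem ha hb)
        · exact Or.inr ⟨_, mul_mem ha hb, (mul_assoc _ _ _).symm⟩
        · exact Or.inr ⟨_, mul_mem ha hb, by rw [mul_assoc, ← cs b hb, mul_assoc]⟩
        · refine Or.inl ?_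
          rw [mul_assoc, ← mul_assoc s, ← cs b hb, mul_assoc, h.tt, mul_one]
          exact mul_mem ha hb
      inv_mem' := by
        rintro a (ha | ⟨a, ha, rfl⟩)
        · exact Or.inl (inv_mem ha)
        · exact Or.inr ⟨_, inv_mem ha, by
            rw [_root_.mul_inv_rev, inv_eq_of_mul_eq_one_left h.tt, cs _ (inv_mem ha)]⟩ }
  have hA : El A := by
    rintro a (ha | ⟨a, ha, rfl⟩)
    · exact hE a ha
    · rw [mul_assoc, ← mul_assoc s, ← cs a ha, mul_assoc, h.tt, mul_one, hE a ha]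
  have hA' : A ≤ centralizer {s} := by
    rintro a (ha | ⟨a, ha, rfl⟩)
    · exact hle ha
    · exact mul_mem (hle ha) (mem_centralizer_singleton_iff.2 rfl)
  have hlt : (y.E h0).map ρ < A := lt_of_le_of_ne (fun a ha => Or.inl ha) fun e =>
    not_inner h hρ hc (map_le_range ρ _ (e ▸ Or.inr ⟨1, one_mem _, (one_mul s).symm⟩ :
      s ∈ (y.E h0).map ρ))
  have h1 : 2 * Nat.card ((y.E h0).map ρ) ≤ Nat.card A := by
    obtain ⟨k, hk⟩ := card_dvd_of_le hlt.le
    by_contra h2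
    refine hlt.ne (eq_of_le_of_card_ge hlt.le ?_)
    rw [hk] at h2 ⊢
    have h3 : k ≤ 1 := by
      by_contra h3
      exact h2 (mul_comm 2 _ ▸ Nat.mul_le_mul_left _ (by omega))
    exact (Nat.mul_le_mul_left _ h3).trans (mul_one _).le
  rw [hρ.card_map (El.two (y.el_E h0))] at h1
  have h2 := y.card_E h0 hn
  have h3 := card_ker1 hn
  obtain ⟨h4, h6⟩ := card_le h hA hA'
  have h7 := h.three
  have h8 := h.hq
  have hF : 1 < Nat.card F := Finite.one_lt_card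
  rw [hc] at h3
  generalize Nat.card {v : ι → K // v ⬝ᵥ T n = 0} = a at h2 h3
  generalize Nat.card F = q at *
  have h9 : ∀ k, q ^ k * q ^ 2 = (q ^ 2) ^ Fintype.card ι → a = q ^ k := fun k e =>
    Nat.eq_of_mul_eq_mul_right (by positivity) (h3.trans e.symm)
  have h10 : ∀ k, a = q ^ k * q ^ 2 → Fintype.card ι ^ 2 / 4 = k → q ^ 2 ≤ 4 ∧ (q = 2 → q ^ 2 ≤ 2) :=
    fun k e e' => by
      rw [e'] at h4 h6
      have : 0 < q ^ k := by positivity
      exact ⟨by nlinarith, fun e => by have := h6 e; nlinarith⟩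
  have h11 : q ^ 2 ≤ 4 ∧ (q = 2 → q ^ 2 ≤ 2) := by
    have : Fintype.card ι = 3 ∨ Fintype.card ι = 4 ∨ Fintype.card ι = 5 := by omega
    rcases this with e | e | e <;> rw [e] at h9 h10
    · exact h10 2 ((h9 4 (by ring)).trans (by ring)) rfl
    · exact h10 4 ((h9 6 (by ring)).trans (by ring)) rfl
    · exact h10 6 ((h9 8 (by ring)).trans (by ring)) rfl
  have h12 : q = 2 := by nlinarith [h11.1]
  have := h11.2 h12
  rw [h12] at this
  omega

end Sy

end UfA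

variable {F K ι G : Type*} [Field F] [Field K] [Fintype ι] [DecidableEq ι] [Group G] [CharP F 2]
  [CharP K 2] [Finite F] [Finite K] [Finite G] {r : SpecialLinearGroup ι F →* G} {t s : G}
  {ρ : SpecialLinearGroup ι K →* G}

theorem Su.not_inner (h : Su r s) (hρ : Rp ρ) (hc : Nat.card K = Nat.card F ^ 2) : s ∉ ρ.range :=
  UfA.not_inner h hρ hc

theorem Su.not_sym (h : Su r s) (hρ : Rp ρ) (hc : Nat.card K = Nat.card F ^ 2) :
    ¬ AcII ρ s (RingEquiv.refl K) := fun hA => by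
  obtain ⟨T, S, n, y⟩ := UfA.exists_sy hρ h.tt hA
  have h3 := h.three
  have hq := h.hq
  have hK : 0 < Nat.card K := Nat.card_pos
  have hs := Set.ncard_inter_add_ncard_diff_eq_ncard {u : ι → K | T n ⬝ᵥ u = 0}
    (Set.range fun a : K => a • n) (Set.toFinite _)
  rw [show {u : ι → K | T n ⬝ᵥ u = 0} \ (Set.range fun a : K => a • n) =
    {u : ι → K | T n ⬝ᵥ u = 0 ∧ ∀ a : K, u ≠ a • n} from Set.ext fun u => and_congr_right fun _ =>
      ⟨fun h a e => h ⟨a, e.symm⟩, fun h ⟨a, e⟩ => h a e.symm⟩] at hs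
  by_cases hn : n = 0
  · refine y.orbit h hρ hc (N := 2 * Fintype.card ι) (by omega) (by omega) (dvd_of_eq ?_)
    subst hn
    simp only [map_zero, zero_dotProduct, Set.setOf_true, smul_zero, Set.range_const, Set.univ_inter,
      Set.ncard_singleton, Set.ncard_univ, Nat.card_fun, Nat.card_eq_fintype_card (α := ι)] at hs ⊢
    rw [pow_mul, ← hc]
    omega
  have hn' : T n ≠ 0 := fun e => hn (T.map_eq_zero_iff.1 e)
  have h1 : {u : ι → K | T n ⬝ᵥ u = 0}.ncard = Nat.card K ^ (Fintype.card ι - 1) := by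
    refine Nat.eq_of_mul_eq_mul_right hK ?_
    rw [← pow_succ, Nat.sub_add_cancel (by omega), ← card_ker1 hn', ← Nat.card_coe_set_eq]
    simp only [dotProduct_comm (T n)]
    rfl
  rw [h1] at hs
  by_cases h0 : T n ⬝ᵥ n = 0
  · have h5 := y.small h hρ hc h0 hn'
    refine y.orbit h hρ hc (N := 2 * (Fintype.card ι - 2)) (by omega) (by omega)
      ⟨Nat.card K, ?_⟩
    rw [Set.inter_eq_right.2 (by rintro _ ⟨a, rfl⟩; simp [h0]),
      Set.ncard_range_of_injective (smul_left_injective K hn)] at hs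
    rw [pow_mul, ← hc, Nat.sub_mul, ← pow_succ, show Fintype.card ι - 2 + 1 = Fintype.card ι - 1 by omega]
    omega
  · refine y.orbit h hρ hc (N := 2 * (Fintype.card ι - 1)) (by omega) (by omega) (dvd_of_eq ?_)
    rw [show {u : ι → K | T n ⬝ᵥ u = 0} ∩ (Set.range fun a : K => a • n) = {0} from Set.ext fun u =>
      ⟨by rintro ⟨h1, a, rfl⟩; simp_all, by rintro rfl; exact ⟨by simp, 0, by simp⟩⟩,
      Set.ncard_singleton] at hs
    rw [pow_mul, ← hc]
    omega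

end Cfsg.Agent.StdL
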